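import Mathlib
import Cfsg.Agent.Helper24.CyclicMax

set_option autoImplicit false

namespace Cfsg.Agent.Helper11

/-- `(1 + d) ^ j ≡ 1 + j * d` modulo any divisor of `d * d`. -/
theorem one_add_pow_modEq {M d : ℕ} (hd : M ∣ d * d) (j : ℕ) :
    (1 + d) ^ j ≡ 1 + j * d [MOD M] := by
  induction j with
  | zero =>
    have h0 : (1 + d) ^ 0 = 1 + 0 * d := by ring
    show (1 + d) ^ 0 % M = (1 + 0 * d) % M
    rw [h0]
  | succ j ih =>
    have h1 : (1 + d) ^ (j + 1) ≡ (1 + j * d) * (1 + d) [MOD M] := by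
      rw [pow_succ]
      exact ih.mul_right (1 + d)
    have h2 : (1 + j * d) * (1 + d) = 1 + (j + 1) * d + j * (d * d) := by ring
    rw [h2] at h1
    obtain ⟨w, hw⟩ := hd
    rw [hw] at h1
    have h3 : 1 + (j + 1) * d + j * (M * w) = 1 + (j + 1) * d + M * (j * w) := by ring
    rw [h3] at h1
    have h4 : 1 + (j + 1) * d + M * (j * w) ≡ 1 + (j + 1) * d [MOD M] := by
      show (1 + (j + 1) * d + M * (j * w)) % M = (1 + (j + 1) * d) % M
      exact Nat.add_mul_mod_self_left _ M (j * w)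
    exact h1.trans h4

/-- If `r ≡ 1` modulo `q` but not modulo `p * q` (with `p ∣ q`), some power of `r` is
`≡ 1 + q` modulo `p * q`. -/
theorem cycodd_arith {p q r : ℕ} (hp : p.Prime) (hq : p ∣ q) (hr : r ≡ 1 [MOD q])
    (hr1 : ¬ r ≡ 1 [MOD p * q]) : ∃ j : ℕ, r ^ j ≡ 1 + q [MOD p * q] := by
  have hr0 : 1 ≤ r := by
    by_contra h0
    have hr00 : r = 0 := by omega
    rw [hr00] at hr
    have h1 : q ∣ 1 := by
      have h := (Nat.modEq_iff_dvd' (Nat.zero_le 1)).mp hr
      simpa using h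
    exact hp.one_lt.ne' (Nat.dvd_one.mp (hq.trans h1))
  obtain ⟨e, he⟩ : q ∣ r - 1 := (Nat.modEq_iff_dvd' hr0).mp hr.symm
  have hre : r = 1 + q * e := by omega
  have hpe : ¬ p ∣ e := by
    rintro ⟨e', he'⟩
    apply hr1
    rw [hre, he']
    have h3 : 1 + q * (p * e') = 1 + p * q * e' := by ring
    rw [h3]
    show (1 + p * q * e') % (p * q) = 1 % (p * q)
    exact Nat.add_mul_mod_self_left 1 (p * q) e'
  have hcop : Nat.Coprime e p := ((Nat.Prime.coprime_iff_not_dvd hp).mpr hpe).symm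
  obtain ⟨j, -, hj⟩ := Nat.exists_mul_mod_eq_one_of_coprime hcop hp.one_lt
  refine ⟨j, ?_⟩
  have hdd : p * q ∣ (q * e) * (q * e) := by
    obtain ⟨q', hq'⟩ := hq
    refine ⟨q' * e * e, ?_⟩
    have h4 : q * e * (q * e) = p * q' * e * (q * e) := by rw [← hq']
    rw [h4]
    ring
  have h5 : (1 + q * e) ^ j ≡ 1 + j * (q * e) [MOD p * q] := one_add_pow_modEq hdd j
  obtain ⟨t, ht⟩ : ∃ t, e * j = p * t + 1 := ⟨e * j / p, by
    have h7 := Nat.div_add_mod (e * j) p
    rw [hj] at h7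
    exact h7.symm⟩
  have h6 : 1 + j * (q * e) = 1 + q + p * q * t := by
    have h8 : 1 + j * (q * e) = 1 + q * (e * j) := by ring
    rw [h8, ht]
    ring
  have h9 : 1 + q + p * q * t ≡ 1 + q [MOD p * q] := by
    show (1 + q + p * q * t) % (p * q) = (1 + q) % (p * q)
    exact Nat.add_mul_mod_self_left (1 + q) (p * q) t
  rw [hre]
  rw [h6] at h5
  exact h5.trans h9

/-- A subgroup containing a subgroup of prime index and an element outside it is everything. -/
theorem eq_top_of_index_prime_of_not_le {G : Type*} [Group G] {p : ℕ} (hp : p.Prime)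
    (C K : Subgroup G) (hCi : C.index = p) (hCK : C ≤ K) {x : G} (hxK : x ∈ K) (hxC : x ∉ C) :
    K = ⊤ := by
  have h := Subgroup.relIndex_mul_index hCK
  rw [hCi] at h
  have h1 : C.relIndex K ∣ p := Dvd.intro _ h
  rcases (Nat.dvd_prime hp).mp h1 with h2 | h2
  · exfalso
    exact hxC ((Subgroup.relIndex_eq_one.mp h2) hxK)
  · rw [h2] at h
    have h3 : K.index = 1 := by
      have h4 : p * K.index = p * 1 := by rw [h, mul_one]
      exact Nat.eq_of_mul_eq_mul_left hp.pos h4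
    exact Subgroup.index_eq_one.mp h3

/-- Non-abelian `p`-groups (`p` odd) with a cyclic maximal subgroup are modular. -/
theorem cycodd_main {G : Type*} [Group G] [Finite G] {p : ℕ} [Fact p.Prime] (hp : p ≠ 2) (n : ℕ)
    (hn : 3 ≤ n) (hG : Nat.card G = p ^ n) (C : Subgroup G) (hC : IsCyclic C)
    (hCi : C.index = p) (hna : ∃ x y : G, x * y ≠ y * x) :
    ∃ a b : G, orderOf a = p ^ (n - 1) ∧ orderOf b = p ∧ b ∉ Subgroup.zpowers a ∧
      b * a * b⁻¹ = a ^ (1 + p ^ (n - 2)) := by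
  have hpp : p.Prime := Fact.out
  have hPG : IsPGroup p G := IsPGroup.of_card hG
  have hnc : ¬ IsCyclic G := by
    intro hcyc
    obtain ⟨x, y, hxy⟩ := hna
    obtain ⟨g, hg⟩ := hcyc.exists_generator
    obtain ⟨k, rfl⟩ := Subgroup.mem_zpowers_iff.mp (hg x)
    obtain ⟨l, rfl⟩ := Subgroup.mem_zpowers_iff.mp (hg y)
    exact hxy ((Commute.refl g).zpow_zpow k l).eq
  have hCn : C.Normal := by
    apply Subgroup.normal_of_index_eq_minFac_card
    rw [hCi, hG, hpp.pow_minFac (by omega)]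
  have hCcard : Nat.card C = p ^ (n - 1) := by
    have h := Subgroup.card_mul_index C
    rw [hCi, hG] at h
    have h2 : p ^ n = p ^ (n - 1) * p := by
      rw [← pow_succ]
      congr 1
      omega
    rw [h2] at h
    exact Nat.eq_of_mul_eq_mul_right hpp.pos h
  obtain ⟨g, hg⟩ := hC.exists_generator
  obtain ⟨c, hc'⟩ : ∃ c : G, c = (g : G) := ⟨_, rfl⟩
  have hcC : c ∈ C := hc' ▸ g.2
  have hCz : ∀ y ∈ C, y ∈ Subgroup.zpowers c := by
    intro y hy
    obtain ⟨k, hk⟩ := Subgroup.mem_zpowers_iff.mp (hg ⟨y, hy⟩)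
    refine Subgroup.mem_zpowers_iff.mpr ⟨k, ?_⟩
    have := congrArg Subtype.val hk
    rw [hc']
    simpa using this
  have hCeq : C = Subgroup.zpowers c :=
    le_antisymm hCz (by rw [Subgroup.zpowers_le]; exact hcC)
  have hordc : orderOf c = p ^ (n - 1) := by rw [← Nat.card_zpowers, ← hCeq, hCcard]
  obtain ⟨K, hK, hKcard⟩ := Helper24.omega_of_cyclic_index_p hp hPG hnc C hC hCi
  obtain ⟨b, hbK, hbC⟩ : ∃ b, b ∈ K ∧ b ∉ C := by
    by_contra hcon
    push Not at hcon
    have hKC : K ≤ C := hcon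
    haveI := hC
    haveI hKcyc : IsCyclic K :=
      isCyclic_of_injective (Subgroup.inclusion hKC) (Subgroup.inclusion_injective hKC)
    obtain ⟨k0, hk0⟩ := hKcyc.exists_generator
    have h1 : orderOf k0 = Nat.card K := orderOf_eq_card_of_forall_mem_zpowers hk0
    have h2 : k0 ^ p = 1 := Subtype.ext (by simpa using (hK (k0 : G)).mp k0.2)
    have h3 : orderOf k0 ∣ p := orderOf_dvd_of_pow_eq_one h2
    rw [h1, hKcard] at h3
    have h4 : p ^ 2 ≤ p := Nat.le_of_dvd hpp.pos h3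
    have h5 := hpp.two_le
    have h6 : p * 2 ≤ p * p := Nat.mul_le_mul_left p h5
    rw [pow_two] at h4
    omega
  have hbp : b ^ p = 1 := (hK b).mp hbK
  have h1 : b * c * b⁻¹ ∈ Subgroup.zpowers c := hCz _ (hCn.conj_mem c hcC b)
  rw [← mem_powers_iff_mem_zpowers] at h1
  obtain ⟨r, hr⟩ := (Submonoid.mem_powers_iff _ _).mp h1
  have h2 : r ^ p ≡ 1 [MOD p ^ (n - 1)] := by
    rw [← hordc]
    apply pow_eq_pow_iff_modEq.mp
    have h3 := Helper24.conj_pow_eq_pow_pow hr.symm p
    rw [hbp] at h3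
    rw [pow_one, ← h3]
    group
  have hn1 : 1 ≤ n - 1 := by omega
  obtain ⟨h5, -⟩ := Helper24.modEq_one_of_pow_prime_modEq_one hpp hp hn1 h2
  have e1 : n - 1 - 1 = n - 2 := by omega
  rw [e1] at h5
  obtain ⟨q, hq⟩ : ∃ q, q = p ^ (n - 2) := ⟨_, rfl⟩
  rw [← hq] at h5
  have hM : p ^ (n - 1) = p * q := by
    rw [hq, ← pow_succ']
    congr 1
    omega
  have hpq : p ∣ q := by
    rw [hq]
    exact dvd_pow_self p (by omega)
  have hqpos : 0 < q := by
    rw [hq]
    exact pow_pos hpp.pos _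
  have hr1 : ¬ r ≡ 1 [MOD p * q] := by
    intro hmod
    rw [← hM, ← hordc] at hmod
    have h6 : c ^ r = c ^ 1 := pow_eq_pow_iff_modEq.mpr hmod
    rw [pow_one] at h6
    have hbc : b * c = c * b := by
      have h7 : b * c = (b * c * b⁻¹) * b := by group
      rw [h7, ← hr, h6]
    obtain ⟨x, y, hxy⟩ := hna
    apply hxy
    have hCZ : C ≤ Subgroup.centralizer ({c} : Set G) := by
      intro y hy
      rw [Subgroup.mem_centralizer_iff]
      intro h hh
      rw [Set.mem_singleton_iff] at hh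
      rw [hh]
      obtain ⟨k, rfl⟩ := Subgroup.mem_zpowers_iff.mp (hCz y hy)
      exact ((Commute.refl c).zpow_right k).eq
    have hbZ : b ∈ Subgroup.centralizer ({c} : Set G) := by
      rw [Subgroup.mem_centralizer_iff]
      intro h hh
      rw [Set.mem_singleton_iff] at hh
      rw [hh]
      exact hbc.symm
    have hZ := eq_top_of_index_prime_of_not_le hpp C _ hCi hCZ hbZ hbC
    have hccen : c ∈ Subgroup.center G := by
      rw [Subgroup.mem_center_iff]
      intro g
      have hg : g ∈ Subgroup.centralizer ({c} : Set G) := by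
        rw [hZ]
        exact Subgroup.mem_top g
      rw [Subgroup.mem_centralizer_iff] at hg
      exact (hg c (Set.mem_singleton c)).symm
    have hcen : C ≤ Subgroup.center G := by
      rw [hCeq, Subgroup.zpowers_le]
      exact hccen
    haveI := hCn
    haveI : IsCyclic (G ⧸ C) :=
      isCyclic_of_prime_card (p := p) (show Nat.card (G ⧸ C) = p from hCi)
    exact commutative_of_cyclic_center_quotient (QuotientGroup.mk' C)
      (by rw [QuotientGroup.ker_mk']; exact hcen) x y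
  obtain ⟨j, hj⟩ := cycodd_arith hpp hpq h5 hr1
  have hconj : b ^ j * c * (b ^ j)⁻¹ = c ^ (1 + q) := by
    rw [Helper24.conj_pow_eq_pow_pow hr.symm j]
    apply pow_eq_pow_iff_modEq.mpr
    rw [hordc, hM]
    exact hj
  have hqM : ¬ (1 + q ≡ 1 [MOD p * q]) := by
    intro h
    have h7 : (1 + q) % (p * q) = 1 % (p * q) := h
    have h10 : 2 * q ≤ p * q := Nat.mul_le_mul_right q hpp.two_le
    have h11 : p ≤ q := Nat.le_of_dvd hqpos hpq
    have h12 := hpp.two_le
    have h8 : 1 + q < p * q := by omega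
    have h9 : 1 < p * q := by omega
    rw [Nat.mod_eq_of_lt h8, Nat.mod_eq_of_lt h9] at h7
    omega
  have hbn : b ^ j ∉ Subgroup.zpowers c := by
    intro hmem
    obtain ⟨k, hk⟩ := Subgroup.mem_zpowers_iff.mp hmem
    have hcomm : b ^ j * c * (b ^ j)⁻¹ = c := by
      rw [← hk]
      have h13 : Commute (c ^ k) c := (Commute.refl c).zpow_left k
      rw [h13.eq, mul_inv_cancel_right]
    rw [hconj] at hcomm
    apply hqM
    rw [← hM, ← hordc]
    apply pow_eq_pow_iff_modEq.mp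
    rw [pow_one]
    exact hcomm
  have hbjp : (b ^ j) ^ p = 1 := by rw [← pow_mul, mul_comm, pow_mul, hbp, one_pow]
  have hbj1 : b ^ j ≠ 1 := by
    intro h
    apply hbn
    rw [h]
    exact Subgroup.one_mem _
  refine ⟨c, b ^ j, hordc, orderOf_eq_prime hbjp hbj1, hbn, ?_⟩
  rw [hconj, hq]

end Cfsg.Agent.Helper11
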