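import Mathlib
import Cfsg.Prelude.Def_Transfer
import Cfsg.Agent.Helper4.ElemAb
import Cfsg.Agent.Helper4.CardMul
import Cfsg.Agent.Helper9.Comp
import Cfsg.Agent.Helper17.Basic
import Cfsg.Agent.Helper11.TwoGroup

set_option autoImplicit false

namespace Cfsg.Agent.Helper11

section EA8

variable {X : Type*} [Group X]

theorem ea_comm {A : Subgroup X} (hA : Cfsg.IsElementaryAbelian 2 A) :
    ∀ u ∈ A, ∀ v ∈ A, u * v = v * u :=
  fun _ hu _ hv => Cfsg.Agent.Helper17.comm_of_isMulCommutative A hA.1 hu hv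

theorem card_le_sq_centralizer [Finite X] (W : Subgroup X) (hW : Cfsg.IsElementaryAbelian 2 W)
    (a : X) (ha : a ^ 2 = 1) (hn : ∀ w ∈ W, a * w * a⁻¹ ∈ W) :
    Nat.card ↥W ≤ Nat.card ↥(W ⊓ Subgroup.centralizer ({a} : Set X)) ^ 2 := by
  have hcomm := ea_comm hW
  have hW2 := hW.2
  have hinv : ∀ w ∈ W, w⁻¹ = w := fun w hw => by
    have := hW2 w hw
    rw [pow_two] at this
    exact inv_eq_of_mul_eq_one_left this
  have hainv : a⁻¹ = a := by
    rw [pow_two] at ha
    exact inv_eq_of_mul_eq_one_left ha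
  let f : ↥W →* ↥W :=
    { toFun := fun w => ⟨w * (a * w * a⁻¹), W.mul_mem w.2 (hn w w.2)⟩
      map_one' := by
        apply Subtype.ext
        simp
      map_mul' := by
        intro u v
        apply Subtype.ext
        show (u : X) * v * (a * (u * v) * a⁻¹) = u * (a * u * a⁻¹) * (v * (a * v * a⁻¹))
        have h1 : (v : X) * (a * u * a⁻¹) = (a * u * a⁻¹) * v := hcomm _ v.2 _ (hn u u.2)
        calc (u : X) * v * (a * (u * v) * a⁻¹)
            = u * (v * (a * u * a⁻¹)) * (a * v * a⁻¹) := by group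
          _ = u * ((a * u * a⁻¹) * v) * (a * v * a⁻¹) := by rw [h1]
          _ = u * (a * u * a⁻¹) * (v * (a * v * a⁻¹)) := by group }
  have hf : ∀ w : ↥W, ((f w : ↥W) : X) = w * (a * w * a⁻¹) := fun _ => rfl
  have hker : f.ker ≤ (W ⊓ Subgroup.centralizer ({a} : Set X)).subgroupOf W := by
    intro w hw
    rw [MonoidHom.mem_ker] at hw
    have hw' : (w : X) * (a * w * a⁻¹) = 1 := by
      rw [← hf w, hw]; rfl
    rw [Subgroup.mem_subgroupOf]
    refine Subgroup.mem_inf.mpr ⟨w.2, ?_⟩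
    rw [Subgroup.mem_centralizer_iff]
    intro h hh
    rw [Set.mem_singleton_iff] at hh
    subst hh
    have h2 : h * w * h⁻¹ = (w : X) := by
      have := eq_inv_of_mul_eq_one_right hw'
      rw [this, hinv w w.2]
    calc h * (w : X) = (h * w * h⁻¹) * h := by group
      _ = w * h := by rw [h2]
  have hrange : f.range ≤ (W ⊓ Subgroup.centralizer ({a} : Set X)).subgroupOf W := by
    rintro _ ⟨w, rfl⟩
    rw [Subgroup.mem_subgroupOf]
    refine Subgroup.mem_inf.mpr ⟨(f w).2, ?_⟩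
    rw [Subgroup.mem_centralizer_iff]
    intro h hh
    rw [Set.mem_singleton_iff] at hh
    subst hh
    rw [hf w]
    have h1 : (w : X) * (h * w * h⁻¹) = (h * w * h⁻¹) * w := hcomm _ w.2 _ (hn w w.2)
    have haa : h * h = 1 := by rw [← pow_two]; exact ha
    calc h * ((w : X) * (h * w * h⁻¹)) = h * w * h * w * h⁻¹ := by group
      _ = h * w * h * w * h := by rw [hainv]
      _ = (h * w * h⁻¹) * w * h := by rw [hainv]
      _ = (w : X) * (h * w * h⁻¹) * h := by rw [h1]
  have h1 := Subgroup.card_eq_card_quotient_mul_card_subgroup f.ker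
  have h2 : Nat.card (↥W ⧸ f.ker) = Nat.card ↥f.range :=
    Nat.card_congr (QuotientGroup.quotientKerEquivRange f).toEquiv
  have h3 : Nat.card ↥((W ⊓ Subgroup.centralizer ({a} : Set X)).subgroupOf W) =
      Nat.card ↥(W ⊓ Subgroup.centralizer ({a} : Set X)) :=
    Nat.card_congr (Subgroup.subgroupOfEquivOfLe inf_le_left).toEquiv
  have h4 := Subgroup.card_le_of_le hker
  have h5 := Subgroup.card_le_of_le hrange
  rw [h3] at h4 h5
  rw [h1, h2, pow_two]
  exact Nat.mul_le_mul h5 h4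

noncomputable def cE (E S : Subgroup X) : ℕ := Nat.card ↥(E ⊓ Subgroup.centralizer (S : Set X))

theorem cE_step [Finite X] (E : Subgroup X) [hEn : E.Normal] (hE : Cfsg.IsElementaryAbelian 2 E)
    (A : Subgroup X) (hA : Cfsg.IsElementaryAbelian 2 A) (S : Subgroup X) (hSA : S ≤ A) (a : X)
    (haA : a ∈ A) : cE E S ≤ cE E (S ⊔ Subgroup.zpowers a) ^ 2 := by
  have hAcomm := ea_comm hA
  have ha2 : a ^ 2 = 1 := hA.2 a haA
  have hW : Cfsg.IsElementaryAbelian 2 (E ⊓ Subgroup.centralizer (S : Set X)) :=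
    Cfsg.Agent.Helper4.isElementaryAbelian_of_le hE inf_le_left
  have hn : ∀ w ∈ E ⊓ Subgroup.centralizer (S : Set X),
      a * w * a⁻¹ ∈ E ⊓ Subgroup.centralizer (S : Set X) := by
    intro w hw
    refine Subgroup.mem_inf.mpr ⟨hEn.conj_mem w hw.1 a, ?_⟩
    rw [Subgroup.mem_centralizer_iff]
    intro s hs
    have c2 : Commute s w := Subgroup.mem_centralizer_iff.mp hw.2 s hs
    have c1 : Commute s a := hAcomm s (hSA hs) a haA
    exact ((c1.mul_right c2).mul_right c1.inv_right).eq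
  have hCL := card_le_sq_centralizer (E ⊓ Subgroup.centralizer (S : Set X)) hW a ha2 hn
  have hle : E ⊓ Subgroup.centralizer (S : Set X) ⊓ Subgroup.centralizer ({a} : Set X) ≤
      E ⊓ Subgroup.centralizer ((S ⊔ Subgroup.zpowers a : Subgroup X) : Set X) := by
    rintro x ⟨⟨hxE, hxS⟩, hxa⟩
    refine Subgroup.mem_inf.mpr ⟨hxE, ?_⟩
    rw [Subgroup.mem_centralizer_iff]
    have hsup : S ⊔ Subgroup.zpowers a ≤ Subgroup.centralizer ({x} : Set X) := by
      apply sup_le
      · intro s hs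
        rw [Subgroup.mem_centralizer_iff]
        intro y hy
        rw [Set.mem_singleton_iff] at hy
        subst hy
        exact (Subgroup.mem_centralizer_iff.mp hxS s hs).symm
      · rw [Subgroup.zpowers_le, Subgroup.mem_centralizer_iff]
        intro y hy
        rw [Set.mem_singleton_iff] at hy
        subst hy
        exact (Subgroup.mem_centralizer_iff.mp hxa a (Set.mem_singleton a)).symm
    intro h hh
    exact (Subgroup.mem_centralizer_iff.mp (hsup hh) x (Set.mem_singleton x)).symm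
  unfold cE
  exact hCL.trans (Nat.pow_le_pow_left (Subgroup.card_le_of_le hle) 2)

theorem cE_chain [Finite X] (E : Subgroup X) [E.Normal] (hE : Cfsg.IsElementaryAbelian 2 E)
    (A : Subgroup X) (hA : Cfsg.IsElementaryAbelian 2 A) (S : Subgroup X) (hSA : S ≤ A) :
    ∃ r : ℕ, 2 ^ r * Nat.card ↥S ≤ Nat.card ↥A ∧ cE E S ≤ cE E A ^ (2 ^ r) := by
  revert hSA
  refine WellFoundedGT.induction (motive := fun S => S ≤ A →
    ∃ r : ℕ, 2 ^ r * Nat.card ↥S ≤ Nat.card ↥A ∧ cE E S ≤ cE E A ^ (2 ^ r)) S ?_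
  intro S ih hSA
  by_cases hEq : S = A
  · subst hEq
    exact ⟨0, by simp, by simp⟩
  · obtain ⟨a, haA, haS⟩ := SetLike.exists_of_lt (lt_of_le_of_ne hSA hEq)
    have hlt : S < S ⊔ Subgroup.zpowers a := by
      refine lt_of_le_of_ne le_sup_left ?_
      intro h
      apply haS
      rw [h]
      exact (le_sup_right : Subgroup.zpowers a ≤ S ⊔ Subgroup.zpowers a) (Subgroup.mem_zpowers a)
    have hle : S ⊔ Subgroup.zpowers a ≤ A :=
      sup_le hSA (by rw [Subgroup.zpowers_le]; exact haA)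
    obtain ⟨r, hr1, hr2⟩ := ih _ hlt hle
    refine ⟨r + 1, ?_, ?_⟩
    · have hdvd := Subgroup.card_dvd_of_le (le_sup_left : S ≤ S ⊔ Subgroup.zpowers a)
      have hne : Nat.card ↥S ≠ Nat.card ↥(S ⊔ Subgroup.zpowers a) := by
        intro hc
        exact hlt.ne (Subgroup.eq_of_le_of_card_ge le_sup_left (le_of_eq hc.symm))
      have hpos : 0 < Nat.card ↥(S ⊔ Subgroup.zpowers a) := Nat.card_pos
      obtain ⟨k, hk⟩ := hdvd
      have hk2 : 2 ≤ k := by
        by_contra hk2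
        push Not at hk2
        interval_cases k
        · rw [mul_zero] at hk
          omega
        · rw [mul_one] at hk
          exact hne hk.symm
      calc 2 ^ (r + 1) * Nat.card ↥S = 2 ^ r * (Nat.card ↥S * 2) := by ring
        _ ≤ 2 ^ r * (Nat.card ↥S * k) :=
            Nat.mul_le_mul_left _ (Nat.mul_le_mul_left _ hk2)
        _ = 2 ^ r * Nat.card ↥(S ⊔ Subgroup.zpowers a) := by rw [hk]
        _ ≤ Nat.card ↥A := hr1
    · calc cE E S ≤ cE E (S ⊔ Subgroup.zpowers a) ^ 2 := cE_step E hE A hA S hSA a haA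
        _ ≤ (cE E A ^ (2 ^ r)) ^ 2 := Nat.pow_le_pow_left hr2 2
        _ = cE E A ^ (2 ^ (r + 1)) := by rw [← pow_mul, pow_succ]

theorem arith_ea (r d : ℕ) (h1 : 2 ^ r * d ≤ 8) (h2 : 32 ≤ d ^ (2 ^ r)) : False := by
  have hr : r ≤ 3 := by
    by_contra hr
    push Not at hr
    have h16 : 2 ^ 4 ≤ 2 ^ r := Nat.pow_le_pow_right (by norm_num) hr
    have hd : d = 0 := by
      by_contra hd
      have hd1 : 1 ≤ d := Nat.one_le_iff_ne_zero.mpr hd
      have h3 : 2 ^ 4 * 1 ≤ 2 ^ r * d := Nat.mul_le_mul h16 hd1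
      have h4 : (2 : ℕ) ^ 4 * 1 = 16 := by norm_num
      rw [h4] at h3
      exact absurd (h3.trans h1) (by norm_num)
    subst hd
    rw [zero_pow (by positivity)] at h2
    omega
  interval_cases r
  · norm_num at h1 h2
    omega
  · norm_num at h1 h2
    have hd : d ≤ 4 := by omega
    interval_cases d <;> norm_num at h2
  · norm_num at h1 h2
    have hd : d ≤ 2 := by omega
    interval_cases d <;> norm_num at h2
  · norm_num at h1 h2
    have hd : d ≤ 1 := by omega
    interval_cases d <;> norm_num at h2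

theorem exists_central_not_mem [Finite X] (E : Subgroup X) [E.Normal]
    (hE : Cfsg.IsElementaryAbelian 2 E) (hE32 : 32 ≤ Nat.card ↥E) (A : Subgroup X)
    (hA : Cfsg.IsElementaryAbelian 2 A) (hA8 : Nat.card ↥A ≤ 8) :
    ∃ y ∈ E, y ∉ A ∧ ∀ x ∈ A, y * x = x * y := by
  by_contra hcon
  push Not at hcon
  obtain ⟨r, hr1, hr2⟩ := cE_chain E hE A hA (A ⊓ E) inf_le_left
  have hEcomm := ea_comm hE
  have h32 : 32 ≤ cE E (A ⊓ E) := by
    unfold cE
    have : E ⊓ Subgroup.centralizer ((A ⊓ E : Subgroup X) : Set X) = E := by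
      apply inf_eq_left.mpr
      intro e he
      rw [Subgroup.mem_centralizer_iff]
      intro d hd
      exact hEcomm d hd.2 e he
    rw [this]
    exact hE32
  have hcA : cE E A ≤ Nat.card ↥(A ⊓ E) := by
    unfold cE
    apply Subgroup.card_le_of_le
    rintro y ⟨hyE, hyA⟩
    refine Subgroup.mem_inf.mpr ⟨?_, hyE⟩
    by_contra hyA'
    obtain ⟨x, hx, hxy⟩ := hcon y hyE hyA'
    exact hxy (Subgroup.mem_centralizer_iff.mp hyA x hx).symm
  exact arith_ea r (Nat.card ↥(A ⊓ E)) (hr1.trans hA8)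
    (h32.trans (hr2.trans (Nat.pow_le_pow_left hcA _)))

theorem ea_sup_zpowers [Finite X] (U : Subgroup X) (hU : Cfsg.IsElementaryAbelian 2 U) (y : X)
    (hy2 : y ^ 2 = 1) (hyU : y ∉ U) (hc : ∀ x ∈ U, y * x = x * y) :
    Cfsg.IsElementaryAbelian 2 (U ⊔ Subgroup.zpowers y) ∧
      Nat.card ↥(U ⊔ Subgroup.zpowers y) = 2 * Nat.card ↥U := by
  have hyc : Subgroup.zpowers y ≤ Subgroup.centralizer (U : Set X) := by
    rw [Subgroup.zpowers_le, Subgroup.mem_centralizer_iff]
    intro x hx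
    exact (hc x hx).symm
  refine ⟨Cfsg.Agent.Helper4.isElementaryAbelian_sup hU
    (Cfsg.Agent.Helper4.isElementaryAbelian_zpowers y hy2) hyc, ?_⟩
  have hy1 : y ≠ 1 := fun h => hyU (h ▸ U.one_mem)
  have ho : orderOf y = 2 := orderOf_eq_prime hy2 hy1
  have hinf : Subgroup.zpowers y ⊓ U = ⊥ := by
    rw [eq_bot_iff]
    rintro x ⟨hxy, hxU⟩
    obtain ⟨k, rfl⟩ := Subgroup.mem_zpowers_iff.mp hxy
    rw [Subgroup.mem_bot]
    obtain ⟨j, rfl | rfl⟩ := Int.even_or_odd' k
    · rw [zpow_mul, zpow_ofNat, hy2, one_zpow]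
    · exfalso
      apply hyU
      rw [zpow_add, zpow_mul, zpow_ofNat, hy2, one_zpow, one_mul, zpow_one] at hxU
      exact hxU
  have hcard := Cfsg.Agent.Helper4.card_sup_mul_card_inf (Subgroup.zpowers y) U (by
    rw [Subgroup.zpowers_le]
    apply mem_normalizer_of_conj_mem
    intro x hx
    rw [hc x hx, mul_inv_cancel_right]
    exact hx)
  rw [hinf, Subgroup.card_bot, mul_one, Nat.card_zpowers, ho, sup_comm] at hcard
  exact hcard

theorem exists_card_four_between [Finite X] (A D : Subgroup X) (hA8 : Nat.card ↥A = 8)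
    (hDA : D < A) : ∃ U : Subgroup X, D ≤ U ∧ U ≤ A ∧ Nat.card ↥U = 4 := by
  have hdvd : Nat.card ↥D ∣ 2 ^ 3 := by
    have := Subgroup.card_dvd_of_le hDA.le
    rw [hA8] at this
    norm_num
    exact this
  obtain ⟨m, hm3, hm⟩ := (Nat.dvd_prime_pow Nat.prime_two).mp hdvd
  have hlt : Nat.card ↥D < 8 := by
    by_contra hge
    push Not at hge
    exact hDA.ne (Subgroup.eq_of_le_of_card_ge hDA.le (by rw [hA8]; exact hge))
  have hm2 : m ≤ 2 := by
    by_contra h
    push Not at h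
    have h3 : m = 3 := by omega
    subst h3
    rw [hm] at hlt
    norm_num at hlt
  have hcardD' : Nat.card ↥(D.subgroupOf A) = 2 ^ m := by
    rw [Nat.card_congr (Subgroup.subgroupOfEquivOfLe hDA.le).toEquiv, hm]
  have h4dvd : 2 ^ 2 ∣ Nat.card ↥A := by
    rw [hA8]
    norm_num
  obtain ⟨K, hK4, hDK⟩ := Sylow.exists_subgroup_card_pow_prime_le 2 h4dvd (D.subgroupOf A)
    hcardD' hm2
  refine ⟨K.map A.subtype, ?_, Subgroup.map_subtype_le K, ?_⟩
  · intro d hd
    exact ⟨⟨d, hDA.le hd⟩, hDK (Subgroup.mem_subgroupOf.mpr hd), rfl⟩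
  · rw [Subgroup.card_subtype, hK4]
    norm_num

def Rel8 (C D : Subgroup X) : Prop :=
  Cfsg.IsElementaryAbelian 2 C ∧ Nat.card ↥C = 8 ∧ Cfsg.IsElementaryAbelian 2 D ∧
    Nat.card ↥D = 8 ∧ ⁅C, D⁆ = ⊥

theorem rel8_symm {C D : Subgroup X} (h : Rel8 C D) : Rel8 D C := by
  obtain ⟨h1, h2, h3, h4, h5⟩ := h
  exact ⟨h3, h4, h1, h2, by rw [Subgroup.commutator_comm]; exact h5⟩

theorem rtg8_symm {A B : Subgroup X} (h : Relation.ReflTransGen Rel8 A B) :
    Relation.ReflTransGen Rel8 B A := by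
  induction h with
  | refl => exact Relation.ReflTransGen.refl
  | tail _ hbc ih => exact Relation.ReflTransGen.head (rel8_symm hbc) ih

theorem ea8_star [Finite X] (E : Subgroup X) [E.Normal] (hE : Cfsg.IsElementaryAbelian 2 E)
    (hE32 : 32 ≤ Nat.card ↥E) :
    ∀ n : ℕ, ∀ A : Subgroup X, Cfsg.IsElementaryAbelian 2 A → Nat.card ↥A = 8 →
      8 - Nat.card ↥(A ⊓ E) = n →
      ∃ E₀ : Subgroup X, E₀ ≤ E ∧ Nat.card ↥E₀ = 8 ∧ Relation.ReflTransGen Rel8 A E₀ := by
  intro n
  induction n using Nat.strong_induction_on with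
  | _ n ih =>
    intro A hA hA8 hn
    by_cases hAE : A ≤ E
    · exact ⟨A, hAE, hA8, Relation.ReflTransGen.refl⟩
    · have hDA : A ⊓ E < A := lt_of_le_of_ne inf_le_left (fun h => hAE (inf_eq_left.mp h))
      obtain ⟨y, hyE, hyA, hyc⟩ := exists_central_not_mem E hE hE32 A hA hA8.le
      obtain ⟨U, hDU, hUA, hU4⟩ := exists_card_four_between A (A ⊓ E) hA8 hDA
      have hUea : Cfsg.IsElementaryAbelian 2 U :=
        Cfsg.Agent.Helper4.isElementaryAbelian_of_le hA hUA
      have hy2 : y ^ 2 = 1 := hE.2 y hyE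
      obtain ⟨hA'ea, hA'card⟩ := ea_sup_zpowers U hUea y hy2 (fun h => hyA (hUA h))
        (fun x hx => hyc x (hUA hx))
      rw [hU4] at hA'card
      have hA'8 : Nat.card ↥(U ⊔ Subgroup.zpowers y) = 8 := by rw [hA'card]
      have hrel : Rel8 A (U ⊔ Subgroup.zpowers y) := by
        refine ⟨hA, hA8, hA'ea, hA'8, ?_⟩
        rw [Cfsg.Agent.Helper9.comm_eq_bot_iff]
        intro a ha b hb
        have hle : U ⊔ Subgroup.zpowers y ≤ Subgroup.centralizer (A : Set X) := by
          apply sup_le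
          · intro u hu
            rw [Subgroup.mem_centralizer_iff]
            intro x hx
            exact ea_comm hA x hx u (hUA hu)
          · rw [Subgroup.zpowers_le, Subgroup.mem_centralizer_iff]
            intro x hx
            exact (hyc x hx).symm
        exact Subgroup.mem_centralizer_iff.mp (hle hb) a ha
      have hlt : A ⊓ E < (U ⊔ Subgroup.zpowers y) ⊓ E := by
        refine lt_of_le_of_ne (le_inf (hDU.trans le_sup_left) inf_le_right) ?_
        intro h
        apply hyA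
        have hmem : y ∈ (U ⊔ Subgroup.zpowers y) ⊓ E :=
          ⟨(le_sup_right : Subgroup.zpowers y ≤ U ⊔ Subgroup.zpowers y) (Subgroup.mem_zpowers y),
            hyE⟩
        rw [← h] at hmem
        exact hmem.1
      have hcardlt : Nat.card ↥(A ⊓ E) < Nat.card ↥((U ⊔ Subgroup.zpowers y) ⊓ E) := by
        by_contra hge
        push Not at hge
        exact hlt.ne (Subgroup.eq_of_le_of_card_ge hlt.le hge)
      have hcardle : Nat.card ↥((U ⊔ Subgroup.zpowers y) ⊓ E) ≤ 8 := by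
        rw [← hA'8]
        exact Subgroup.card_le_of_le inf_le_left
      obtain ⟨E₀, hE₀E, hE₀8, hchain⟩ :=
        ih (8 - Nat.card ↥((U ⊔ Subgroup.zpowers y) ⊓ E)) (by omega) _ hA'ea hA'8 rfl
      exact ⟨E₀, hE₀E, hE₀8, Relation.ReflTransGen.head hrel hchain⟩

theorem ea8_main [Finite X] (E : Subgroup X) [E.Normal] (hE : Cfsg.IsElementaryAbelian 2 E)
    (hE32 : 32 ≤ Nat.card ↥E) :
    (∀ A B : Subgroup X, Cfsg.IsElementaryAbelian 2 A → Nat.card ↥A = 8 →
        Cfsg.IsElementaryAbelian 2 B → Nat.card ↥B = 8 →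
        Relation.ReflTransGen
          (fun C D : Subgroup X => Cfsg.IsElementaryAbelian 2 C ∧ Nat.card ↥C = 8 ∧
            Cfsg.IsElementaryAbelian 2 D ∧ Nat.card ↥D = 8 ∧ ⁅C, D⁆ = ⊥)
          A B) ∧
      (∀ V : Subgroup X, Cfsg.IsElementaryAbelian 2 V → Nat.card ↥V = 4 →
        ∃ A : Subgroup X, V ≤ A ∧ Cfsg.IsElementaryAbelian 2 A ∧ Nat.card ↥A = 8) := by
  constructor
  · intro A B hA hA8 hB hB8
    obtain ⟨E₁, hE₁E, hE₁8, h1⟩ := ea8_star E hE hE32 _ A hA hA8 rfl
    obtain ⟨E₂, hE₂E, hE₂8, h2⟩ := ea8_star E hE hE32 _ B hB hB8 rfl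
    have hmid : Rel8 E₁ E₂ := by
      refine ⟨Cfsg.Agent.Helper4.isElementaryAbelian_of_le hE hE₁E, hE₁8,
        Cfsg.Agent.Helper4.isElementaryAbelian_of_le hE hE₂E, hE₂8, ?_⟩
      rw [Cfsg.Agent.Helper9.comm_eq_bot_iff]
      intro a ha b hb
      exact ea_comm hE a (hE₁E ha) b (hE₂E hb)
    have h2' : Relation.ReflTransGen Rel8 E₂ B := rtg8_symm h2
    exact (h1.tail hmid).trans h2'
  · intro V hV hV4
    obtain ⟨y, hyE, hyV, hyc⟩ := exists_central_not_mem E hE hE32 V hV (by rw [hV4]; norm_num)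
    obtain ⟨hea, hcard⟩ := ea_sup_zpowers V hV y (hE.2 y hyE) hyV hyc
    exact ⟨V ⊔ Subgroup.zpowers y, le_sup_left, hea, by rw [hcard, hV4]⟩

end EA8

end Cfsg.Agent.Helper11
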