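import Mathlib
import Cfsg.Agent.Helper11.ExtraCount

set_option autoImplicit false

namespace Cfsg.Agent.Helper11

universe u v w

/-- Central commutators and a centre of order two: the extraspecial `2`-groups together with
the group of order two. -/
def CentTwo (E : Type u) [Group E] : Prop :=
  (∀ a b : E, a * b * a⁻¹ * b⁻¹ ∈ Subgroup.center E) ∧ Nat.card (Subgroup.center E) = 2

theorem centTwo_of_extraspecial {E : Type u} [Group E] (hE : Cfsg.IsExtraspecial 2 E) :
    CentTwo E :=
  ⟨commutator_mem_center_of hE.1.2.2, hE.2⟩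

theorem centTwo_elt {E : Type u} [Group E] (h : CentTwo E) :
    ∃ z : E, z ∈ Subgroup.center E ∧ z ≠ 1 ∧ z * z = 1 ∧
      (∀ w ∈ Subgroup.center E, w = 1 ∨ w = z) := by
  obtain ⟨y, hy1, hy⟩ := (Nat.card_eq_two_iff' (1 : ↥(Subgroup.center E))).mp h.2
  refine ⟨y.1, y.2, fun h1 => hy1 (Subtype.ext h1), center_sq_eq_one h.2 y.2, ?_⟩
  intro w hw
  by_cases hw1 : w = 1
  · exact Or.inl hw1
  · right
    have h2 := hy ⟨w, hw⟩ (fun hh => hw1 (congrArg Subtype.val hh))
    exact congrArg Subtype.val h2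

/-- The common centralizer of two elements. -/
def cpair {E : Type u} [Group E] (x y : E) : Subgroup E :=
  Subgroup.centralizer ({x} : Set E) ⊓ Subgroup.centralizer ({y} : Set E)

theorem mem_cpair {E : Type u} [Group E] {x y c : E} :
    c ∈ cpair x y ↔ c * x = x * c ∧ c * y = y * c := by
  unfold cpair
  rw [Subgroup.mem_inf, Subgroup.mem_centralizer_singleton_iff,
    Subgroup.mem_centralizer_singleton_iff]

theorem card_cpair {E : Type u} [Group E] [Finite E] (h : CentTwo E) {x y : E}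
    (hxy : x * y ≠ y * x) : Nat.card ↥(cpair x y) * 4 = Nat.card E := by
  have h1 := card_inf_centralizer_half h.1 h.2 (⊤ : Subgroup E) x
    ⟨y, Subgroup.mem_top y, fun hh => hxy hh.symm⟩
  rw [top_inf_eq, Subgroup.card_top] at h1
  have h2 := card_inf_centralizer_half h.1 h.2 (Subgroup.centralizer ({x} : Set E)) y
    ⟨x, Subgroup.mem_centralizer_singleton_iff.mpr rfl, hxy⟩
  show Nat.card ↥(Subgroup.centralizer ({x} : Set E) ⊓ Subgroup.centralizer ({y} : Set E)) * 4
    = Nat.card E
  omega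

theorem centTwo_fix {E : Type u} [Group E] (h : CentTwo E) (a e b : E) (ha : b * a ≠ a * b)
    (he : b * e ≠ e * b) : b * (a⁻¹ * e) = (a⁻¹ * e) * b := by
  rw [comm_iff_commutator_one]
  have ha' : a * b * a⁻¹ * b⁻¹ ≠ 1 := fun hh => ha ((comm_iff_commutator_one a b).mpr hh)
  have he' : e * b * e⁻¹ * b⁻¹ ≠ 1 := fun hh => he ((comm_iff_commutator_one e b).mpr hh)
  have heq := center_eq_of_ne_one h.2 (h.1 a b) (h.1 e b) ha' he'
  have hm := bcomm_mul_left h.1 a (a⁻¹ * e) b
  rw [mul_inv_cancel_left, ← heq] at hm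
  exact mul_left_cancel (hm.symm.trans (mul_one _).symm)

theorem cpair_decomp {E : Type u} [Group E] (h : CentTwo E) {x y : E} (hxy : x * y ≠ y * x)
    (e : E) : ∃ c ∈ cpair x y, e = c ∨ e = x * c ∨ e = y * c ∨ e = y * x * c := by
  have hA : ∃ e₁, x * e₁ = e₁ * x ∧ (e = e₁ ∨ e = y * e₁) := by
    by_cases hx : x * e = e * x
    · exact ⟨e, hx, Or.inl rfl⟩
    · exact ⟨y⁻¹ * e, centTwo_fix h y e x hxy hx, Or.inr (mul_inv_cancel_left y e).symm⟩
  obtain ⟨e₁, hx1, he1⟩ := hA
  have hB : ∃ c, c ∈ cpair x y ∧ (e₁ = c ∨ e₁ = x * c) := by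
    by_cases hy : y * e₁ = e₁ * y
    · exact ⟨e₁, mem_cpair.mpr ⟨hx1.symm, hy.symm⟩, Or.inl rfl⟩
    · refine ⟨x⁻¹ * e₁, mem_cpair.mpr ⟨?_,
        (centTwo_fix h x e₁ y (fun hh => hxy hh.symm) hy).symm⟩,
        Or.inr (mul_inv_cancel_left x e₁).symm⟩
      rw [mul_assoc, ← hx1]
      group
  obtain ⟨c, hc, hec⟩ := hB
  refine ⟨c, hc, ?_⟩
  rcases he1 with he1 | he1 <;> rcases hec with hec | hec
  · exact Or.inl (he1.trans hec)
  · exact Or.inr (Or.inl (he1.trans hec))
  · exact Or.inr (Or.inr (Or.inl (by rw [he1, hec])))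
  · exact Or.inr (Or.inr (Or.inr (by rw [he1, hec, mul_assoc])))

theorem center_cpair {E : Type u} [Group E] (h : CentTwo E) {x y : E} (hxy : x * y ≠ y * x)
    (w : ↥(cpair x y)) :
    w ∈ Subgroup.center ↥(cpair x y) ↔ (w : E) ∈ Subgroup.center E := by
  constructor
  · intro hw
    rw [Subgroup.mem_center_iff]
    intro e
    rw [← Subgroup.mem_centralizer_singleton_iff]
    have hxw : x ∈ Subgroup.centralizer ({(w : E)} : Set E) :=
      Subgroup.mem_centralizer_singleton_iff.mpr (mem_cpair.mp w.2).1.symm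
    have hyw : y ∈ Subgroup.centralizer ({(w : E)} : Set E) :=
      Subgroup.mem_centralizer_singleton_iff.mpr (mem_cpair.mp w.2).2.symm
    have hcw : ∀ c ∈ cpair x y, c ∈ Subgroup.centralizer ({(w : E)} : Set E) := by
      intro c hc
      rw [Subgroup.mem_centralizer_singleton_iff]
      have h1 := Subgroup.mem_center_iff.mp hw ⟨c, hc⟩
      exact congrArg Subtype.val h1
    obtain ⟨c, hc, hec⟩ := cpair_decomp h hxy e
    rcases hec with hec | hec | hec | hec
    · rw [hec]
      exact hcw c hc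
    · rw [hec]
      exact Subgroup.mul_mem _ hxw (hcw c hc)
    · rw [hec]
      exact Subgroup.mul_mem _ hyw (hcw c hc)
    · rw [hec]
      exact Subgroup.mul_mem _ (Subgroup.mul_mem _ hyw hxw) (hcw c hc)
  · intro hw
    rw [Subgroup.mem_center_iff]
    intro g
    apply Subtype.ext
    exact Subgroup.mem_center_iff.mp hw (g : E)

theorem centTwo_cpair {E : Type u} [Group E] (h : CentTwo E) {x y : E} (hxy : x * y ≠ y * x) :
    CentTwo ↥(cpair x y) := by
  constructor
  · intro a b
    rw [center_cpair h hxy]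
    exact h.1 (a : E) (b : E)
  · obtain ⟨z, hzc, hz1, hzz, hzall⟩ := centTwo_elt h
    have hzC : z ∈ cpair x y := mem_cpair.mpr
      ⟨(Subgroup.mem_center_iff.mp hzc x).symm, (Subgroup.mem_center_iff.mp hzc y).symm⟩
    rw [Nat.card_eq_two_iff' (1 : ↥(Subgroup.center ↥(cpair x y)))]
    refine ⟨⟨⟨z, hzC⟩, (center_cpair h hxy ⟨z, hzC⟩).mpr hzc⟩, ?_, ?_⟩
    · intro hh
      apply hz1
      have h1 := congrArg
        (fun t : ↥(Subgroup.center ↥(cpair x y)) => ((t : ↥(cpair x y)) : E)) hh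
      exact h1
    · intro y' hy'
      rcases hzall _ ((center_cpair h hxy _).mp y'.2) with h1 | h1
      · exfalso
        apply hy'
        apply Subtype.ext
        apply Subtype.ext
        exact h1
      · apply Subtype.ext
        apply Subtype.ext
        exact h1

theorem count_cpair {E : Type u} [Group E] [Finite E] (h : CentTwo E) {x y : E}
    (hxy : x * y ≠ y * x) (hx : x * x = 1) (hy : y * y = 1) :
    Nat.card {e : E // e * e = 1}
      = 2 * Nat.card {c : ↥(cpair x y) // c * c = 1} + Nat.card ↥(cpair x y) := by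
  classical
  let _ : Fintype E := Fintype.ofFinite E
  let _ : Fintype ↥(cpair x y) := Fintype.ofFinite _
  obtain ⟨z, hzc, hz1, hzz, hzall⟩ := centTwo_elt h
  have hyx : (y * x) * (y * x) = z := by
    have h1 : (y * x) * (y * x) ≠ 1 := by
      intro hh
      exact hxy (((sq_mul_eq_one_iff h.1 h.2 y x hx).mp hh).mp hy)
    rcases hzall _ (sq_mem_center h.1 h.2 (y * x)) with h2 | h2
    · exact absurd h2 h1
    · exact h2
  have hsq : ∀ e : E, e * e = 1 ∨ e * e = z := fun e => hzall _ (sq_mem_center h.1 h.2 e)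
  obtain ⟨F, hF0, hF1, hF2, hF3⟩ : ∃ F : ↥(cpair x y) × Fin 4 → E,
      (∀ c, F (c, 0) = c) ∧ (∀ c, F (c, 1) = x * c) ∧ (∀ c, F (c, 2) = y * c) ∧
        (∀ c, F (c, 3) = y * x * c) :=
    ⟨fun p => (![1, x, y, y * x] : Fin 4 → E) p.2 * (p.1 : E),
      fun c => by simp, fun c => by simp, fun c => by simp, fun c => by simp⟩
  have hsurj : Function.Surjective F := by
    intro e
    obtain ⟨c, hc, hec⟩ := cpair_decomp h hxy e
    rcases hec with hec | hec | hec | hec
    · exact ⟨(⟨c, hc⟩, 0), (hF0 _).trans hec.symm⟩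
    · exact ⟨(⟨c, hc⟩, 1), (hF1 _).trans hec.symm⟩
    · exact ⟨(⟨c, hc⟩, 2), (hF2 _).trans hec.symm⟩
    · exact ⟨(⟨c, hc⟩, 3), (hF3 _).trans hec.symm⟩
  have hcard : Nat.card (↥(cpair x y) × Fin 4) = Nat.card E := by
    rw [Nat.card_prod, Nat.card_fin]
    exact card_cpair h hxy
  have hbij : Function.Bijective F :=
    (Nat.bijective_iff_surjective_and_card F).mpr ⟨hsurj, hcard⟩
  have hN : Nat.card {e : E // e * e = 1} = ∑ e : E, (if e * e = 1 then 1 else 0) := by
    rw [card_subtype_eq_filter (fun e : E => e * e = 1) (fun e : E => e * e = 1)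
      (fun _ => Iff.rfl), Finset.card_filter]
  have hNC : Nat.card {c : ↥(cpair x y) // c * c = 1}
      = ∑ c : ↥(cpair x y), (if (c : E) * (c : E) = 1 then 1 else 0) := by
    rw [card_subtype_eq_filter (fun c : ↥(cpair x y) => c * c = 1)
      (fun c : ↥(cpair x y) => (c : E) * (c : E) = 1)
      (fun c => ⟨fun hh => congrArg Subtype.val hh, fun hh => Subtype.ext hh⟩),
      Finset.card_filter]
  have hsum1 : ∑ e : E, (if e * e = 1 then 1 else 0)
      = ∑ p : ↥(cpair x y) × Fin 4, (if F p * F p = 1 then 1 else 0) :=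
    (Equiv.sum_comp (Equiv.ofBijective F hbij) (fun e : E => if e * e = 1 then 1 else 0)).symm
  have key : ∀ a b : ℕ, (a = 1 ∧ b = 0) ∨ (a = 0 ∧ b = 1) → a + a + a + b = 2 * a + 1 := by
    intro a b hab
    omega
  have hsum2 : ∑ p : ↥(cpair x y) × Fin 4, (if F p * F p = 1 then 1 else 0)
      = ∑ c : ↥(cpair x y), (2 * (if (c : E) * (c : E) = 1 then 1 else 0) + 1) := by
    rw [Fintype.sum_prod_type]
    apply Finset.sum_congr rfl
    intro c _
    rw [Fin.sum_univ_four]
    have hcx : (c : E) * x = x * c := (mem_cpair.mp c.2).1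
    have hcy : (c : E) * y = y * c := (mem_cpair.mp c.2).2
    have e0 : F (c, 0) * F (c, 0) = (c : E) * c := by rw [hF0]
    have e1 : F (c, 1) * F (c, 1) = (c : E) * c := by
      rw [hF1]
      calc x * (c : E) * (x * (c : E)) = x * ((c : E) * x) * (c : E) := by group
        _ = x * (x * (c : E)) * (c : E) := by rw [hcx]
        _ = (x * x) * ((c : E) * (c : E)) := by group
        _ = (c : E) * c := by rw [hx, one_mul]
    have e2 : F (c, 2) * F (c, 2) = (c : E) * c := by
      rw [hF2]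
      calc y * (c : E) * (y * (c : E)) = y * ((c : E) * y) * (c : E) := by group
        _ = y * (y * (c : E)) * (c : E) := by rw [hcy]
        _ = (y * y) * ((c : E) * (c : E)) := by group
        _ = (c : E) * c := by rw [hy, one_mul]
    have e3 : F (c, 3) * F (c, 3) = z * ((c : E) * c) := by
      rw [hF3]
      have hcyx : (c : E) * (y * x) = (y * x) * c := by
        rw [← mul_assoc, hcy, mul_assoc, hcx, ← mul_assoc]
      calc y * x * (c : E) * (y * x * (c : E))
          = (y * x) * ((c : E) * (y * x)) * (c : E) := by group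
        _ = (y * x) * ((y * x) * (c : E)) * (c : E) := by rw [hcyx]
        _ = ((y * x) * (y * x)) * ((c : E) * (c : E)) := by group
        _ = z * ((c : E) * c) := by rw [hyx]
    rw [e0, e1, e2, e3]
    refine key _ _ ?_
    rcases hsq (c : E) with hcc | hcc
    · left
      exact ⟨if_pos hcc, if_neg (by rw [hcc, mul_one]; exact hz1)⟩
    · right
      exact ⟨if_neg (by rw [hcc]; exact hz1), if_pos (by rw [hcc]; exact hzz)⟩
  have hs3 : ∑ c : ↥(cpair x y), (2 * (if (c : E) * (c : E) = 1 then 1 else 0) + 1)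
      = 2 * ∑ c : ↥(cpair x y), (if (c : E) * (c : E) = 1 then 1 else 0)
        + Nat.card ↥(cpair x y) := by
    rw [Finset.sum_add_distrib, ← Finset.mul_sum, Finset.sum_const, Finset.card_univ,
      smul_eq_mul, mul_one, Nat.card_eq_fintype_card]
  rw [hN, hsum1, hsum2, hs3, hNC]

theorem count_no_invol {E : Type u} [Group E] (h : CentTwo E)
    (hno : ∀ e : E, e * e = 1 → e ∈ Subgroup.center E) :
    Nat.card {e : E // e * e = 1} = 2 := by
  rw [← h.2]
  exact Nat.card_congr (Equiv.subtypeEquivRight (p := fun e : E => e * e = 1)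
    (q := fun e : E => e ∈ Subgroup.center E)
    (fun e => ⟨hno e, fun he => center_sq_eq_one h.2 he⟩))

theorem centTwo_kind {E : Type u} [Group E] (h : CentTwo E) (hnc : ∃ a b : E, a * b ≠ b * a) :
    ∃ x y : E, x * y ≠ y * x ∧
      ((x * x = 1 ∧ y * y = 1) ∨ ∀ e : E, e * e = 1 → e ∈ Subgroup.center E) := by
  by_cases hall : ∀ e : E, e * e = 1 → e ∈ Subgroup.center E
  · obtain ⟨a, b, hab⟩ := hnc
    exact ⟨a, b, hab, Or.inr hall⟩
  · push Not at hall
    obtain ⟨x, hxx, hxc⟩ := hall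
    have hex : ∃ y₀ : E, y₀ * x ≠ x * y₀ := by
      by_contra hcon
      push Not at hcon
      exact hxc (Subgroup.mem_center_iff.mpr hcon)
    obtain ⟨y₀, hy₀⟩ := hex
    by_cases hy : y₀ * y₀ = 1
    · exact ⟨x, y₀, fun hh => hy₀ hh.symm, Or.inl ⟨hxx, hy⟩⟩
    · have hinv : (y₀ * x) * (y₀ * x) = 1 :=
        (sq_mul_eq_one_iff h.1 h.2 y₀ x hxx).mpr
          ⟨fun h1 => absurd h1 hy, fun h1 => absurd h1.symm hy₀⟩
      refine ⟨x, y₀ * x, ?_, Or.inl ⟨hxx, hinv⟩⟩
      intro hh
      apply hy₀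
      have h2 : x * y₀ * x = y₀ * x * x := (mul_assoc x y₀ x).trans hh
      exact (mul_right_cancel h2).symm

theorem centTwo_card_of_comm {E : Type u} [Group E] (h : CentTwo E)
    (hab : ∀ a b : E, a * b = b * a) : Nat.card E = 2 := by
  have htop : Subgroup.center E = ⊤ := by
    rw [Subgroup.eq_top_iff']
    intro a
    rw [Subgroup.mem_center_iff]
    intro g
    exact hab g a
  have h2 := h.2
  rw [htop, Subgroup.card_top] at h2
  exact h2

theorem comm_eq_z {E : Type u} [Group E] (h : CentTwo E) {z : E}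
    (hzall : ∀ w ∈ Subgroup.center E, w = 1 ∨ w = z) {x y : E} (hxy : x * y ≠ y * x) :
    x⁻¹ * y * x * y⁻¹ = z := by
  have hc : x⁻¹ * y * x * y⁻¹ ∈ Subgroup.center E := by
    have h1 := h.1 x⁻¹ y
    rw [inv_inv] at h1
    exact h1
  rcases hzall _ hc with h1 | h1
  · exfalso
    apply hxy
    calc x * y = x * 1 * y := by rw [mul_one]
      _ = x * (x⁻¹ * y * x * y⁻¹) * y := by rw [h1]
      _ = y * x := by group
  · exact h1

/-- A subgroup together with one more element that squares into it and normalizes it spans a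
subgroup of at most twice the order. -/
theorem two_coset {H : Type w} [Group H] [Finite H] (K : Subgroup H) (X : H) (hXX : X * X ∈ K)
    (hn : ∀ k ∈ K, X * k * X⁻¹ ∈ K) :
    ∃ L : Subgroup H, (∀ l, l ∈ L ↔ (l ∈ K ∨ X⁻¹ * l ∈ K)) ∧
      Nat.card ↥L ≤ 2 * Nat.card ↥K := by
  have hn' : ∀ k ∈ K, X⁻¹ * k * X ∈ K := by
    intro k hk
    have h1 : X⁻¹ * k * X = (X * X)⁻¹ * (X * k * X⁻¹) * (X * X) := by group
    rw [h1]
    exact K.mul_mem (K.mul_mem (K.inv_mem hXX) (hn k hk)) hXX
  obtain ⟨L, hL⟩ : ∃ L : Subgroup H, ∀ l, l ∈ L ↔ (l ∈ K ∨ X⁻¹ * l ∈ K) :=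
    ⟨{ carrier := {l | l ∈ K ∨ X⁻¹ * l ∈ K}
       one_mem' := Or.inl K.one_mem
       mul_mem' := by
         intro a b ha hb
         rcases ha with ha | ha <;> rcases hb with hb | hb
         · exact Or.inl (K.mul_mem ha hb)
         · refine Or.inr ?_
           have h1 : X⁻¹ * (a * b) = (X⁻¹ * a * X) * (X⁻¹ * b) := by group
           rw [h1]
           exact K.mul_mem (hn' a ha) hb
         · refine Or.inr ?_
           have h1 : X⁻¹ * (a * b) = (X⁻¹ * a) * b := by group
           rw [h1]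
           exact K.mul_mem ha hb
         · refine Or.inl ?_
           have h1 : a * b = (X * (X⁻¹ * a) * X⁻¹) * (X * X) * (X⁻¹ * b) := by group
           rw [h1]
           exact K.mul_mem (K.mul_mem (hn _ ha) hXX) hb
       inv_mem' := by
         intro a ha
         rcases ha with ha | ha
         · exact Or.inl (K.inv_mem ha)
         · refine Or.inr ?_
           have h1 : X⁻¹ * a⁻¹ = (X⁻¹ * (X⁻¹ * a)⁻¹ * X) * (X * X)⁻¹ := by group
           rw [h1]
           exact K.mul_mem (hn' _ (K.inv_mem ha)) (K.inv_mem hXX) },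
      fun l => Iff.rfl⟩
  refine ⟨L, hL, ?_⟩
  have hsub : (L : Set H) ⊆ (K : Set H) ∪ (fun k => X * k) '' (K : Set H) := by
    intro l hl
    rcases (hL l).mp hl with hl | hl
    · exact Or.inl hl
    · exact Or.inr ⟨X⁻¹ * l, hl, mul_inv_cancel_left X l⟩
  have h1 : Nat.card ↥L = (L : Set H).ncard := Nat.card_coe_set_eq (L : Set H)
  have h2 : Nat.card ↥K = (K : Set H).ncard := Nat.card_coe_set_eq (K : Set H)
  rw [h1, h2]
  calc (L : Set H).ncard ≤ ((K : Set H) ∪ (fun k => X * k) '' (K : Set H)).ncard :=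
        Set.ncard_le_ncard hsub (Set.toFinite _)
    _ ≤ (K : Set H).ncard + ((fun k => X * k) '' (K : Set H)).ncard := Set.ncard_union_le _ _
    _ ≤ (K : Set H).ncard + (K : Set H).ncard :=
        Nat.add_le_add_left (Set.ncard_image_le (Set.toFinite _)) _
    _ = 2 * (K : Set H).ncard := (two_mul _).symm

/-- Gluing: an isomorphism between the common centralizers of two non-commuting pairs of the
same kind extends to the whole groups. -/
theorem centTwo_glue {E : Type u} {E' : Type v} [Group E] [Group E'] [Finite E] [Finite E']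
    (h : CentTwo E) (h' : CentTwo E') {x y : E} {x' y' : E'}
    (hxy : x * y ≠ y * x) (hxy' : x' * y' ≠ y' * x')
    (hx : x * x = 1 ↔ x' * x' = 1) (hy : y * y = 1 ↔ y' * y' = 1)
    (g : ↥(cpair x y) ≃* ↥(cpair x' y')) : Nonempty (E ≃* E') := by
  obtain ⟨z, hzc, hz1, hzz, hzall⟩ := centTwo_elt h
  obtain ⟨z', hzc', hz1', hzz', hzall'⟩ := centTwo_elt h'
  have hzC : z ∈ cpair x y := mem_cpair.mpr
    ⟨(Subgroup.mem_center_iff.mp hzc x).symm, (Subgroup.mem_center_iff.mp hzc y).symm⟩
  have hgz : ((g ⟨z, hzC⟩ : ↥(cpair x' y')) : E') = z' := by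
    have hcen : g ⟨z, hzC⟩ ∈ Subgroup.center ↥(cpair x' y') := by
      rw [Subgroup.mem_center_iff]
      intro d
      obtain ⟨d0, rfl⟩ := g.surjective d
      rw [← map_mul, ← map_mul]
      exact congrArg g
        (Subgroup.mem_center_iff.mp ((center_cpair h hxy ⟨z, hzC⟩).mpr hzc) d0)
    rcases hzall' _ ((center_cpair h' hxy' _).mp hcen) with h1 | h1
    · exfalso
      apply hz1
      have h2 : g ⟨z, hzC⟩ = 1 := Subtype.ext h1
      have h3 : (⟨z, hzC⟩ : ↥(cpair x y)) = 1 := by
        apply g.injective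
        rw [h2, map_one]
      exact congrArg Subtype.val h3
    · exact h1
  obtain ⟨f, hf⟩ : ∃ f : ↥(cpair x y) →* E × E',
      ∀ c, f c = ((c : E), ((g c : ↥(cpair x' y')) : E')) :=
    ⟨MonoidHom.prod (cpair x y).subtype ((cpair x' y').subtype.comp g.toMonoidHom),
      fun c => rfl⟩
  have hfinj : Function.Injective f := by
    intro a b hab
    rw [hf, hf] at hab
    exact Subtype.ext (congrArg Prod.fst hab)
  obtain ⟨K, hK⟩ : ∃ K : Subgroup (E × E'), K = f.range := ⟨_, rfl⟩
  have hKmem : ∀ c : ↥(cpair x y), ((c : E), ((g c : ↥(cpair x' y')) : E')) ∈ K := by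
    intro c
    rw [hK, ← hf]
    exact MonoidHom.mem_range.mpr ⟨c, rfl⟩
  have hKcard : Nat.card ↥K = Nat.card ↥(cpair x y) := by
    rw [hK]
    exact (Nat.card_congr (MonoidHom.ofInjective hfinj).toEquiv).symm
  have hKelim : ∀ k ∈ K, ∃ c : ↥(cpair x y),
      k = ((c : E), ((g c : ↥(cpair x' y')) : E')) := by
    intro k hk
    rw [hK] at hk
    obtain ⟨c, rfl⟩ := MonoidHom.mem_range.mp hk
    exact ⟨c, hf c⟩
  have hZK : ((z, z') : E × E') ∈ K := by
    have h1 := hKmem ⟨z, hzC⟩
    rw [hgz] at h1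
    exact h1
  have hsqK : ∀ (a : E) (a' : E'), (a * a = 1 ↔ a' * a' = 1) →
      ((a * a, a' * a') : E × E') ∈ K := by
    intro a a' haa
    rcases hzall _ (sq_mem_center h.1 h.2 a) with h1 | h1
    · rw [h1, haa.mp h1]
      exact K.one_mem
    · have h2 : a' * a' ≠ 1 := fun hh => hz1 (h1.symm.trans (haa.mpr hh))
      rcases hzall' _ (sq_mem_center h'.1 h'.2 a') with h3 | h3
      · exact absurd h3 h2
      · rw [h1, h3]
        exact hZK
  obtain ⟨X, hX⟩ : ∃ X : E × E', X = (x, x') := ⟨_, rfl⟩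
  obtain ⟨Y, hY⟩ : ∃ Y : E × E', Y = (y, y') := ⟨_, rfl⟩
  have hKX : ∀ k ∈ K, X * k * X⁻¹ = k := by
    intro k hk
    obtain ⟨c, rfl⟩ := hKelim k hk
    have e1 : x * (c : E) * x⁻¹ = c := by
      rw [← (mem_cpair.mp c.2).1, mul_inv_cancel_right]
    have e2 : x' * ((g c : ↥(cpair x' y')) : E') * x'⁻¹ = (g c : ↥(cpair x' y')) := by
      rw [← (mem_cpair.mp (g c).2).1, mul_inv_cancel_right]
    rw [hX]
    exact Prod.ext e1 e2
  have hKY : ∀ k ∈ K, Y * k * Y⁻¹ = k := by
    intro k hk
    obtain ⟨c, rfl⟩ := hKelim k hk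
    have e1 : y * (c : E) * y⁻¹ = c := by
      rw [← (mem_cpair.mp c.2).2, mul_inv_cancel_right]
    have e2 : y' * ((g c : ↥(cpair x' y')) : E') * y'⁻¹ = (g c : ↥(cpair x' y')) := by
      rw [← (mem_cpair.mp (g c).2).2, mul_inv_cancel_right]
    rw [hY]
    exact Prod.ext e1 e2
  have hcommZ : X⁻¹ * Y * X * Y⁻¹ = (z, z') := by
    rw [hX, hY]
    exact Prod.ext (comm_eq_z h hzall hxy) (comm_eq_z h' hzall' hxy')
  have hXX : X * X ∈ K := by
    rw [hX]
    exact hsqK x x' hx
  have hYY : Y * Y ∈ K := by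
    rw [hY]
    exact hsqK y y' hy
  obtain ⟨K₁, hK₁mem, hK₁card⟩ := two_coset K X hXX
    (fun k hk => by rw [hKX k hk]; exact hk)
  have hKK₁ : ∀ k ∈ K, k ∈ K₁ := fun k hk => (hK₁mem k).mpr (Or.inl hk)
  have hXK₁ : X ∈ K₁ :=
    (hK₁mem X).mpr (Or.inr (by rw [inv_mul_cancel]; exact K.one_mem))
  obtain ⟨K₂, hK₂mem, hK₂card⟩ := two_coset K₁ Y (hKK₁ _ hYY) (by
    intro l hl
    rcases (hK₁mem l).mp hl with hl | hl
    · rw [hKY l hl]
      exact hKK₁ l hl
    · apply (hK₁mem _).mpr
      right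
      have e1 : X⁻¹ * (Y * l * Y⁻¹)
          = (X⁻¹ * Y * X * Y⁻¹) * (Y * (X⁻¹ * l) * Y⁻¹) := by group
      rw [e1, hcommZ, hKY _ hl]
      exact K.mul_mem hZK hl)
  have hcardK₂ : Nat.card ↥K₂ ≤ Nat.card ↥(cpair x y) * 4 := by omega
  have hKK₂ : ∀ k ∈ K, k ∈ K₂ := fun k hk => (hK₂mem k).mpr (Or.inl (hKK₁ k hk))
  have hXK₂ : X ∈ K₂ := (hK₂mem X).mpr (Or.inl hXK₁)
  have hYK₂ : Y ∈ K₂ :=
    (hK₂mem Y).mpr (Or.inr (by rw [inv_mul_cancel]; exact K₁.one_mem))
  subst hX hY
  obtain ⟨π₁, hπ₁def⟩ : ∃ π₁ : ↥K₂ →* E, ∀ k : ↥K₂, π₁ k = (k : E × E').1 :=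
    ⟨(MonoidHom.fst E E').comp K₂.subtype, fun k => rfl⟩
  obtain ⟨π₂, hπ₂def⟩ : ∃ π₂ : ↥K₂ →* E', ∀ k : ↥K₂, π₂ k = (k : E × E').2 :=
    ⟨(MonoidHom.snd E E').comp K₂.subtype, fun k => rfl⟩
  have hπ₁ : Function.Surjective π₁ := by
    intro e
    obtain ⟨c, hc, hec⟩ := cpair_decomp h hxy e
    have hk := hKK₂ _ (hKmem ⟨c, hc⟩)
    rcases hec with hec | hec | hec | hec
    · exact ⟨⟨_, hk⟩, (hπ₁def _).trans hec.symm⟩
    · exact ⟨⟨_, K₂.mul_mem hXK₂ hk⟩, (hπ₁def _).trans hec.symm⟩
    · exact ⟨⟨_, K₂.mul_mem hYK₂ hk⟩, (hπ₁def _).trans hec.symm⟩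
    · exact ⟨⟨_, K₂.mul_mem (K₂.mul_mem hYK₂ hXK₂) hk⟩, (hπ₁def _).trans hec.symm⟩
  have hπ₂ : Function.Surjective π₂ := by
    intro e'
    obtain ⟨c', hc', hec'⟩ := cpair_decomp h' hxy' e'
    obtain ⟨c, hgc⟩ := g.surjective ⟨c', hc'⟩
    have hk := hKK₂ _ (hKmem c)
    rw [hgc] at hk
    rcases hec' with hec' | hec' | hec' | hec'
    · exact ⟨⟨_, hk⟩, (hπ₂def _).trans hec'.symm⟩
    · exact ⟨⟨_, K₂.mul_mem hXK₂ hk⟩, (hπ₂def _).trans hec'.symm⟩
    · exact ⟨⟨_, K₂.mul_mem hYK₂ hk⟩, (hπ₂def _).trans hec'.symm⟩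
    · exact ⟨⟨_, K₂.mul_mem (K₂.mul_mem hYK₂ hXK₂) hk⟩, (hπ₂def _).trans hec'.symm⟩
  have hcE : Nat.card ↥(cpair x y) * 4 = Nat.card E := card_cpair h hxy
  have hcE' : Nat.card ↥(cpair x' y') * 4 = Nat.card E' := card_cpair h' hxy'
  have hcC : Nat.card ↥(cpair x y) = Nat.card ↥(cpair x' y') := Nat.card_congr g.toEquiv
  have hb₁ : Function.Bijective π₁ := hπ₁.bijective_of_nat_card_le (by omega)
  have hb₂ : Function.Bijective π₂ := hπ₂.bijective_of_nat_card_le (by omega)
  exact ⟨(MulEquiv.ofBijective π₁ hb₁).symm.trans (MulEquiv.ofBijective π₂ hb₂)⟩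

/-- Two groups with central commutators and centre of order two, of the same order and with
the same number of solutions of `e * e = 1`, are isomorphic. -/
theorem centTwo_classify_aux : ∀ (n : ℕ) (E : Type u) [Group E] [Finite E] (E' : Type v)
    [Group E'] [Finite E'], CentTwo E → CentTwo E' → Nat.card E ≤ n →
    Nat.card E' = Nat.card E →
    Nat.card {e : E' // e * e = 1} = Nat.card {e : E // e * e = 1} →
    Nonempty (E ≃* E') := by
  intro n
  induction n with
  | zero =>
    intro E _ _ E' _ _ h h' hn _ _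
    exfalso
    have hpos := Nat.card_pos (α := E)
    omega
  | succ n ih =>
    intro E _ _ E' _ _ h h' hn hcard hN
    by_cases hab : ∀ a b : E, a * b = b * a
    · have h2 : Nat.card E = 2 := centTwo_card_of_comm h hab
      haveI : Fact (Nat.Prime 2) := ⟨Nat.prime_two⟩
      exact ⟨mulEquivOfPrimeCardEq h2 (hcard.trans h2)⟩
    · push Not at hab
      have hab' : ∃ a b : E', a * b ≠ b * a := by
        by_contra hcon
        push Not at hcon
        have h2 : Nat.card E' = 2 := centTwo_card_of_comm h' hcon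
        obtain ⟨a, b, hne⟩ := hab
        have h4 := card_cpair h hne
        omega
      obtain ⟨x, y, hxy, hkind⟩ := centTwo_kind h hab
      obtain ⟨x', y', hxy', hkind'⟩ := centTwo_kind h' hab'
      have hC := centTwo_cpair h hxy
      have hC' := centTwo_cpair h' hxy'
      have hc4 := card_cpair h hxy
      have hc4' := card_cpair h' hxy'
      have hCn : Nat.card ↥(cpair x y) ≤ n := by omega
      have hCC : Nat.card ↥(cpair x' y') = Nat.card ↥(cpair x y) := by omega
      have hposN : 0 < Nat.card {c : ↥(cpair x y) // c * c = 1} :=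
        Nat.card_pos_iff.mpr ⟨⟨⟨1, one_mul 1⟩⟩, inferInstance⟩
      have hposN' : 0 < Nat.card {c : ↥(cpair x' y') // c * c = 1} :=
        Nat.card_pos_iff.mpr ⟨⟨⟨1, one_mul 1⟩⟩, inferInstance⟩
      have hposC : 0 < Nat.card ↥(cpair x y) := Nat.card_pos
      have hposC' : 0 < Nat.card ↥(cpair x' y') := Nat.card_pos
      rcases hkind with ⟨hx, hy⟩ | hno <;> rcases hkind' with ⟨hx', hy'⟩ | hno'
      · have e1 := count_cpair h hxy hx hy
        have e2 := count_cpair h' hxy' hx' hy'
        have hNC : Nat.card {c : ↥(cpair x' y') // c * c = 1}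
            = Nat.card {c : ↥(cpair x y) // c * c = 1} := by omega
        obtain ⟨g⟩ := ih ↥(cpair x y) ↥(cpair x' y') hC hC' hCn hCC hNC
        exact centTwo_glue h h' hxy hxy' ⟨fun _ => hx', fun _ => hx⟩
          ⟨fun _ => hy', fun _ => hy⟩ g
      · exfalso
        have e1 := count_cpair h hxy hx hy
        have e2 := count_no_invol h' hno'
        omega
      · exfalso
        have e1 := count_no_invol h hno
        have e2 := count_cpair h' hxy' hx' hy'
        omega
      · have hNC1 : Nat.card {c : ↥(cpair x y) // c * c = 1} = 2 :=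
          count_no_invol hC (fun c hc =>
            (center_cpair h hxy c).mpr (hno (c : E) (congrArg Subtype.val hc)))
        have hNC2 : Nat.card {c : ↥(cpair x' y') // c * c = 1} = 2 :=
          count_no_invol hC' (fun c hc =>
            (center_cpair h' hxy' c).mpr (hno' (c : E') (congrArg Subtype.val hc)))
        obtain ⟨g⟩ := ih ↥(cpair x y) ↥(cpair x' y') hC hC' hCn hCC (hNC2.trans hNC1.symm)
        have hxn : ¬ (x * x = 1) := fun hh =>
          hxy ((Subgroup.mem_center_iff.mp (hno x hh) y).symm)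
        have hyn : ¬ (y * y = 1) := fun hh =>
          hxy (Subgroup.mem_center_iff.mp (hno y hh) x)
        have hxn' : ¬ (x' * x' = 1) := fun hh =>
          hxy' ((Subgroup.mem_center_iff.mp (hno' x' hh) y').symm)
        have hyn' : ¬ (y' * y' = 1) := fun hh =>
          hxy' (Subgroup.mem_center_iff.mp (hno' y' hh) x')
        exact centTwo_glue h h' hxy hxy' ⟨fun hh => absurd hh hxn, fun hh => absurd hh hxn'⟩
          ⟨fun hh => absurd hh hyn, fun hh => absurd hh hyn'⟩ g

/-- Order and number of solutions of `e * e = 1`. -/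
theorem centTwo_value_aux : ∀ (n : ℕ) (E : Type u) [Group E] [Finite E], CentTwo E →
    Nat.card E ≤ n →
    ∃ m : ℕ, Nat.card E = 2 ^ (2 * m + 1) ∧
      (Nat.card {e : E // e * e = 1} = 2 ^ (2 * m) + 2 ^ m ∨
        (1 ≤ m ∧ Nat.card {e : E // e * e = 1} + 2 ^ m = 2 ^ (2 * m))) := by
  intro n
  induction n with
  | zero =>
    intro E _ _ h hn
    exfalso
    have hpos := Nat.card_pos (α := E)
    omega
  | succ n ih =>
    intro E _ _ h hn
    by_cases hab : ∀ a b : E, a * b = b * a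
    · refine ⟨0, ?_, Or.inl ?_⟩
      · exact (centTwo_card_of_comm h hab).trans (by norm_num)
      · exact (count_no_invol h
          (fun e _ => Subgroup.mem_center_iff.mpr (fun g => hab g e))).trans (by norm_num)
    · push Not at hab
      obtain ⟨x, y, hxy, hkind⟩ := centTwo_kind h hab
      have hC := centTwo_cpair h hxy
      have hc4 := card_cpair h hxy
      rcases hkind with ⟨hx, hy⟩ | hno
      · have hCn : Nat.card ↥(cpair x y) ≤ n := by omega
        obtain ⟨m, hm, hmN⟩ := ih ↥(cpair x y) hC hCn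
        have e1 := count_cpair h hxy hx hy
        have p0 : (2:ℕ) ^ (2 * (m + 1) + 1) = 2 ^ (2 * m + 1) * 4 := by ring
        have p1 : (2:ℕ) ^ (2 * (m + 1)) = 4 * 2 ^ (2 * m) := by ring
        have p2 : (2:ℕ) ^ (m + 1) = 2 * 2 ^ m := by ring
        have p3 : (2:ℕ) ^ (2 * m + 1) = 2 * 2 ^ (2 * m) := by ring
        refine ⟨m + 1, ?_, ?_⟩
        · rw [p0, ← hm]
          exact hc4.symm
        · rw [p1, p2, e1, hm, p3]
          rcases hmN with hmN | ⟨_, hmN⟩
          · left
            omega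
          · right
            refine ⟨Nat.le_add_left 1 m, ?_⟩
            omega
      · have hN2 := count_no_invol h hno
        obtain ⟨z, hzc, hz1, hzz, hzall⟩ := centTwo_elt h
        have hxx : x * x = z := by
          rcases hzall _ (sq_mem_center h.1 h.2 x) with h1 | h1
          · exact absurd ((Subgroup.mem_center_iff.mp (hno x h1) y).symm) hxy
          · exact h1
        have hCle : cpair x y ≤ Subgroup.center E := by
          intro c hc
          obtain ⟨hcx, hcy⟩ := mem_cpair.mp hc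
          rcases hzall _ (sq_mem_center h.1 h.2 c) with h1 | h1
          · exact hno c h1
          · exfalso
            have h2 : (x * c) * (x * c) = 1 := by
              calc (x * c) * (x * c) = x * (c * x) * c := by group
                _ = x * (x * c) * c := by rw [hcx]
                _ = (x * x) * (c * c) := by group
                _ = 1 := by rw [hxx, h1, hzz]
            have h3 := Subgroup.mem_center_iff.mp (hno _ h2) y
            apply hxy
            have h4 : x * y * c = y * x * c := by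
              calc x * y * c = x * (y * c) := mul_assoc _ _ _
                _ = x * (c * y) := by rw [hcy]
                _ = x * c * y := (mul_assoc _ _ _).symm
                _ = y * (x * c) := h3.symm
                _ = y * x * c := (mul_assoc _ _ _).symm
            exact mul_right_cancel h4
        have hCge : Subgroup.center E ≤ cpair x y := by
          intro w hw
          exact mem_cpair.mpr ⟨(Subgroup.mem_center_iff.mp hw x).symm,
            (Subgroup.mem_center_iff.mp hw y).symm⟩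
        have hC2 : Nat.card ↥(cpair x y) = 2 := by
          rw [le_antisymm hCle hCge]
          exact h.2
        refine ⟨1, ?_, Or.inr ⟨le_refl 1, ?_⟩⟩
        · exact (hc4.symm.trans (by rw [hC2])).trans (by norm_num)
        · exact (congrArg (· + 2 ^ 1) hN2).trans (by norm_num)

theorem card_sq_eq (E : Type u) [Group E] :
    Nat.card {x : E // x ^ 2 = 1} = Nat.card {x : E // x * x = 1} :=
  Nat.card_congr (Equiv.subtypeEquivRight (fun x => by rw [pow_two]))

theorem extraspecial_card_ne_two {E : Type u} [Group E] [Finite E]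
    (hE : Cfsg.IsExtraspecial 2 E) : Nat.card E ≠ 2 := by
  intro h2
  have htop : Subgroup.center E = ⊤ :=
    (Subgroup.card_eq_iff_eq_top (H := Subgroup.center E)).mp (hE.2.trans h2.symm)
  have hbot : commutator E = ⊥ := (commutator_eq_bot_iff_center_eq_top (G := E)).mpr htop
  have h3 : (⊥ : Subgroup E) = ⊤ := by rw [← hbot, hE.1.2.2, htop]
  have h4 : Nat.card (⊥ : Subgroup E) = 2 := by
    rw [h3, Subgroup.card_top]
    exact h2
  rw [Subgroup.card_bot] at h4
  omega

/-- The order of an extraspecial `2`-group and its number of solutions of `x ^ 2 = 1`. -/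
theorem extraspecial_two_value {E : Type u} [Group E] [Finite E]
    (hE : Cfsg.IsExtraspecial 2 E) :
    ∃ m : ℕ, 1 ≤ m ∧ Nat.card E = 2 ^ (2 * m + 1) ∧
      (Nat.card {x : E // x ^ 2 = 1} = 2 ^ (2 * m) + 2 ^ m ∨
        Nat.card {x : E // x ^ 2 = 1} = 2 ^ (2 * m) - 2 ^ m) := by
  obtain ⟨m, hm, hmN⟩ :=
    centTwo_value_aux (Nat.card E) E (centTwo_of_extraspecial hE) le_rfl
  have hm1 : 1 ≤ m := by
    by_contra hcon
    have hm0 : m = 0 := by omega
    exact extraspecial_card_ne_two hE (by simp [hm, hm0])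
  refine ⟨m, hm1, hm, ?_⟩
  rw [card_sq_eq]
  rcases hmN with hmN | ⟨_, hmN⟩
  · exact Or.inl hmN
  · right
    omega

/-- Extraspecial `2`-groups of the same order with the same number of solutions of
`x ^ 2 = 1` are isomorphic. -/
theorem extraspecial_two_iso {E : Type u} {E' : Type v} [Group E] [Group E'] [Finite E]
    [Finite E'] (hE : Cfsg.IsExtraspecial 2 E) (hE' : Cfsg.IsExtraspecial 2 E')
    (hcard : Nat.card E' = Nat.card E)
    (hN : Nat.card {x : E' // x ^ 2 = 1} = Nat.card {x : E // x ^ 2 = 1}) :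
    Nonempty (E ≃* E') :=
  centTwo_classify_aux (Nat.card E) E E' (centTwo_of_extraspecial hE)
    (centTwo_of_extraspecial hE') le_rfl hcard
    (by rw [← card_sq_eq E', ← card_sq_eq E]; exact hN)

end Cfsg.Agent.Helper11
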