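import Mathlib
import Cfsg.Agent.Helper11.ExtraIso
import Cfsg.Prelude.Def_CaseTheorems

set_option autoImplicit false

namespace Cfsg.Agent.Helper11

universe u v

/-- Abelian subgroups of a group of order `2 ^ (2 * m + 1)` with central commutators and
centre of order two have order at most `2 ^ (m + 1)`. -/
theorem centTwo_abelian_card_le {E : Type u} [Group E] [Finite E] (h : CentTwo E) (m : ℕ)
    (hcard : Nat.card E = 2 ^ (2 * m + 1)) (A : Subgroup E) (hAc : IsMulCommutative ↥A) :
    Nat.card ↥A ≤ 2 ^ (m + 1) := by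
  have hAle : A ≤ Subgroup.centralizer (A : Set E) :=
    Subgroup.le_centralizer_iff_isMulCommutative.mpr hAc
  have hpow : 2 * 2 ^ (2 * m + 1) = 2 ^ (m + 1) * 2 ^ (m + 1) := by ring
  have hBle : A ⊔ Subgroup.center E ≤
      Subgroup.centralizer ((A ⊔ Subgroup.center E : Subgroup E) : Set E) := by
    apply sup_le
    · rw [Subgroup.le_centralizer_iff]
      exact sup_le hAle (Subgroup.center_le_centralizer _)
    · exact Subgroup.center_le_centralizer _
  have hB := card_mul_card_centralizer h.1 h.2 (A ⊔ Subgroup.center E) le_sup_right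
  rw [hcard, hpow] at hB
  have hB2 : Nat.card ↥(A ⊔ Subgroup.center E) ≤ 2 ^ (m + 1) :=
    nat_sq_bound hB (Subgroup.card_le_of_le hBle)
  exact (Subgroup.card_le_of_le le_sup_left).trans hB2

/-- Elementwise form of "elementary abelian `2`-subgroup". -/
def ElAb {E : Type u} [Group E] (A : Subgroup E) : Prop :=
  (∀ a ∈ A, ∀ b ∈ A, a * b = b * a) ∧ (∀ a ∈ A, a * a = 1)

theorem elAb_adjoin {E : Type u} [Group E] [Finite E] (B : Subgroup E) (hB : ElAb B) (x : E)
    (hxx : x * x = 1) (hBx : ∀ b ∈ B, b * x = x * b) (hxB : x ∉ B) :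
    ∃ L : Subgroup E, ElAb L ∧ 2 * Nat.card ↥B ≤ Nat.card ↥L := by
  obtain ⟨L, hL, -⟩ := two_coset B x (by rw [hxx]; exact B.one_mem) (fun k hk => by
    have e : x * k * x⁻¹ = k := by rw [← hBx k hk, mul_inv_cancel_right]
    rw [e]
    exact hk)
  have hBL : B ≤ L := fun b hb => (hL b).mpr (Or.inl hb)
  have hxL : x ∈ L := (hL x).mpr (Or.inr (by rw [inv_mul_cancel]; exact B.one_mem))
  have hform : ∀ l ∈ L, ∃ b ∈ B, l = b ∨ l = x * b := by
    intro l hl
    rcases (hL l).mp hl with h1 | h1
    · exact ⟨l, h1, Or.inl rfl⟩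
    · exact ⟨x⁻¹ * l, h1, Or.inr (mul_inv_cancel_left x l).symm⟩
  have hxb : ∀ b ∈ B, ∀ b' ∈ B, (x * b) * (x * b') = (x * x) * (b * b') := by
    intro b hb b' _
    calc (x * b) * (x * b') = x * (b * x) * b' := by group
      _ = x * (x * b) * b' := by rw [hBx b hb]
      _ = (x * x) * (b * b') := by group
  refine ⟨L, ⟨?_, ?_⟩, ?_⟩
  · intro l₁ h₁ l₂ h₂
    obtain ⟨b₁, hb₁, e₁⟩ := hform l₁ h₁
    obtain ⟨b₂, hb₂, e₂⟩ := hform l₂ h₂
    rcases e₁ with e₁ | e₁ <;> rcases e₂ with e₂ | e₂
    · rw [e₁, e₂]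
      exact hB.1 b₁ hb₁ b₂ hb₂
    · rw [e₁, e₂]
      calc b₁ * (x * b₂) = (b₁ * x) * b₂ := by group
        _ = (x * b₁) * b₂ := by rw [hBx b₁ hb₁]
        _ = x * (b₁ * b₂) := by group
        _ = x * (b₂ * b₁) := by rw [hB.1 b₁ hb₁ b₂ hb₂]
        _ = x * b₂ * b₁ := by group
    · rw [e₁, e₂]
      calc x * b₁ * b₂ = x * (b₁ * b₂) := by group
        _ = x * (b₂ * b₁) := by rw [hB.1 b₁ hb₁ b₂ hb₂]
        _ = (x * b₂) * b₁ := by group
        _ = (b₂ * x) * b₁ := by rw [hBx b₂ hb₂]
        _ = b₂ * (x * b₁) := by group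
    · rw [e₁, e₂, hxb b₁ hb₁ b₂ hb₂, hxb b₂ hb₂ b₁ hb₁, hB.1 b₁ hb₁ b₂ hb₂]
  · intro l hl
    obtain ⟨b, hb, e⟩ := hform l hl
    rcases e with e | e
    · rw [e]
      exact hB.2 b hb
    · rw [e, hxb b hb b hb, hxx, hB.2 b hb, one_mul]
  · obtain ⟨k, hk⟩ := Subgroup.card_dvd_of_le hBL
    have hLpos : 0 < Nat.card ↥L := Nat.card_pos
    have hk1 : k ≠ 1 := by
      intro hk1
      rw [hk1, mul_one] at hk
      have hBLeq : B = L := Subgroup.eq_of_le_of_card_ge hBL (le_of_eq hk)
      apply hxB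
      rw [hBLeq]
      exact hxL
    have hk0 : k ≠ 0 := by
      intro hk0
      rw [hk0, mul_zero] at hk
      omega
    have hk2 : 2 ≤ k := by omega
    rw [hk]
    calc 2 * Nat.card ↥B = Nat.card ↥B * 2 := mul_comm _ _
      _ ≤ Nat.card ↥B * k := Nat.mul_le_mul_left _ hk2

/-- Order, number of solutions of `e * e = 1`, and a large elementary abelian subgroup. -/
theorem centTwo_rank_aux : ∀ (n : ℕ) (E : Type u) [Group E] [Finite E], CentTwo E →
    Nat.card E ≤ n →
    ∃ m : ℕ, Nat.card E = 2 ^ (2 * m + 1) ∧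
      ((Nat.card {e : E // e * e = 1} = 2 ^ (2 * m) + 2 ^ m ∧
          ∃ A : Subgroup E, ElAb A ∧ 2 ^ (m + 1) ≤ Nat.card ↥A) ∨
        (1 ≤ m ∧ Nat.card {e : E // e * e = 1} + 2 ^ m = 2 ^ (2 * m) ∧
          ∃ A : Subgroup E, ElAb A ∧ 2 ^ m ≤ Nat.card ↥A)) := by
  intro n
  induction n with
  | zero =>
    intro E _ _ h hn
    exfalso
    have hpos := Nat.card_pos (α := E)
    omega
  | succ n ih =>
    intro E _ _ h hn
    by_cases hab : ∀ a b : E, a * b = b * a
    · have hc2 := centTwo_card_of_comm h hab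
      have hcen : ∀ e : E, e ∈ Subgroup.center E :=
        fun e => Subgroup.mem_center_iff.mpr (fun g => hab g e)
      refine ⟨0, hc2.trans (by norm_num), Or.inl ⟨?_, ⊤,
        ⟨fun a _ b _ => hab a b, fun a _ => center_sq_eq_one h.2 (hcen a)⟩, ?_⟩⟩
      · exact (count_no_invol h (fun e _ => hcen e)).trans (by norm_num)
      · exact le_of_eq ((by norm_num : (2:ℕ) ^ (0 + 1) = 2).trans
          (hc2.symm.trans Subgroup.card_top.symm))
    · push Not at hab
      obtain ⟨x, y, hxy, hkind⟩ := centTwo_kind h hab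
      have hC := centTwo_cpair h hxy
      have hc4 := card_cpair h hxy
      rcases hkind with ⟨hx, hy⟩ | hno
      · have hCn : Nat.card ↥(cpair x y) ≤ n := by omega
        obtain ⟨m, hm, hmN⟩ := ih ↥(cpair x y) hC hCn
        have e1 := count_cpair h hxy hx hy
        have p0 : (2:ℕ) ^ (2 * (m + 1) + 1) = 2 ^ (2 * m + 1) * 4 := by ring
        have p1 : (2:ℕ) ^ (2 * (m + 1)) = 4 * 2 ^ (2 * m) := by ring
        have p2 : (2:ℕ) ^ (m + 1) = 2 * 2 ^ m := by ring
        have p3 : (2:ℕ) ^ (2 * m + 1) = 2 * 2 ^ (2 * m) := by ring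
        have p4 : (2:ℕ) ^ (m + 1 + 1) = 2 * 2 ^ (m + 1) := by ring
        have hlift : ∀ (A : Subgroup ↥(cpair x y)), ElAb A →
            ∃ L : Subgroup E, ElAb L ∧ 2 * Nat.card ↥A ≤ Nat.card ↥L := by
          intro A hA
          have hBel : ∀ b ∈ A.map (cpair x y).subtype, ∃ a ∈ A, (a : E) = b := by
            intro b hb
            obtain ⟨a, ha, hab⟩ := Subgroup.mem_map.mp hb
            exact ⟨a, ha, hab⟩
          have hB : ElAb (A.map (cpair x y).subtype) := by
            constructor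
            · intro b₁ h₁ b₂ h₂
              obtain ⟨a₁, ha₁, rfl⟩ := hBel b₁ h₁
              obtain ⟨a₂, ha₂, rfl⟩ := hBel b₂ h₂
              exact congrArg Subtype.val (hA.1 a₁ ha₁ a₂ ha₂)
            · intro b hb
              obtain ⟨a, ha, rfl⟩ := hBel b hb
              exact congrArg Subtype.val (hA.2 a ha)
          have hBx : ∀ b ∈ A.map (cpair x y).subtype, b * x = x * b := by
            intro b hb
            obtain ⟨a, ha, rfl⟩ := hBel b hb
            exact (mem_cpair.mp a.2).1
          have hxB : x ∉ A.map (cpair x y).subtype := by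
            intro hxm
            obtain ⟨a, ha, hax⟩ := hBel x hxm
            have h1 := (mem_cpair.mp a.2).2
            rw [hax] at h1
            exact hxy h1
          obtain ⟨L, hL, hLc⟩ := elAb_adjoin _ hB x hx hBx hxB
          refine ⟨L, hL, ?_⟩
          rw [Subgroup.card_map_of_injective (fun a b hab => Subtype.ext hab)] at hLc
          exact hLc
        refine ⟨m + 1, ?_, ?_⟩
        · rw [p0, ← hm]
          exact hc4.symm
        · rcases hmN with ⟨hmN, A, hA, hAc⟩ | ⟨hm1, hmN, A, hA, hAc⟩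
          · left
            obtain ⟨L, hL, hLc⟩ := hlift A hA
            refine ⟨?_, L, hL, ?_⟩
            · rw [p1, p2, e1, hm, p3]
              omega
            · rw [p4]
              omega
          · right
            obtain ⟨L, hL, hLc⟩ := hlift A hA
            refine ⟨Nat.le_add_left 1 m, ?_, L, hL, ?_⟩
            · rw [p1, p2, e1, hm, p3]
              omega
            · rw [p2]
              omega
      · have hN2 := count_no_invol h hno
        obtain ⟨z, hzc, hz1, hzz, hzall⟩ := centTwo_elt h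
        have hxx : x * x = z := by
          rcases hzall _ (sq_mem_center h.1 h.2 x) with h1 | h1
          · exact absurd ((Subgroup.mem_center_iff.mp (hno x h1) y).symm) hxy
          · exact h1
        have hCle : cpair x y ≤ Subgroup.center E := by
          intro c hc
          obtain ⟨hcx, hcy⟩ := mem_cpair.mp hc
          rcases hzall _ (sq_mem_center h.1 h.2 c) with h1 | h1
          · exact hno c h1
          · exfalso
            have h2 : (x * c) * (x * c) = 1 := by
              calc (x * c) * (x * c) = x * (c * x) * c := by group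
                _ = x * (x * c) * c := by rw [hcx]
                _ = (x * x) * (c * c) := by group
                _ = 1 := by rw [hxx, h1, hzz]
            have h3 := Subgroup.mem_center_iff.mp (hno _ h2) y
            apply hxy
            have h4 : x * y * c = y * x * c := by
              calc x * y * c = x * (y * c) := mul_assoc _ _ _
                _ = x * (c * y) := by rw [hcy]
                _ = x * c * y := (mul_assoc _ _ _).symm
                _ = y * (x * c) := h3.symm
                _ = y * x * c := (mul_assoc _ _ _).symm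
            exact mul_right_cancel h4
        have hCge : Subgroup.center E ≤ cpair x y := by
          intro w hw
          exact mem_cpair.mpr ⟨(Subgroup.mem_center_iff.mp hw x).symm,
            (Subgroup.mem_center_iff.mp hw y).symm⟩
        have hC2 : Nat.card ↥(cpair x y) = 2 := by
          rw [le_antisymm hCle hCge]
          exact h.2
        refine ⟨1, (hc4.symm.trans (by rw [hC2])).trans (by norm_num),
          Or.inr ⟨le_refl 1, (congrArg (· + 2 ^ 1) hN2).trans (by norm_num),
            Subgroup.center E, ⟨?_, ?_⟩, ?_⟩⟩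
        · intro a ha b _
          exact (Subgroup.mem_center_iff.mp ha b).symm
        · intro a ha
          exact center_sq_eq_one h.2 ha
        · exact le_of_eq ((by norm_num : (2:ℕ) ^ 1 = 2).trans h.2.symm)

theorem card_order4_add {E : Type u} [Group E] [Finite E] (h : CentTwo E) :
    Nat.card {x : E // x * x = 1} + Nat.card {x : E // orderOf x = 4} = Nat.card E := by
  classical
  have hx4 : ∀ x : E, (x * x) * (x * x) = 1 :=
    fun x => center_sq_eq_one h.2 (sq_mem_center h.1 h.2 x)
  have e1 : Nat.card {x : E // orderOf x = 4} = Nat.card {x : E // ¬ (x * x = 1)} :=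
    Nat.card_congr (Equiv.subtypeEquivRight (fun x => orderOf_eq_four_iff x (hx4 x)))
  rw [e1, ← Nat.card_sum]
  exact Nat.card_congr (Equiv.sumCompl (fun x : E => x * x = 1))

/-- An extraspecial group of order `2 ^ (2 * n + 1)` of `2`-rank more than `n` is of plus
type. -/
theorem extraspecial_plus_of_rank {E : Type u} [Group E] [Finite E]
    (hE : Cfsg.IsExtraspecial 2 E) (n : ℕ) (hn : Nat.card E = 2 ^ (2 * n + 1))
    (hr : ¬ Cfsg.PRankLE 2 n E) :
    Nat.card {x : E // x * x = 1} = 2 ^ (2 * n) + 2 ^ n := by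
  have h := centTwo_of_extraspecial hE
  unfold Cfsg.PRankLE at hr
  push Not at hr
  obtain ⟨A, hAc, hA2, hAcard⟩ := hr
  have hle := centTwo_abelian_card_le h n hn A hAc
  have hdvd := Subgroup.card_subgroup_dvd_card A
  rw [hn] at hdvd
  obtain ⟨j, hj, hAj⟩ := (Nat.dvd_prime_pow Nat.prime_two).mp hdvd
  have hj1 : j = n + 1 := by
    rw [hAj] at hAcard hle
    have h1 : n < j := (Nat.pow_lt_pow_iff_right (by norm_num)).mp hAcard
    have h2 : j ≤ n + 1 := (Nat.pow_le_pow_iff_right (by norm_num)).mp hle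
    omega
  rw [hj1] at hAj
  have h4 := extra_count_order4 n hE.1.2.2 hE.2 hn A hAc hA2 hAj
  have hadd := card_order4_add h
  rw [h4, hn] at hadd
  have p3 : (2:ℕ) ^ (2 * n + 1) = 2 * 2 ^ (2 * n) := by ring
  have hpow : (2:ℕ) ^ n ≤ 2 ^ (2 * n) := Nat.pow_le_pow_right (by norm_num) (by omega)
  omega

/-- The two types of extraspecial `2`-groups of order `2 ^ (2 * n + 1)`, with their number
of solutions of `x * x = 1` and their `2`-rank. -/
theorem extraspecial_rank_main {E : Type u} [Group E] [Finite E]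
    (hE : Cfsg.IsExtraspecial 2 E) (n : ℕ) (hn : Nat.card E = 2 ^ (2 * n + 1)) :
    (Nat.card {x : E // x * x = 1} = 2 ^ (2 * n) + 2 ^ n ∧ Cfsg.PRankLE 2 (n + 1) E ∧
        ¬ Cfsg.PRankLE 2 n E) ∨
      (Nat.card {x : E // x * x = 1} + 2 ^ n = 2 ^ (2 * n) ∧ Cfsg.PRankLE 2 n E ∧
        ¬ Cfsg.PRankLE 2 (n - 1) E) := by
  have h := centTwo_of_extraspecial hE
  obtain ⟨m, hm, hmN⟩ := centTwo_rank_aux (Nat.card E) E h le_rfl
  have hmn : m = n := by
    have h1 : (2:ℕ) ^ (2 * m + 1) = 2 ^ (2 * n + 1) := hm.symm.trans hn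
    have h2 := Nat.pow_right_injective (le_refl 2) h1
    omega
  rw [hmn] at hmN
  have hup : Cfsg.PRankLE 2 (n + 1) E := fun A hAc _ => centTwo_abelian_card_le h n hn A hAc
  have hconv : ∀ A : Subgroup E, ElAb A → IsMulCommutative ↥A ∧ ∀ a ∈ A, a ^ 2 = 1 := by
    intro A hA
    refine ⟨⟨⟨fun a b => Subtype.ext (hA.1 a.1 a.2 b.1 b.2)⟩⟩, fun a ha => ?_⟩
    rw [pow_two]
    exact hA.2 a ha
  rcases hmN with ⟨hmN, A, hA, hAc⟩ | ⟨hm1, hmN, A, hA, hAc⟩
  · left
    refine ⟨hmN, hup, ?_⟩
    intro hr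
    have h1 := hr A (hconv A hA).1 (hconv A hA).2
    have p : (2:ℕ) ^ (n + 1) = 2 * 2 ^ n := by ring
    have hpos : 0 < (2:ℕ) ^ n := by positivity
    omega
  · right
    refine ⟨hmN, ?_, ?_⟩
    · by_contra hr
      have h1 := extraspecial_plus_of_rank hE n hn hr
      have hpos : 0 < (2:ℕ) ^ n := by positivity
      omega
    · intro hr
      have h1 := hr A (hconv A hA).1 (hconv A hA).2
      have hlt : (2:ℕ) ^ (n - 1) < 2 ^ n := Nat.pow_lt_pow_right (by norm_num) (by omega)
      omega

end Cfsg.Agent.Helper11
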