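import Mathlib
import Cfsg.Agent.Helper11.ExtraRank
import Cfsg.Agent.Lead.PGroup

set_option autoImplicit false

namespace Cfsg.Agent.Helper11

universe u

theorem centTwo_isCoatom_centralizer {E : Type u} [Group E] [Finite E] (h : CentTwo E) (f : E)
    (hf : ∃ e : E, e * f ≠ f * e) : IsCoatom (Subgroup.centralizer ({f} : Set E)) := by
  obtain ⟨e, he⟩ := hf
  have h1 := card_inf_centralizer_half h.1 h.2 (⊤ : Subgroup E) f ⟨e, Subgroup.mem_top e, he⟩
  rw [top_inf_eq, Subgroup.card_top] at h1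
  constructor
  · intro htop
    apply he
    have h2 : e ∈ Subgroup.centralizer ({f} : Set E) := by
      rw [htop]
      exact Subgroup.mem_top e
    exact Subgroup.mem_centralizer_singleton_iff.mp h2
  · intro K hK
    apply Subgroup.eq_top_of_le_card
    obtain ⟨k, hk⟩ := Subgroup.card_dvd_of_le hK.le
    have hKpos : 0 < Nat.card ↥K := Nat.card_pos
    have hk1 : k ≠ 1 := by
      intro hk1
      rw [hk1, mul_one] at hk
      exact hK.ne (Subgroup.eq_of_le_of_card_ge hK.le (le_of_eq hk))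
    have hk0 : k ≠ 0 := by
      intro hk0
      rw [hk0, mul_zero] at hk
      omega
    have hk2 : 2 ≤ k := by omega
    calc Nat.card E = Nat.card ↥(Subgroup.centralizer ({f} : Set E)) * 2 := h1.symm
      _ ≤ Nat.card ↥(Subgroup.centralizer ({f} : Set E)) * k := Nat.mul_le_mul_left _ hk2
      _ = Nat.card ↥K := hk.symm

theorem centTwo_frattini_le {E : Type u} [Group E] [Finite E] (h : CentTwo E) :
    frattini E ≤ Subgroup.center E := by
  intro e he
  rw [Subgroup.mem_center_iff]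
  intro f
  by_contra hne
  have hco := centTwo_isCoatom_centralizer h f ⟨e, fun hh => hne hh.symm⟩
  have hmem := frattini_le_coatom hco he
  exact hne (Subgroup.mem_centralizer_singleton_iff.mp hmem).symm

/-- A non-abelian group with central commutators and centre of order two is extraspecial. -/
theorem centTwo_extraspecial {E : Type u} [Group E] [Finite E] (h : CentTwo E)
    (hnc : ∃ a b : E, a * b ≠ b * a) : Cfsg.IsExtraspecial 2 E := by
  haveI : Fact (Nat.Prime 2) := ⟨Nat.prime_two⟩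
  obtain ⟨m, hm, -⟩ := centTwo_value_aux (Nat.card E) E h le_rfl
  have hP : IsPGroup 2 E := IsPGroup.of_card hm
  obtain ⟨z, hzc, hz1, hzz, hzall⟩ := centTwo_elt h
  obtain ⟨a, b, hab⟩ := hnc
  have hc1 : a * b * a⁻¹ * b⁻¹ ≠ 1 := by
    intro hh
    apply hab
    calc a * b = (a * b * a⁻¹ * b⁻¹) * (b * a) := by group
      _ = b * a := by rw [hh, one_mul]
  have hcz : a * b * a⁻¹ * b⁻¹ = z := by
    rcases hzall _ (h.1 a b) with h1 | h1
    · exact absurd h1 hc1
    · exact h1
  have hcomm : commutator E = Subgroup.center E := by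
    apply le_antisymm
    · rw [commutator_def, Subgroup.commutator_le]
      intro g₁ _ g₂ _
      rw [commutatorElement_def]
      exact h.1 g₁ g₂
    · intro w hw
      rcases hzall w hw with h1 | h1
      · rw [h1]
        exact Subgroup.one_mem _
      · rw [h1, ← hcz, ← commutatorElement_def]
        exact Subgroup.commutator_mem_commutator (Subgroup.mem_top a) (Subgroup.mem_top b)
  refine ⟨⟨hP, ?_, hcomm⟩, h.2⟩
  apply le_antisymm (centTwo_frattini_le h)
  rw [← hcomm]
  exact Cfsg.Agent.Lead.commutator_le_frattini hP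

/-! ### Central product with a dihedral group of order eight -/

/-- `zc z t` is `z` if `t` holds and `1` otherwise. -/
def zc {E : Type} [Group E] (z : E) : Bool → E
  | true => z
  | false => 1

theorem zc_comm {E : Type} [Group E] {z : E} (hz : z ∈ Subgroup.center E) (t : Bool) (g : E) :
    g * zc z t = zc z t * g := by
  cases t
  · show g * 1 = 1 * g
    rw [mul_one, one_mul]
  · show g * z = z * g
    exact Subgroup.mem_center_iff.mp hz g

theorem zc_mul {E : Type} [Group E] {z : E} (hzz : z * z = 1) (s t : Bool) :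
    zc z s * zc z t = zc z (Bool.xor s t) := by
  cases s <;> cases t
  · exact mul_one 1
  · exact one_mul z
  · exact mul_one z
  · exact hzz

theorem zc_mem_center {E : Type} [Group E] {z : E} (hz : z ∈ Subgroup.center E) (t : Bool) :
    zc z t ∈ Subgroup.center E := by
  cases t
  · exact Subgroup.one_mem _
  · exact hz

theorem bool_cocycle (b1 a2 b2 a3 : Bool) :
    Bool.xor (b1 && a2) (Bool.xor b1 b2 && a3) = Bool.xor (b2 && a3) (b1 && Bool.xor a2 a3) := by
  cases b1 <;> cases a2 <;> cases b2 <;> cases a3 <;> rfl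

theorem assoc_aux {E : Type} [Group E] (e₁ e₂ e₃ u v w t : E) (hu : ∀ g, g * u = u * g)
    (huv : u * v = w * t) : e₁ * e₂ * u * e₃ * v = e₁ * (e₂ * e₃ * w) * t := by
  calc e₁ * e₂ * u * e₃ * v = e₁ * e₂ * (u * e₃) * v := by simp only [mul_assoc]
    _ = e₁ * e₂ * (e₃ * u) * v := by rw [← hu e₃]
    _ = e₁ * e₂ * e₃ * (u * v) := by simp only [mul_assoc]
    _ = e₁ * e₂ * e₃ * (w * t) := by rw [huv]
    _ = e₁ * (e₂ * e₃ * w) * t := by simp only [mul_assoc]

theorem comm_central_aux {E : Type} [Group E] (e₁ e₂ u v : E) (hu : u ∈ Subgroup.center E)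
    (hv : v ∈ Subgroup.center E) (hcomm : e₁ * e₂ * e₁⁻¹ * e₂⁻¹ ∈ Subgroup.center E) :
    e₁ * e₂ * u * (e₂ * e₁ * v)⁻¹ ∈ Subgroup.center E := by
  have hw : u * v⁻¹ ∈ Subgroup.center E :=
    Subgroup.mul_mem _ hu (Subgroup.inv_mem _ hv)
  have e : e₁ * e₂ * u * (e₂ * e₁ * v)⁻¹ = (u * v⁻¹) * (e₁ * e₂ * e₁⁻¹ * e₂⁻¹) := by
    calc e₁ * e₂ * u * (e₂ * e₁ * v)⁻¹ = (e₁ * e₂) * (u * v⁻¹) * (e₁⁻¹ * e₂⁻¹) := by group
      _ = (u * v⁻¹) * (e₁ * e₂) * (e₁⁻¹ * e₂⁻¹) := by
          rw [Subgroup.mem_center_iff.mp hw (e₁ * e₂)]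
      _ = (u * v⁻¹) * (e₁ * e₂ * e₁⁻¹ * e₂⁻¹) := by group
  rw [e]
  exact Subgroup.mul_mem _ hw hcomm

/-- The central product of `E` with a dihedral group of order eight over the central
element `z`, as a twisted product. -/
def D8Ext (E : Type) [Group E] (z : E) : Type := E × Bool × Bool

namespace D8Ext

variable {E : Type} [Group E] {z : E}

instance : Mul (D8Ext E z) :=
  ⟨fun p q => (p.1 * q.1 * zc z (p.2.2 && q.2.1), (Bool.xor p.2.1 q.2.1, Bool.xor p.2.2 q.2.2))⟩

instance : One (D8Ext E z) := ⟨(1, (false, false))⟩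

instance : Inv (D8Ext E z) := ⟨fun p => (p.1⁻¹ * zc z (p.2.2 && p.2.1), (p.2.1, p.2.2))⟩

theorem ext' {p q : D8Ext E z} (h1 : p.1 = q.1) (h2 : p.2.1 = q.2.1) (h3 : p.2.2 = q.2.2) :
    p = q :=
  Prod.ext h1 (Prod.ext h2 h3)

theorem fst_mul (p q : D8Ext E z) : (p * q).1 = p.1 * q.1 * zc z (p.2.2 && q.2.1) := rfl
theorem sa_mul (p q : D8Ext E z) : (p * q).2.1 = Bool.xor p.2.1 q.2.1 := rfl
theorem sb_mul (p q : D8Ext E z) : (p * q).2.2 = Bool.xor p.2.2 q.2.2 := rfl
theorem fst_one : (1 : D8Ext E z).1 = 1 := rfl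
theorem sa_one : (1 : D8Ext E z).2.1 = false := rfl
theorem sb_one : (1 : D8Ext E z).2.2 = false := rfl
theorem fst_inv (p : D8Ext E z) : (p⁻¹).1 = p.1⁻¹ * zc z (p.2.2 && p.2.1) := rfl
theorem sa_inv (p : D8Ext E z) : (p⁻¹).2.1 = p.2.1 := rfl
theorem sb_inv (p : D8Ext E z) : (p⁻¹).2.2 = p.2.2 := rfl

instance instGroupD8Ext [hz : Fact (z ∈ Subgroup.center E)] [hzz : Fact (z * z = 1)] :
    Group (D8Ext E z) :=
  Group.ofLeftAxioms
    (by
      intro p q r
      apply ext'
      · simp only [fst_mul, sa_mul, sb_mul]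
        exact assoc_aux _ _ _ _ _ _ _ (fun g => zc_comm hz.out _ g)
          (by rw [zc_mul hzz.out, zc_mul hzz.out, bool_cocycle])
      · simp only [sa_mul]
        exact Bool.xor_assoc _ _ _
      · simp only [sb_mul]
        exact Bool.xor_assoc _ _ _)
    (by
      intro p
      apply ext'
      · rw [fst_mul, fst_one, sb_one]
        show 1 * p.1 * 1 = p.1
        rw [one_mul, mul_one]
      · rw [sa_mul, sa_one]
        exact Bool.false_xor _
      · rw [sb_mul, sb_one]
        exact Bool.false_xor _)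
    (by
      intro p
      apply ext'
      · rw [fst_mul, fst_inv, sb_inv, fst_one]
        have h1 := zc_comm hz.out (p.2.2 && p.2.1) p.1
        calc p.1⁻¹ * zc z (p.2.2 && p.2.1) * p.1 * zc z (p.2.2 && p.2.1)
            = p.1⁻¹ * (zc z (p.2.2 && p.2.1) * p.1) * zc z (p.2.2 && p.2.1) := by
              simp only [mul_assoc]
          _ = p.1⁻¹ * (p.1 * zc z (p.2.2 && p.2.1)) * zc z (p.2.2 && p.2.1) := by rw [← h1]
          _ = zc z (p.2.2 && p.2.1) * zc z (p.2.2 && p.2.1) := by rw [inv_mul_cancel_left]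
          _ = 1 := (zc_mul hzz.out _ _).trans (congrArg (zc z) (Bool.xor_self _))
      · rw [sa_mul, sa_inv, sa_one]
        exact Bool.xor_self _
      · rw [sb_mul, sb_inv, sb_one]
        exact Bool.xor_self _)

/-- The embedding of `E`. -/
def ι (z : E) (e : E) : D8Ext E z := (e, (false, false))
/-- First new generator. -/
def xx (z : E) : D8Ext E z := (1, (true, false))
/-- Second new generator. -/
def yy (z : E) : D8Ext E z := (1, (false, true))

theorem fst_ι (e : E) : (ι z e).1 = e := rfl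
theorem sa_ι (e : E) : (ι z e).2.1 = false := rfl
theorem sb_ι (e : E) : (ι z e).2.2 = false := rfl

variable [hz : Fact (z ∈ Subgroup.center E)] [hzz : Fact (z * z = 1)]

theorem ι_central {c : E} (hc : c ∈ Subgroup.center E) :
    ι z c ∈ Subgroup.center (D8Ext E z) := by
  rw [Subgroup.mem_center_iff]
  intro p
  apply ext'
  · rw [fst_mul, fst_mul, fst_ι, sa_ι, sb_ι, Bool.and_false]
    show p.1 * c * 1 = c * p.1 * 1
    rw [mul_one, mul_one]
    exact Subgroup.mem_center_iff.mp hc p.1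
  · rw [sa_mul, sa_mul, sa_ι, Bool.xor_false, Bool.false_xor]
  · rw [sb_mul, sb_mul, sb_ι, Bool.xor_false, Bool.false_xor]

theorem comm_form (hE : ∀ a b : E, a * b * a⁻¹ * b⁻¹ ∈ Subgroup.center E) (p q : D8Ext E z) :
    ∃ c ∈ Subgroup.center E, p * q = ι z c * (q * p) := by
  obtain ⟨c, hc⟩ : ∃ c : E, c = p.1 * q.1 * zc z (p.2.2 && q.2.1) *
      (q.1 * p.1 * zc z (q.2.2 && p.2.1))⁻¹ := ⟨_, rfl⟩
  have hcB : c * (q.1 * p.1 * zc z (q.2.2 && p.2.1)) = p.1 * q.1 * zc z (p.2.2 && q.2.1) := by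
    rw [hc, inv_mul_cancel_right]
  refine ⟨c, ?_, ?_⟩
  · rw [hc]
    exact comm_central_aux _ _ _ _ (zc_mem_center hz.out _) (zc_mem_center hz.out _)
      (hE p.1 q.1)
  · apply ext'
    · rw [fst_mul, fst_mul, fst_mul, fst_ι, sb_ι]
      show p.1 * q.1 * zc z (p.2.2 && q.2.1) = c * (q.1 * p.1 * zc z (q.2.2 && p.2.1)) * 1
      rw [mul_one, hcB]
    · rw [sa_mul, sa_mul, sa_mul, sa_ι, Bool.false_xor]
      exact Bool.xor_comm _ _
    · rw [sb_mul, sb_mul, sb_mul, sb_ι, Bool.false_xor]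
      exact Bool.xor_comm _ _

theorem comm_xx (hz1 : z ≠ 1) (t : D8Ext E z) : t * xx z = xx z * t ↔ t.2.2 = false := by
  constructor
  · intro hh
    have h1 : t.1 * 1 * zc z (t.2.2 && true) = 1 * t.1 * zc z (false && t.2.1) :=
      congrArg (fun s : D8Ext E z => s.1) hh
    by_contra hb
    have hb' : t.2.2 = true := by simpa using hb
    rw [hb'] at h1
    have h2 : t.1 * 1 * z = 1 * t.1 * 1 := h1
    have h3 : z = 1 := by simpa using h2
    exact hz1 h3
  · intro hb
    apply ext'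
    · show t.1 * 1 * zc z (t.2.2 && true) = 1 * t.1 * zc z (false && t.2.1)
      rw [hb]
      show t.1 * 1 * 1 = 1 * t.1 * 1
      rw [mul_one, mul_one, one_mul, mul_one]
    · show Bool.xor t.2.1 true = Bool.xor true t.2.1
      exact Bool.xor_comm _ _
    · show Bool.xor t.2.2 false = Bool.xor false t.2.2
      exact Bool.xor_comm _ _

theorem comm_yy (hz1 : z ≠ 1) (t : D8Ext E z) : t * yy z = yy z * t ↔ t.2.1 = false := by
  constructor
  · intro hh
    have h1 : t.1 * 1 * zc z (t.2.2 && false) = 1 * t.1 * zc z (true && t.2.1) :=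
      congrArg (fun s : D8Ext E z => s.1) hh
    by_contra ha
    have ha' : t.2.1 = true := by simpa using ha
    rw [ha', Bool.and_false] at h1
    have h2 : t.1 * 1 * 1 = 1 * t.1 * z := h1
    have h3 : z = 1 := by simpa using h2
    exact hz1 h3
  · intro ha
    apply ext'
    · show t.1 * 1 * zc z (t.2.2 && false) = 1 * t.1 * zc z (true && t.2.1)
      rw [ha, Bool.and_false]
      show t.1 * 1 * 1 = 1 * t.1 * 1
      rw [mul_one, mul_one, one_mul, mul_one]
    · show Bool.xor t.2.1 false = Bool.xor false t.2.1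
      exact Bool.xor_comm _ _
    · show Bool.xor t.2.2 true = Bool.xor true t.2.2
      exact Bool.xor_comm _ _

theorem xx_sq : xx z * xx z = 1 := by
  apply ext'
  · show (1 : E) * 1 * 1 = 1
    rw [mul_one, mul_one]
  · rfl
  · rfl

theorem yy_sq : yy z * yy z = 1 := by
  apply ext'
  · show (1 : E) * 1 * 1 = 1
    rw [mul_one, mul_one]
  · rfl
  · rfl

theorem xx_yy_ne (hz1 : z ≠ 1) : xx z * yy z ≠ yy z * xx z := by
  intro hh
  have h1 : (1 : E) * 1 * 1 = 1 * 1 * z := congrArg (fun s : D8Ext E z => s.1) hh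
  rw [mul_one, mul_one, one_mul] at h1
  exact hz1 h1.symm

theorem mem_cpair_xy (hz1 : z ≠ 1) (t : D8Ext E z) :
    t ∈ cpair (xx z) (yy z) ↔ t.2.1 = false ∧ t.2.2 = false := by
  rw [mem_cpair, comm_xx hz1, comm_yy hz1]
  exact and_comm

theorem centTwo (h : CentTwo E) (hz1 : z ≠ 1)
    (hzall : ∀ w ∈ Subgroup.center E, w = 1 ∨ w = z) : CentTwo (D8Ext E z) := by
  constructor
  · intro p q
    obtain ⟨c, hc, hpq⟩ := comm_form h.1 p q
    have e : p * q * p⁻¹ * q⁻¹ = ι z c := by
      rw [hpq]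
      group
    rw [e]
    exact ι_central hc
  · rw [Nat.card_eq_two_iff' (1 : ↥(Subgroup.center (D8Ext E z)))]
    refine ⟨⟨ι z z, ι_central hz.out⟩, ?_, ?_⟩
    · intro hh
      apply hz1
      have h1 := congrArg (fun t : ↥(Subgroup.center (D8Ext E z)) => (t : D8Ext E z).1) hh
      exact h1
    · intro t ht
      have htc := Subgroup.mem_center_iff.mp t.2
      have hb : (t : D8Ext E z).2.2 = false := (comm_xx hz1 _).mp (htc (xx z)).symm
      have ha : (t : D8Ext E z).2.1 = false := (comm_yy hz1 _).mp (htc (yy z)).symm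
      have hcen : (t : D8Ext E z).1 ∈ Subgroup.center E := by
        rw [Subgroup.mem_center_iff]
        intro g
        have h1 : g * (t : D8Ext E z).1 * zc z (false && (t : D8Ext E z).2.1)
            = (t : D8Ext E z).1 * g * zc z ((t : D8Ext E z).2.2 && false) :=
          congrArg (fun s : D8Ext E z => s.1) (htc (ι z g))
        rw [Bool.and_false] at h1
        have h2 : g * (t : D8Ext E z).1 * 1 = (t : D8Ext E z).1 * g * 1 := h1
        rw [mul_one, mul_one] at h2
        exact h2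
      rcases hzall _ hcen with h1 | h1
      · exfalso
        apply ht
        apply Subtype.ext
        exact ext' h1 ha hb
      · apply Subtype.ext
        exact ext' h1 ha hb

theorem card_eq [Finite E] : Nat.card (D8Ext E z) = 4 * Nat.card E := by
  show Nat.card (E × Bool × Bool) = 4 * Nat.card E
  rw [Nat.card_prod, Nat.card_prod, Nat.card_eq_fintype_card (α := Bool), Fintype.card_bool]
  ring

theorem card_sq_cpair (hz1 : z ≠ 1) :
    Nat.card {c : ↥(cpair (xx z) (yy z)) // c * c = 1} = Nat.card {e : E // e * e = 1} := by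
  have hmem : ∀ e : E, ι z e ∈ cpair (xx z) (yy z) :=
    fun e => (mem_cpair_xy hz1 _).mpr ⟨rfl, rfl⟩
  have hsq : ∀ e : E, e * e = 1 → ι z e * ι z e = 1 := by
    intro e he
    apply ext'
    · show e * e * 1 = 1
      rw [mul_one, he]
    · rfl
    · rfl
  symm
  apply Nat.card_congr
  apply Equiv.ofBijective
    (fun e : {e : E // e * e = 1} =>
      (⟨⟨ι z e.1, hmem e.1⟩, Subtype.ext (hsq e.1 e.2)⟩ :
        {c : ↥(cpair (xx z) (yy z)) // c * c = 1}))
  constructor
  · intro e e' hee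
    apply Subtype.ext
    have h1 := congrArg
      (fun c : {c : ↥(cpair (xx z) (yy z)) // c * c = 1} => ((c.1 : D8Ext E z)).1) hee
    exact h1
  · intro c
    obtain ⟨ha, hb⟩ := (mem_cpair_xy hz1 _).mp c.1.2
    have hcc : (c.1 : D8Ext E z) * (c.1 : D8Ext E z) = 1 := congrArg Subtype.val c.2
    have h1 : (c.1 : D8Ext E z).1 * (c.1 : D8Ext E z).1 *
        zc z ((c.1 : D8Ext E z).2.2 && (c.1 : D8Ext E z).2.1) = 1 :=
      congrArg (fun s : D8Ext E z => s.1) hcc
    rw [hb] at h1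
    have h2 : (c.1 : D8Ext E z).1 * (c.1 : D8Ext E z).1 * 1 = 1 := h1
    rw [mul_one] at h2
    refine ⟨⟨(c.1 : D8Ext E z).1, h2⟩, ?_⟩
    apply Subtype.ext
    apply Subtype.ext
    exact ext' rfl ha.symm hb.symm

end D8Ext

/-- Central product with a dihedral group of order eight. -/
theorem centTwo_d8ext (E : Type) [Group E] [Finite E] (h : CentTwo E) :
    ∃ (T : Type) (_ : Group T) (_ : Finite T), CentTwo T ∧ Nat.card T = 4 * Nat.card E ∧
      Nat.card {t : T // t * t = 1} = 2 * Nat.card {e : E // e * e = 1} + Nat.card E := by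
  obtain ⟨z, hzc, hz1, hzz, hzall⟩ := centTwo_elt h
  haveI : Fact (z ∈ Subgroup.center E) := ⟨hzc⟩
  haveI : Fact (z * z = 1) := ⟨hzz⟩
  haveI : Finite (D8Ext E z) := inferInstanceAs (Finite (E × Bool × Bool))
  have hT : CentTwo (D8Ext E z) := D8Ext.centTwo h hz1 hzall
  have hcard : Nat.card (D8Ext E z) = 4 * Nat.card E := D8Ext.card_eq
  have hxy : D8Ext.xx z * D8Ext.yy z ≠ D8Ext.yy z * D8Ext.xx z := D8Ext.xx_yy_ne hz1
  have hcnt := count_cpair hT hxy D8Ext.xx_sq D8Ext.yy_sq
  have hc4 := card_cpair hT hxy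
  have hNC := D8Ext.card_sq_cpair (z := z) hz1
  refine ⟨D8Ext E z, inferInstance, inferInstance, hT, hcard, ?_⟩
  rw [hcnt, hNC]
  omega

/-! ### Existence of both types -/

theorem centTwo_c2 : CentTwo (Multiplicative (ZMod 2)) := by
  constructor
  · intro a b
    exact Subgroup.mem_center_iff.mpr (fun g => mul_comm _ _)
  · rw [CommGroup.center_eq_top, Subgroup.card_top]
    show Nat.card (ZMod 2) = 2
    exact Nat.card_zmod 2

theorem exists_plus (n : ℕ) : ∃ (E : Type) (_ : Group E) (_ : Finite E), CentTwo E ∧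
    Nat.card E = 2 ^ (2 * n + 1) ∧ Nat.card {e : E // e * e = 1} = 2 ^ (2 * n) + 2 ^ n := by
  induction n with
  | zero =>
    have hc : Nat.card (Multiplicative (ZMod 2)) = 2 := by
      show Nat.card (ZMod 2) = 2
      exact Nat.card_zmod 2
    exact ⟨Multiplicative (ZMod 2), inferInstance, inferInstance, centTwo_c2,
      hc.trans (by norm_num),
      (count_no_invol centTwo_c2
        (fun e _ => Subgroup.mem_center_iff.mpr (fun g => mul_comm _ _))).trans (by norm_num)⟩
  | succ n ih =>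
    obtain ⟨E, iG, iF, h, hc, hN⟩ := ih
    obtain ⟨T, iG', iF', hT, hTc, hTN⟩ := centTwo_d8ext E h
    have p0 : (2:ℕ) ^ (2 * (n + 1) + 1) = 4 * 2 ^ (2 * n + 1) := by ring
    have p1 : (2:ℕ) ^ (2 * (n + 1)) = 4 * 2 ^ (2 * n) := by ring
    have p2 : (2:ℕ) ^ (n + 1) = 2 * 2 ^ n := by ring
    have p3 : (2:ℕ) ^ (2 * n + 1) = 2 * 2 ^ (2 * n) := by ring
    refine ⟨T, iG', iF', hT, ?_, ?_⟩
    · rw [hTc, hc, p0]
    · rw [hTN, hN, hc, p1, p2, p3]
      omega

set_option maxRecDepth 100000 in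
theorem q8_comm_vals : ∀ a b : QuaternionGroup 2,
    a * b * a⁻¹ * b⁻¹ = 1 ∨ a * b * a⁻¹ * b⁻¹ = QuaternionGroup.a 2 := by decide

set_option maxRecDepth 100000 in
theorem q8_a2_central : ∀ g : QuaternionGroup 2,
    g * QuaternionGroup.a 2 = QuaternionGroup.a 2 * g := by decide

set_option maxRecDepth 100000 in
theorem q8_center : ∀ t : QuaternionGroup 2, (∀ g : QuaternionGroup 2, g * t = t * g) →
    t = 1 ∨ t = QuaternionGroup.a 2 := by decide

set_option maxRecDepth 100000 in
theorem q8_invol : ∀ t : QuaternionGroup 2, t * t = 1 → t = 1 ∨ t = QuaternionGroup.a 2 := by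
  decide

theorem q8_a2_ne : (QuaternionGroup.a 2 : QuaternionGroup 2) ≠ 1 := by decide

theorem centTwo_q8 : CentTwo (QuaternionGroup 2) := by
  constructor
  · intro a b
    rcases q8_comm_vals a b with h1 | h1
    · rw [h1]
      exact Subgroup.one_mem _
    · rw [h1]
      exact Subgroup.mem_center_iff.mpr q8_a2_central
  · rw [Nat.card_eq_two_iff' (1 : ↥(Subgroup.center (QuaternionGroup 2)))]
    refine ⟨⟨QuaternionGroup.a 2, Subgroup.mem_center_iff.mpr q8_a2_central⟩, ?_, ?_⟩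
    · intro hh
      exact q8_a2_ne (congrArg Subtype.val hh)
    · intro t ht
      rcases q8_center t.1 (Subgroup.mem_center_iff.mp t.2) with h1 | h1
      · exact absurd (Subtype.ext h1) ht
      · exact Subtype.ext h1

theorem exists_minus (n : ℕ) : ∃ (E : Type) (_ : Group E) (_ : Finite E), CentTwo E ∧
    Nat.card E = 2 ^ (2 * (n + 1) + 1) ∧
    Nat.card {e : E // e * e = 1} + 2 ^ (n + 1) = 2 ^ (2 * (n + 1)) := by
  induction n with
  | zero =>
    have hc : Nat.card (QuaternionGroup 2) = 4 * 2 :=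
      Nat.card_eq_fintype_card.trans QuaternionGroup.card
    have hN : Nat.card {e : QuaternionGroup 2 // e * e = 1} = 2 :=
      count_no_invol centTwo_q8 (fun e he => by
        rcases q8_invol e he with h1 | h1
        · rw [h1]
          exact Subgroup.one_mem _
        · rw [h1]
          exact Subgroup.mem_center_iff.mpr q8_a2_central)
    exact ⟨QuaternionGroup 2, inferInstance, inferInstance, centTwo_q8,
      hc.trans (by norm_num), (congrArg (· + 2 ^ (0 + 1)) hN).trans (by norm_num)⟩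
  | succ n ih =>
    obtain ⟨E, iG, iF, h, hc, hN⟩ := ih
    obtain ⟨T, iG', iF', hT, hTc, hTN⟩ := centTwo_d8ext E h
    have p0 : (2:ℕ) ^ (2 * (n + 1 + 1) + 1) = 4 * 2 ^ (2 * (n + 1) + 1) := by ring
    have p1 : (2:ℕ) ^ (2 * (n + 1 + 1)) = 4 * 2 ^ (2 * (n + 1)) := by ring
    have p2 : (2:ℕ) ^ (n + 1 + 1) = 2 * 2 ^ (n + 1) := by ring
    have p3 : (2:ℕ) ^ (2 * (n + 1) + 1) = 2 * 2 ^ (2 * (n + 1)) := by ring
    refine ⟨T, iG', iF', hT, ?_, ?_⟩
    · rw [hTc, hc, p0]
    · rw [hTN, hc, p1, p2, p3]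
      omega

theorem sSup_rank_eq {E : Type} [Group E] [Finite E] (N k : ℕ) (hcard : Nat.card E = 2 ^ N)
    (hup : Cfsg.PRankLE 2 (k + 1) E) (hlow : ¬ Cfsg.PRankLE 2 k E) :
    sSup {j : ℕ | ∃ A : Subgroup E, Cfsg.IsElementaryAbelian 2 A ∧ Nat.card A = 2 ^ j}
      = k + 1 := by
  apply IsGreatest.csSup_eq
  constructor
  · unfold Cfsg.PRankLE at hlow
    push Not at hlow
    obtain ⟨A, hAc, hA2, hAcard⟩ := hlow
    have hle := hup A hAc hA2
    have hdvd := Subgroup.card_subgroup_dvd_card A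
    rw [hcard] at hdvd
    obtain ⟨j, hj, hAj⟩ := (Nat.dvd_prime_pow Nat.prime_two).mp hdvd
    have hj1 : j = k + 1 := by
      rw [hAj] at hAcard hle
      have h1 : k < j := (Nat.pow_lt_pow_iff_right (by norm_num)).mp hAcard
      have h2 : j ≤ k + 1 := (Nat.pow_le_pow_iff_right (by norm_num)).mp hle
      omega
    rw [hj1] at hAj
    exact ⟨A, ⟨hAc, hA2⟩, hAj⟩
  · rintro j ⟨A, hA, hAj⟩
    have hle := hup A hA.1 hA.2
    rw [hAj] at hle
    exact (Nat.pow_le_pow_iff_right (by norm_num)).mp hle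

/-- For every `n ≥ 1` there are extraspecial groups of order `2 ^ (2 * n + 1)` of `2`-rank
`n` and of `2`-rank `n + 1`. -/
theorem exists_extraspecial_rank (n : ℕ) (hn : 1 ≤ n) :
    (∃ (E : Type) (_ : Group E) (_ : Finite E), Cfsg.IsExtraspecial 2 E ∧
      Nat.card E = 2 ^ (2 * n + 1) ∧
      sSup {k : ℕ | ∃ A : Subgroup E, Cfsg.IsElementaryAbelian 2 A ∧ Nat.card A = 2 ^ k} = n) ∧
    (∃ (E : Type) (_ : Group E) (_ : Finite E), Cfsg.IsExtraspecial 2 E ∧
      Nat.card E = 2 ^ (2 * n + 1) ∧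
      sSup {k : ℕ | ∃ A : Subgroup E, Cfsg.IsElementaryAbelian 2 A ∧ Nat.card A = 2 ^ k}
        = n + 1) := by
  obtain ⟨k, rfl⟩ : ∃ k, n = k + 1 := ⟨n - 1, by omega⟩
  have h8 : 8 ≤ 2 ^ (2 * (k + 1) + 1) := by
    calc 8 = 2 ^ 3 := by norm_num
      _ ≤ 2 ^ (2 * (k + 1) + 1) := Nat.pow_le_pow_right (by norm_num) (by omega)
  have hpos : 0 < 2 ^ (k + 1) := by positivity
  constructor
  · obtain ⟨E, iG, iF, h, hc, hN⟩ := exists_minus k
    have hnc : ∃ a b : E, a * b ≠ b * a := by
      by_contra hcon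
      push Not at hcon
      have h2 := centTwo_card_of_comm h hcon
      omega
    have hE := centTwo_extraspecial h hnc
    refine ⟨E, iG, iF, hE, hc, ?_⟩
    rcases extraspecial_rank_main hE (k + 1) hc with ⟨hN', hup, hlow⟩ | ⟨hN', hup, hlow⟩
    · exfalso
      omega
    · rw [Nat.add_sub_cancel] at hlow
      exact sSup_rank_eq (2 * (k + 1) + 1) k hc hup hlow
  · obtain ⟨E, iG, iF, h, hc, hN⟩ := exists_plus (k + 1)
    have hnc : ∃ a b : E, a * b ≠ b * a := by
      by_contra hcon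
      push Not at hcon
      have h2 := centTwo_card_of_comm h hcon
      omega
    have hE := centTwo_extraspecial h hnc
    refine ⟨E, iG, iF, hE, hc, ?_⟩
    rcases extraspecial_rank_main hE (k + 1) hc with ⟨hN', hup, hlow⟩ | ⟨hN', hup, hlow⟩
    · exact sSup_rank_eq (2 * (k + 1) + 1) (k + 1) hc hup hlow
    · exfalso
      omega

end Cfsg.Agent.Helper11
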