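import Mathlib
import Cfsg.Agent.Helper11.ExtraIso
import Cfsg.Agent.Helper11.TwoGroup

set_option autoImplicit false

namespace Cfsg.Agent.Helper11

universe u v w

/-- Central commutators, a centre of order `p`, and `p`-th powers trivial: the extraspecial
`p`-groups of exponent `p` together with the group of order `p`. -/
def CentP (p : ℕ) (E : Type u) [Group E] : Prop :=
  (∀ a b : E, a * b * a⁻¹ * b⁻¹ ∈ Subgroup.center E) ∧ Nat.card (Subgroup.center E) = p ∧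
    ∀ e : E, e ^ p = 1

theorem centP_gen {p : ℕ} [Fact p.Prime] {E : Type u} [Group E] (h : CentP p E) {ζ : E}
    (hζ : ζ ∈ Subgroup.center E) (hζ1 : ζ ≠ 1) (w : E) (hw : w ∈ Subgroup.center E) :
    ∃ k : ℕ, w = ζ ^ k := by
  have h1 : (⟨w, hw⟩ : ↥(Subgroup.center E)) ∈
      Submonoid.powers (⟨ζ, hζ⟩ : ↥(Subgroup.center E)) :=
    mem_powers_of_prime_card h.2.1 (fun hh => hζ1 (congrArg Subtype.val hh))
  obtain ⟨k, hk⟩ := (Submonoid.mem_powers_iff _ _).mp h1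
  exact ⟨k, (congrArg Subtype.val hk).symm⟩

theorem comm_pow_left {E : Type u} [Group E]
    (hcomm : ∀ a b : E, a * b * a⁻¹ * b⁻¹ ∈ Subgroup.center E) (a x : E) (k : ℕ) :
    a ^ k * x * (a ^ k)⁻¹ * x⁻¹ = (a * x * a⁻¹ * x⁻¹) ^ k := by
  induction k with
  | zero => simp
  | succ k ih =>
    rw [pow_succ a k, bcomm_mul_left hcomm (a ^ k) a x, ih, pow_succ]

theorem comm_pow_right {E : Type u} [Group E]
    (hcomm : ∀ a b : E, a * b * a⁻¹ * b⁻¹ ∈ Subgroup.center E) (q a : E) (k : ℕ) :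
    q * a ^ k * q⁻¹ * (a ^ k)⁻¹ = (q * a * q⁻¹ * a⁻¹) ^ k := by
  induction k with
  | zero => simp
  | succ k ih =>
    rw [pow_succ a k, bcomm_mul_right hcomm q (a ^ k) a, ih, pow_succ]

theorem centP_index {p : ℕ} [Fact p.Prime] {E : Type u} [Group E] [Finite E] (h : CentP p E)
    (B : Subgroup E) (e : E) (hb : ∃ b₀ ∈ B, b₀ * e ≠ e * b₀) :
    Nat.card ↥(B ⊓ Subgroup.centralizer ({e} : Set E)) * p = Nat.card ↥B := by
  obtain ⟨b₀, hb₀, hne⟩ := hb
  obtain ⟨φ, hφ⟩ : ∃ φ : ↥B →* ↥(Subgroup.center E),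
      ∀ b : ↥B, ((φ b : ↥(Subgroup.center E)) : E) = (b : E) * e * (b : E)⁻¹ * e⁻¹ :=
    ⟨{ toFun := fun b => ⟨(b : E) * e * (b : E)⁻¹ * e⁻¹, h.1 _ _⟩
       map_one' := by
         apply Subtype.ext
         show (1 : E) * e * (1 : E)⁻¹ * e⁻¹ = 1
         group
       map_mul' := by
         intro a b
         apply Subtype.ext
         exact bcomm_mul_left h.1 (a : E) (b : E) e }, fun b => rfl⟩
  have hker : φ.ker = (B ⊓ Subgroup.centralizer ({e} : Set E)).subgroupOf B := by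
    ext b
    rw [MonoidHom.mem_ker, Subgroup.mem_subgroupOf, Subgroup.mem_inf,
      Subgroup.mem_centralizer_singleton_iff]
    constructor
    · intro hb1
      have h1 : (b : E) * e * (b : E)⁻¹ * e⁻¹ = 1 :=
        (hφ b).symm.trans (congrArg Subtype.val hb1)
      exact ⟨b.2, ((comm_iff_commutator_one (b : E) e).mpr h1).symm⟩
    · intro hb1
      apply Subtype.ext
      exact (hφ b).trans ((comm_iff_commutator_one (b : E) e).mp hb1.2.symm)
  have hrange : Nat.card ↥φ.range = p := by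
    have hdvd : Nat.card ↥φ.range ∣ p := by
      have h0 := Subgroup.card_subgroup_dvd_card φ.range
      rw [h.2.1] at h0
      exact h0
    rcases (Nat.dvd_prime (Fact.out : p.Prime)).mp hdvd with h1 | h1
    · exfalso
      have hbot : φ.range = ⊥ := Subgroup.eq_bot_of_card_eq _ h1
      have hmem : φ ⟨b₀, hb₀⟩ ∈ φ.range := MonoidHom.mem_range.mpr ⟨_, rfl⟩
      rw [hbot, Subgroup.mem_bot] at hmem
      have h2 : b₀ * e * b₀⁻¹ * e⁻¹ = 1 :=
        (hφ ⟨b₀, hb₀⟩).symm.trans (congrArg Subtype.val hmem)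
      exact hne ((comm_iff_commutator_one b₀ e).mpr h2).symm
    · exact h1
  have h1 := Subgroup.card_mul_index φ.ker
  rw [Subgroup.index_ker, hrange] at h1
  have h2 : Nat.card ↥φ.ker = Nat.card ↥(B ⊓ Subgroup.centralizer ({e} : Set E)) := by
    rw [hker]
    exact Nat.card_congr (Subgroup.subgroupOfEquivOfLe inf_le_left).toEquiv
  rw [← h2]
  exact h1

theorem centP_card_cpair {p : ℕ} [Fact p.Prime] {E : Type u} [Group E] [Finite E]
    (h : CentP p E) {x y : E} (hxy : x * y ≠ y * x) :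
    Nat.card ↥(cpair x y) * (p * p) = Nat.card E := by
  have h1 := centP_index h (⊤ : Subgroup E) x ⟨y, Subgroup.mem_top y, fun hh => hxy hh.symm⟩
  rw [top_inf_eq, Subgroup.card_top] at h1
  have h2 := centP_index h (Subgroup.centralizer ({x} : Set E)) y
    ⟨x, Subgroup.mem_centralizer_singleton_iff.mpr rfl, hxy⟩
  show Nat.card ↥(Subgroup.centralizer ({x} : Set E) ⊓ Subgroup.centralizer ({y} : Set E))
    * (p * p) = Nat.card E
  rw [← mul_assoc, h2, h1]

theorem centP_decomp {p : ℕ} [Fact p.Prime] {E : Type u} [Group E] (h : CentP p E) {x y : E}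
    (hxy : x * y ≠ y * x) (e : E) :
    ∃ c ∈ cpair x y, ∃ i j : ℕ, e = x ^ i * (y ^ j * c) := by
  have hζ1 : x * y * x⁻¹ * y⁻¹ ≠ 1 := fun hh =>
    hxy ((comm_iff_commutator_one x y).mpr hh).symm
  have hζ2 : y * x * y⁻¹ * x⁻¹ ≠ 1 := fun hh => hxy ((comm_iff_commutator_one y x).mpr hh)
  obtain ⟨a, ha⟩ := centP_gen h (h.1 x y) hζ1 (e * y * e⁻¹ * y⁻¹) (h.1 e y)
  obtain ⟨e₁, he₁⟩ : ∃ e₁ : E, e₁ = (x ^ a)⁻¹ * e := ⟨_, rfl⟩
  have hee₁ : e = x ^ a * e₁ := by rw [he₁, mul_inv_cancel_left]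
  have hy1 : y * e₁ = e₁ * y := by
    rw [comm_iff_commutator_one]
    have hm := bcomm_mul_left h.1 (x ^ a) e₁ y
    rw [← hee₁, comm_pow_left h.1 x y a, ← ha] at hm
    exact mul_left_cancel (hm.symm.trans (mul_one _).symm)
  obtain ⟨b, hb⟩ := centP_gen h (h.1 y x) hζ2 (e₁ * x * e₁⁻¹ * x⁻¹) (h.1 e₁ x)
  obtain ⟨c, hc⟩ : ∃ c : E, c = (y ^ b)⁻¹ * e₁ := ⟨_, rfl⟩
  have he₁c : e₁ = y ^ b * c := by rw [hc, mul_inv_cancel_left]
  have hx1 : x * c = c * x := by
    rw [comm_iff_commutator_one]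
    have hm := bcomm_mul_left h.1 (y ^ b) c x
    rw [← he₁c, comm_pow_left h.1 y x b, ← hb] at hm
    exact mul_left_cancel (hm.symm.trans (mul_one _).symm)
  have hy2 : y * c = c * y := by
    have h1 : Commute y e₁ := hy1
    have h2 : Commute y ((y ^ b)⁻¹ * e₁) :=
      (((Commute.refl y).pow_right b).inv_right).mul_right h1
    rw [hc]
    exact h2.eq
  exact ⟨c, mem_cpair.mpr ⟨hx1.symm, hy2.symm⟩, a, b,
    hee₁.trans (congrArg (fun t => x ^ a * t) he₁c)⟩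

theorem centP_center_cpair {p : ℕ} [Fact p.Prime] {E : Type u} [Group E] (h : CentP p E)
    {x y : E} (hxy : x * y ≠ y * x) (w : ↥(cpair x y)) :
    w ∈ Subgroup.center ↥(cpair x y) ↔ (w : E) ∈ Subgroup.center E := by
  constructor
  · intro hw
    rw [Subgroup.mem_center_iff]
    intro e
    rw [← Subgroup.mem_centralizer_singleton_iff]
    have hxw : x ∈ Subgroup.centralizer ({(w : E)} : Set E) :=
      Subgroup.mem_centralizer_singleton_iff.mpr (mem_cpair.mp w.2).1.symm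
    have hyw : y ∈ Subgroup.centralizer ({(w : E)} : Set E) :=
      Subgroup.mem_centralizer_singleton_iff.mpr (mem_cpair.mp w.2).2.symm
    have hcw : ∀ c ∈ cpair x y, c ∈ Subgroup.centralizer ({(w : E)} : Set E) := by
      intro c hc
      rw [Subgroup.mem_centralizer_singleton_iff]
      have h1 := Subgroup.mem_center_iff.mp hw ⟨c, hc⟩
      exact congrArg Subtype.val h1
    obtain ⟨c, hc, i, j, hec⟩ := centP_decomp h hxy e
    rw [hec]
    exact Subgroup.mul_mem _ (Subgroup.pow_mem _ hxw i)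
      (Subgroup.mul_mem _ (Subgroup.pow_mem _ hyw j) (hcw c hc))
  · intro hw
    rw [Subgroup.mem_center_iff]
    intro g
    apply Subtype.ext
    exact Subgroup.mem_center_iff.mp hw (g : E)

theorem centP_cpair {p : ℕ} [Fact p.Prime] {E : Type u} [Group E] (h : CentP p E) {x y : E}
    (hxy : x * y ≠ y * x) : CentP p ↥(cpair x y) := by
  refine ⟨?_, ?_, ?_⟩
  · intro a b
    rw [centP_center_cpair h hxy]
    exact h.1 (a : E) (b : E)
  · have hZC : ∀ g ∈ Subgroup.center E, g ∈ cpair x y := fun g hg => mem_cpair.mpr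
      ⟨(Subgroup.mem_center_iff.mp hg x).symm, (Subgroup.mem_center_iff.mp hg y).symm⟩
    refine (Nat.card_congr ?_).trans h.2.1
    exact
      { toFun := fun w => ⟨((w : ↥(cpair x y)) : E), (centP_center_cpair h hxy w.1).mp w.2⟩
        invFun := fun g => ⟨⟨g.1, hZC g.1 g.2⟩,
          (centP_center_cpair h hxy ⟨g.1, hZC g.1 g.2⟩).mpr g.2⟩
        left_inv := fun w => rfl
        right_inv := fun g => rfl }
  · intro e
    apply Subtype.ext
    exact h.2.2 (e : E)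

theorem g_inv_aux {H : Type w} [Group H] (P Q a : H) :
    P * a⁻¹ = (P * (Q * a)⁻¹ * P⁻¹) * (P * Q) := by group

theorem g_mul_aux {H : Type w} [Group H] (P Q a b : H) :
    (P * Q) * (a * b) = P * (Q * a) * P⁻¹ * (P * b) := by group

theorem g_red_aux {H : Type w} [Group H] (A B l : H) : B * l = A⁻¹ * (A * B * l) := by group

theorem g_conj_aux {H : Type w} [Group H] (P Y l : H) :
    P * (Y * l * Y⁻¹) = (P * Y * P⁻¹ * Y⁻¹) * (Y * (P * l) * Y⁻¹) := by group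

theorem g_step_aux {H : Type w} [Group H] (X A k : H) :
    (X * A) * k * (X * A)⁻¹ = X * (A * k * A⁻¹) * X⁻¹ := by group

/-- Adjoining to a subgroup `K` an element `X` normalizing it with `X ^ p ∈ K` gives a
subgroup of order at most `p * |K|`. -/
theorem p_coset {H : Type w} [Group H] [Finite H] (p : ℕ) (hp : 0 < p) (K : Subgroup H)
    (X : H) (hXp : X ^ p ∈ K) (hn : ∀ k ∈ K, X * k * X⁻¹ ∈ K) :
    ∃ L : Subgroup H, (∀ l, l ∈ L ↔ ∃ i : ℕ, X ^ i * l ∈ K) ∧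
      Nat.card ↥L ≤ p * Nat.card ↥K := by
  have hN1 : ∀ (i : ℕ) (k : H), k ∈ K → X ^ i * k * (X ^ i)⁻¹ ∈ K := by
    intro i
    induction i with
    | zero =>
      intro k hk
      rw [pow_zero, one_mul, inv_one, mul_one]
      exact hk
    | succ i ih =>
      intro k hk
      rw [pow_succ', g_step_aux]
      exact hn _ (ih k hk)
  obtain ⟨q, hq⟩ : ∃ q : ℕ, p = q + 1 := ⟨p - 1, by omega⟩
  obtain ⟨L, hL⟩ : ∃ L : Subgroup H, ∀ l, l ∈ L ↔ ∃ i : ℕ, X ^ i * l ∈ K :=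
    ⟨{ carrier := {l | ∃ i : ℕ, X ^ i * l ∈ K}
       one_mem' := by
         show ∃ i : ℕ, X ^ i * 1 ∈ K
         exact ⟨0, by rw [pow_zero, one_mul]; exact K.one_mem⟩
       mul_mem' := by
         intro a b ha hb
         obtain ⟨i, hi⟩ := ha
         obtain ⟨j, hj⟩ := hb
         show ∃ m : ℕ, X ^ m * (a * b) ∈ K
         refine ⟨j + i, ?_⟩
         rw [pow_add, g_mul_aux]
         exact K.mul_mem (hN1 j _ hi) hj
       inv_mem' := by
         intro a ha
         obtain ⟨i, hi⟩ := ha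
         show ∃ m : ℕ, X ^ m * a⁻¹ ∈ K
         refine ⟨q * i, ?_⟩
         rw [g_inv_aux (X ^ (q * i)) (X ^ i) a]
         refine K.mul_mem (hN1 _ _ (K.inv_mem hi)) ?_
         have hqi : q * i + i = p * i := by rw [hq]; ring
         have h1 : X ^ (q * i) * X ^ i = (X ^ p) ^ i := by
           rw [← pow_add, hqi, pow_mul]
         rw [h1]
         exact K.pow_mem hXp i },
      fun l => Iff.rfl⟩
  refine ⟨L, hL, ?_⟩
  have hred : ∀ l : ↥L, ∃ r : Fin p, X ^ (r : ℕ) * (l : H) ∈ K := by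
    intro l
    obtain ⟨i, hi⟩ := (hL l).mp l.2
    refine ⟨⟨i % p, Nat.mod_lt i hp⟩, ?_⟩
    have h1 : X ^ (i % p) * (l : H) = ((X ^ p) ^ (i / p))⁻¹ * (X ^ i * (l : H)) := by
      have h2 : X ^ i = (X ^ p) ^ (i / p) * X ^ (i % p) := by
        rw [← pow_mul, ← pow_add, Nat.div_add_mod]
      rw [h2]
      exact g_red_aux _ _ _
    show X ^ (i % p) * (l : H) ∈ K
    rw [h1]
    exact K.mul_mem (K.inv_mem (K.pow_mem hXp _)) hi
  choose r hr using hred
  have hinj : Function.Injective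
      (fun l : ↥L => (r l, (⟨X ^ (r l : ℕ) * (l : H), hr l⟩ : ↥K))) := by
    intro l l' hll
    have h1 : r l = r l' := congrArg Prod.fst hll
    have h2 : X ^ (r l : ℕ) * (l : H) = X ^ (r l' : ℕ) * (l' : H) :=
      congrArg (fun t : Fin p × ↥K => ((t.2 : ↥K) : H)) hll
    rw [h1] at h2
    exact Subtype.ext (mul_left_cancel h2)
  have h3 := Nat.card_le_card_of_injective _ hinj
  rw [Nat.card_prod, Nat.card_fin] at h3
  exact h3

/-- Gluing: an isomorphism between the common centralizers of two non-commuting pairs extends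
to the whole groups. -/
theorem centP_glue {p : ℕ} [Fact p.Prime] {E : Type u} {E' : Type v} [Group E] [Group E']
    [Finite E] [Finite E'] (h : CentP p E) (h' : CentP p E') {x y : E} {x' y₀ : E'}
    (hxy : x * y ≠ y * x) (hxy₀ : x' * y₀ ≠ y₀ * x')
    (g : ↥(cpair x y) ≃* ↥(cpair x' y₀)) : Nonempty (E ≃* E') := by
  have hp0 : 0 < p := (Fact.out : p.Prime).pos
  obtain ⟨q, hq⟩ : ∃ q : ℕ, p = q + 1 := ⟨p - 1, by omega⟩
  obtain ⟨ζ, hζ⟩ : ∃ ζ : E, ζ = x * y * x⁻¹ * y⁻¹ := ⟨_, rfl⟩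
  have hζc : ζ ∈ Subgroup.center E := by
    rw [hζ]
    exact h.1 x y
  have hζ1 : ζ ≠ 1 := by
    intro hh
    rw [hζ] at hh
    exact hxy ((comm_iff_commutator_one x y).mpr hh).symm
  have hζC : ζ ∈ cpair x y := mem_cpair.mpr
    ⟨(Subgroup.mem_center_iff.mp hζc x).symm, (Subgroup.mem_center_iff.mp hζc y).symm⟩
  obtain ⟨w, hw⟩ : ∃ w : E', w = ((g ⟨ζ, hζC⟩ : ↥(cpair x' y₀)) : E') := ⟨_, rfl⟩
  have hwc : w ∈ Subgroup.center E' := by
    have hcen : g ⟨ζ, hζC⟩ ∈ Subgroup.center ↥(cpair x' y₀) := by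
      rw [Subgroup.mem_center_iff]
      intro d
      obtain ⟨d0, rfl⟩ := g.surjective d
      rw [← map_mul, ← map_mul]
      exact congrArg g
        (Subgroup.mem_center_iff.mp ((centP_center_cpair h hxy ⟨ζ, hζC⟩).mpr hζc) d0)
    rw [hw]
    exact (centP_center_cpair h' hxy₀ _).mp hcen
  have hw1 : w ≠ 1 := by
    intro hh
    apply hζ1
    have h2 : g ⟨ζ, hζC⟩ = 1 := Subtype.ext (hw.symm.trans hh)
    have h3 : (⟨ζ, hζC⟩ : ↥(cpair x y)) = 1 := by
      apply g.injective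
      rw [h2, map_one]
    exact congrArg Subtype.val h3
  have hζ₀c : x' * y₀ * x'⁻¹ * y₀⁻¹ ∈ Subgroup.center E' := h'.1 x' y₀
  have hζ₀1 : x' * y₀ * x'⁻¹ * y₀⁻¹ ≠ 1 := fun hh =>
    hxy₀ ((comm_iff_commutator_one x' y₀).mpr hh).symm
  obtain ⟨m, hm⟩ := centP_gen h' hζ₀c hζ₀1 w hwc
  obtain ⟨y', hy'⟩ : ∃ y' : E', y' = y₀ ^ m := ⟨_, rfl⟩
  have hw' : x' * y' * x'⁻¹ * y'⁻¹ = w := by
    rw [hy', comm_pow_right h'.1 x' y₀ m]
    exact hm.symm
  have hxy' : x' * y' ≠ y' * x' := by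
    intro hh
    apply hw1
    rw [← hw']
    exact (comm_iff_commutator_one x' y').mp hh.symm
  have hCle : ∀ c' : E', c' ∈ cpair x' y₀ → c' ∈ cpair x' y' := by
    intro c' hc'
    have h1 := mem_cpair.mp hc'
    refine mem_cpair.mpr ⟨h1.1, ?_⟩
    rw [hy']
    have h2 : Commute c' y₀ := h1.2
    exact (h2.pow_right m).eq
  have hCeq : cpair x' y₀ = cpair x' y' := by
    apply Subgroup.eq_of_le_of_card_ge (fun c' hc' => hCle c' hc')
    have e1 := centP_card_cpair h' hxy₀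
    have e2 := centP_card_cpair h' hxy'
    have hpp : 0 < p * p := Nat.mul_pos hp0 hp0
    exact (Nat.eq_of_mul_eq_mul_right hpp (e2.trans e1.symm)).le
  obtain ⟨f, hf⟩ : ∃ f : ↥(cpair x y) →* E × E',
      ∀ c, f c = ((c : E), ((g c : ↥(cpair x' y₀)) : E')) :=
    ⟨MonoidHom.prod (cpair x y).subtype ((cpair x' y₀).subtype.comp g.toMonoidHom),
      fun c => rfl⟩
  have hfinj : Function.Injective f := by
    intro a b hab
    rw [hf, hf] at hab
    exact Subtype.ext (congrArg Prod.fst hab)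
  obtain ⟨K, hK⟩ : ∃ K : Subgroup (E × E'), K = f.range := ⟨_, rfl⟩
  have hKmem : ∀ c : ↥(cpair x y), ((c : E), ((g c : ↥(cpair x' y₀)) : E')) ∈ K := by
    intro c
    rw [hK, ← hf]
    exact MonoidHom.mem_range.mpr ⟨c, rfl⟩
  have hKcard : Nat.card ↥K = Nat.card ↥(cpair x y) := by
    rw [hK]
    exact (Nat.card_congr (MonoidHom.ofInjective hfinj).toEquiv).symm
  have hKelim : ∀ k ∈ K, ∃ c : ↥(cpair x y),
      k = ((c : E), ((g c : ↥(cpair x' y₀)) : E')) := by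
    intro k hk
    rw [hK] at hk
    obtain ⟨c, rfl⟩ := MonoidHom.mem_range.mp hk
    exact ⟨c, hf c⟩
  obtain ⟨X, hX⟩ : ∃ X : E × E', X = (x, x') := ⟨_, rfl⟩
  obtain ⟨Y, hY⟩ : ∃ Y : E × E', Y = (y, y') := ⟨_, rfl⟩
  obtain ⟨Z, hZ⟩ : ∃ Z : E × E', Z = (ζ, w) := ⟨_, rfl⟩
  have hKX : ∀ k ∈ K, X * k * X⁻¹ = k := by
    intro k hk
    obtain ⟨c, rfl⟩ := hKelim k hk
    have e1 : x * (c : E) * x⁻¹ = c := by
      rw [← (mem_cpair.mp c.2).1, mul_inv_cancel_right]
    have e2 : x' * ((g c : ↥(cpair x' y₀)) : E') * x'⁻¹ = (g c : ↥(cpair x' y₀)) := by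
      rw [← (mem_cpair.mp (g c).2).1, mul_inv_cancel_right]
    rw [hX]
    exact Prod.ext e1 e2
  have hKY : ∀ k ∈ K, Y * k * Y⁻¹ = k := by
    intro k hk
    obtain ⟨c, rfl⟩ := hKelim k hk
    have e1 : y * (c : E) * y⁻¹ = c := by
      rw [← (mem_cpair.mp c.2).2, mul_inv_cancel_right]
    have e2 : y' * ((g c : ↥(cpair x' y₀)) : E') * y'⁻¹ = (g c : ↥(cpair x' y₀)) := by
      rw [← (mem_cpair.mp (hCle _ (g c).2)).2, mul_inv_cancel_right]
    rw [hY]
    exact Prod.ext e1 e2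
  have hZK : Z ∈ K := by
    have h1 := hKmem ⟨ζ, hζC⟩
    rw [← hw] at h1
    rw [hZ]
    exact h1
  have hXp : X ^ p = 1 := by
    rw [hX]
    exact Prod.ext (h.2.2 x) (h'.2.2 x')
  have hYp : Y ^ p = 1 := by
    rw [hY]
    exact Prod.ext (h.2.2 y) (h'.2.2 y')
  have hpowZ : ∀ i : ℕ, X ^ i * Y * (X ^ i)⁻¹ * Y⁻¹ ∈ K := by
    intro i
    have e1 : x ^ i * y * (x ^ i)⁻¹ * y⁻¹ = ζ ^ i := by
      rw [hζ]
      exact comm_pow_left h.1 x y i
    have e2 : x' ^ i * y' * (x' ^ i)⁻¹ * y'⁻¹ = w ^ i := by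
      rw [← hw']
      exact comm_pow_left h'.1 x' y' i
    have h1 : X ^ i * Y * (X ^ i)⁻¹ * Y⁻¹ = Z ^ i := by
      rw [hX, hY, hZ]
      exact Prod.ext e1 e2
    rw [h1]
    exact K.pow_mem hZK i
  obtain ⟨K₁, hK₁mem, hK₁card⟩ := p_coset p hp0 K X (by rw [hXp]; exact K.one_mem)
    (fun k hk => by rw [hKX k hk]; exact hk)
  have hKK₁ : ∀ k ∈ K, k ∈ K₁ := fun k hk =>
    (hK₁mem k).mpr ⟨0, by rw [pow_zero, one_mul]; exact hk⟩
  have hXK₁ : X ∈ K₁ :=
    (hK₁mem X).mpr ⟨q, by rw [← pow_succ, ← hq, hXp]; exact K.one_mem⟩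
  obtain ⟨K₂, hK₂mem, hK₂card⟩ := p_coset p hp0 K₁ Y (by rw [hYp]; exact K₁.one_mem) (by
    intro l hl
    obtain ⟨i, hi⟩ := (hK₁mem l).mp hl
    apply (hK₁mem _).mpr
    refine ⟨i, ?_⟩
    rw [g_conj_aux (X ^ i) Y l, hKY _ hi]
    exact K.mul_mem (hpowZ i) hi)
  have hK₁K₂ : ∀ k ∈ K₁, k ∈ K₂ := fun k hk =>
    (hK₂mem k).mpr ⟨0, by rw [pow_zero, one_mul]; exact hk⟩
  have hKK₂ : ∀ k ∈ K, k ∈ K₂ := fun k hk => hK₁K₂ k (hKK₁ k hk)
  have hXK₂ : X ∈ K₂ := hK₁K₂ X hXK₁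
  have hYK₂ : Y ∈ K₂ :=
    (hK₂mem Y).mpr ⟨q, by rw [← pow_succ, ← hq, hYp]; exact K₁.one_mem⟩
  have hcardK₂ : Nat.card ↥K₂ ≤ Nat.card ↥(cpair x y) * (p * p) := by
    calc Nat.card ↥K₂ ≤ p * Nat.card ↥K₁ := hK₂card
      _ ≤ p * (p * Nat.card ↥K) := Nat.mul_le_mul_left p hK₁card
      _ = Nat.card ↥(cpair x y) * (p * p) := by rw [hKcard]; ring
  subst hX hY
  obtain ⟨π₁, hπ₁def⟩ : ∃ π₁ : ↥K₂ →* E, ∀ k : ↥K₂, π₁ k = (k : E × E').1 :=
    ⟨(MonoidHom.fst E E').comp K₂.subtype, fun k => rfl⟩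
  obtain ⟨π₂, hπ₂def⟩ : ∃ π₂ : ↥K₂ →* E', ∀ k : ↥K₂, π₂ k = (k : E × E').2 :=
    ⟨(MonoidHom.snd E E').comp K₂.subtype, fun k => rfl⟩
  have hπ₁ : Function.Surjective π₁ := by
    intro e
    obtain ⟨c, hc, i, j, hec⟩ := centP_decomp h hxy e
    have hk := hKK₂ _ (hKmem ⟨c, hc⟩)
    exact ⟨⟨_, K₂.mul_mem (K₂.pow_mem hXK₂ i) (K₂.mul_mem (K₂.pow_mem hYK₂ j) hk)⟩,
      (hπ₁def _).trans hec.symm⟩
  have hπ₂ : Function.Surjective π₂ := by
    intro e'
    obtain ⟨c', hc', i, j, hec'⟩ := centP_decomp h' hxy' e'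
    have hc'' : c' ∈ cpair x' y₀ := by
      rw [hCeq]
      exact hc'
    obtain ⟨c, hgc⟩ := g.surjective ⟨c', hc''⟩
    have hk := hKK₂ _ (hKmem c)
    rw [hgc] at hk
    exact ⟨⟨_, K₂.mul_mem (K₂.pow_mem hXK₂ i) (K₂.mul_mem (K₂.pow_mem hYK₂ j) hk)⟩,
      (hπ₂def _).trans hec'.symm⟩
  have hcE : Nat.card ↥(cpair x y) * (p * p) = Nat.card E := centP_card_cpair h hxy
  have hcC : Nat.card ↥(cpair x y) = Nat.card ↥(cpair x' y₀) := Nat.card_congr g.toEquiv
  have hcE' : Nat.card ↥(cpair x y) * (p * p) = Nat.card E' := by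
    rw [hcC]
    exact centP_card_cpair h' hxy₀
  have hb₁ : Function.Bijective π₁ := hπ₁.bijective_of_nat_card_le (hcardK₂.trans hcE.le)
  have hb₂ : Function.Bijective π₂ := hπ₂.bijective_of_nat_card_le (hcardK₂.trans hcE'.le)
  exact ⟨(MulEquiv.ofBijective π₁ hb₁).symm.trans (MulEquiv.ofBijective π₂ hb₂)⟩

theorem centP_card_of_comm {p : ℕ} {E : Type u} [Group E] (h : CentP p E)
    (hab : ∀ a b : E, a * b = b * a) : Nat.card E = p := by
  have htop : Subgroup.center E = ⊤ := by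
    rw [Subgroup.eq_top_iff']
    intro a
    rw [Subgroup.mem_center_iff]
    intro g
    exact hab g a
  have h2 := h.2.1
  rw [htop, Subgroup.card_top] at h2
  exact h2

/-- Two groups with central commutators, centre of order `p` and trivial `p`-th powers, of the
same order, are isomorphic. -/
theorem centP_classify_aux {p : ℕ} [Fact p.Prime] : ∀ (n : ℕ) (E : Type u) [Group E]
    [Finite E] (E' : Type v) [Group E'] [Finite E'], CentP p E → CentP p E' →
    Nat.card E ≤ n → Nat.card E' = Nat.card E → Nonempty (E ≃* E') := by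
  intro n
  induction n with
  | zero =>
    intro E _ _ E' _ _ h h' hn _
    exfalso
    have hpos := Nat.card_pos (α := E)
    omega
  | succ n ih =>
    intro E _ _ E' _ _ h h' hn hcard
    have hp2 : 2 ≤ p := (Fact.out : p.Prime).two_le
    by_cases hab : ∀ a b : E, a * b = b * a
    · have h2 : Nat.card E = p := centP_card_of_comm h hab
      exact ⟨mulEquivOfPrimeCardEq h2 (hcard.trans h2)⟩
    · push Not at hab
      have hab' : ∃ a b : E', a * b ≠ b * a := by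
        by_contra hcon
        push Not at hcon
        have h2 : Nat.card E' = p := centP_card_of_comm h' hcon
        obtain ⟨a, b, hne⟩ := hab
        have h4 := centP_card_cpair h hne
        have hposC : 1 ≤ Nat.card ↥(cpair a b) := Nat.card_pos
        have hpp : 2 * p ≤ p * p := Nat.mul_le_mul_right p hp2
        have h5 : 1 * (p * p) ≤ Nat.card ↥(cpair a b) * (p * p) :=
          Nat.mul_le_mul_right (p * p) hposC
        omega
      obtain ⟨x, y, hxy⟩ := hab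
      obtain ⟨x', y', hxy'⟩ := hab'
      have hC := centP_cpair h hxy
      have hC' := centP_cpair h' hxy'
      have hc4 := centP_card_cpair h hxy
      have hc4' := centP_card_cpair h' hxy'
      have hposC : 1 ≤ Nat.card ↥(cpair x y) := Nat.card_pos
      have hpp4 : 4 ≤ p * p := Nat.mul_le_mul hp2 hp2
      have hCn : Nat.card ↥(cpair x y) ≤ n := by
        have h5 : Nat.card ↥(cpair x y) * 4 ≤ Nat.card ↥(cpair x y) * (p * p) :=
          Nat.mul_le_mul_left _ hpp4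
        omega
      have hCC : Nat.card ↥(cpair x' y') = Nat.card ↥(cpair x y) :=
        Nat.eq_of_mul_eq_mul_right (by omega : 0 < p * p)
          (hc4'.trans (hcard.trans hc4.symm))
      obtain ⟨g⟩ := ih ↥(cpair x y) ↥(cpair x' y') hC hC' hCn hCC
      exact centP_glue h h' hxy hxy' g

end Cfsg.Agent.Helper11
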