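import Mathlib
import Cfsg.Prelude
import Cfsg.Agent.Helper11.ExtraOdd
import Cfsg.Agent.Lead.PGroup

set_option autoImplicit false

namespace Cfsg.Agent.Helper11

universe u v

/-- Transfer of `CentP` along an isomorphism. -/
theorem centP_transfer {p : ℕ} {E : Type u} {E' : Type v} [Group E] [Group E'] (e : E ≃* E')
    (h : CentP p E) : CentP p E' := by
  have hcen : ∀ z : E, z ∈ Subgroup.center E → e z ∈ Subgroup.center E' := by
    intro z hz
    rw [Subgroup.mem_center_iff] at hz ⊢
    intro g
    obtain ⟨g', rfl⟩ := e.surjective g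
    rw [← map_mul, ← map_mul, hz g']
  refine ⟨?_, ?_, ?_⟩
  · intro a b
    obtain ⟨a', rfl⟩ := e.surjective a
    obtain ⟨b', rfl⟩ := e.surjective b
    have h1 := hcen _ (h.1 a' b')
    rw [map_mul, map_mul, map_mul, map_inv, map_inv] at h1
    exact h1
  · rw [← h.2.1]
    exact (Nat.card_congr (Subgroup.centerCongr e).toEquiv).symm
  · intro x
    obtain ⟨x', rfl⟩ := e.surjective x
    rw [← map_pow, h.2.2 x', map_one]

theorem centP_coatom {p : ℕ} [Fact p.Prime] {E : Type u} [Group E] [Finite E] (h : CentP p E)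
    (f : E) (hf : ∃ e : E, e * f ≠ f * e) : IsCoatom (Subgroup.centralizer ({f} : Set E)) := by
  obtain ⟨e, he⟩ := hf
  have h1 := centP_index h (⊤ : Subgroup E) f ⟨e, Subgroup.mem_top e, he⟩
  rw [top_inf_eq, Subgroup.card_top] at h1
  constructor
  · intro htop
    apply he
    have h2 : e ∈ Subgroup.centralizer ({f} : Set E) := by
      rw [htop]
      exact Subgroup.mem_top e
    exact Subgroup.mem_centralizer_singleton_iff.mp h2
  · intro K hK
    apply Subgroup.eq_top_of_le_card
    obtain ⟨k, hk⟩ := Subgroup.card_dvd_of_le hK.le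
    have hCpos : 0 < Nat.card ↥(Subgroup.centralizer ({f} : Set E)) := Nat.card_pos
    have hk1 : k ≠ 1 := by
      intro hk1
      rw [hk1, mul_one] at hk
      exact hK.ne (Subgroup.eq_of_le_of_card_ge hK.le (le_of_eq hk))
    have hdvd : Nat.card ↥K ∣ Nat.card E := Subgroup.card_subgroup_dvd_card K
    rw [hk, ← h1] at hdvd
    have hkp : k ∣ p := (Nat.mul_dvd_mul_iff_left hCpos).1 hdvd
    rcases (Nat.dvd_prime (Fact.out : p.Prime)).1 hkp with h2 | h2
    · exact absurd h2 hk1
    · exact le_of_eq (by rw [hk, h2, h1])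

/-- A non-abelian group with central commutators, centre of order `p` and exponent `p` is
extraspecial. -/
theorem centP_extraspecial {p : ℕ} [Fact p.Prime] {E : Type u} [Group E] [Finite E]
    (h : CentP p E) (hnc : ∃ a b : E, a * b ≠ b * a) : Cfsg.IsExtraspecial p E := by
  have hP : IsPGroup p E := fun g => ⟨1, by rw [pow_one]; exact h.2.2 g⟩
  obtain ⟨a, b, hab⟩ := hnc
  have hc1 : a * b * a⁻¹ * b⁻¹ ≠ 1 := by
    intro hh
    apply hab
    calc a * b = (a * b * a⁻¹ * b⁻¹) * (b * a) := by group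
      _ = b * a := by rw [hh, one_mul]
  have hle : commutator E ≤ Subgroup.center E := by
    rw [commutator_def, Subgroup.commutator_le]
    intro g₁ _ g₂ _
    rw [commutatorElement_def]
    exact h.1 g₁ g₂
  have hcomm : commutator E = Subgroup.center E := by
    apply Subgroup.eq_of_le_of_card_ge hle
    rw [h.2.1]
    have hdvd : Nat.card ↥(commutator E) ∣ p := by
      have h0 := Subgroup.card_dvd_of_le hle
      rw [h.2.1] at h0
      exact h0
    rcases (Nat.dvd_prime (Fact.out : p.Prime)).1 hdvd with h1 | h1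
    · exfalso
      have hbot : commutator E = ⊥ := Subgroup.eq_bot_of_card_eq _ h1
      have hmem : a * b * a⁻¹ * b⁻¹ ∈ commutator E := by
        rw [← commutatorElement_def]
        exact Subgroup.commutator_mem_commutator (Subgroup.mem_top a) (Subgroup.mem_top b)
      rw [hbot, Subgroup.mem_bot] at hmem
      exact hc1 hmem
    · exact le_of_eq h1.symm
  have hfr : frattini E ≤ Subgroup.center E := by
    intro e he
    rw [Subgroup.mem_center_iff]
    intro f
    by_contra hne
    have hco := centP_coatom h f ⟨e, fun hh => hne hh.symm⟩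
    have hmem := frattini_le_coatom hco he
    exact hne (Subgroup.mem_centralizer_singleton_iff.mp hmem).symm
  refine ⟨⟨hP, ?_, hcomm⟩, h.2.1⟩
  apply le_antisymm hfr
  rw [← hcomm]
  exact Cfsg.Agent.Lead.commutator_le_frattini hP

/-- The Heisenberg group of degree `n` over `ZMod p`. -/
@[ext] structure Heis (n p : ℕ) where
  a : Fin n → ZMod p
  b : Fin n → ZMod p
  c : ZMod p

namespace Heis

variable {n p : ℕ}

/-- The standard bilinear pairing. -/
def dot (a b : Fin n → ZMod p) : ZMod p := ∑ i, a i * b i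

theorem dot_add_left (a a' b : Fin n → ZMod p) : dot (a + a') b = dot a b + dot a' b := by
  unfold dot
  rw [← Finset.sum_add_distrib]
  apply Finset.sum_congr rfl
  intro i _
  show (a i + a' i) * b i = a i * b i + a' i * b i
  ring

theorem dot_add_right (a b b' : Fin n → ZMod p) : dot a (b + b') = dot a b + dot a b' := by
  unfold dot
  rw [← Finset.sum_add_distrib]
  apply Finset.sum_congr rfl
  intro i _
  show a i * (b i + b' i) = a i * b i + a i * b' i
  ring

theorem dot_zero_left (b : Fin n → ZMod p) : dot (0 : Fin n → ZMod p) b = 0 := by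
  unfold dot
  apply Finset.sum_eq_zero
  intro i _
  show (0 : ZMod p) * b i = 0
  ring

theorem dot_zero_right (a : Fin n → ZMod p) : dot a (0 : Fin n → ZMod p) = 0 := by
  unfold dot
  apply Finset.sum_eq_zero
  intro i _
  show a i * (0 : ZMod p) = 0
  ring

theorem dot_neg_left (a b : Fin n → ZMod p) : dot (-a) b = - dot a b := by
  unfold dot
  rw [← Finset.sum_neg_distrib]
  apply Finset.sum_congr rfl
  intro i _
  show (- a i) * b i = - (a i * b i)
  ring

theorem dot_smul_left (r : ZMod p) (a b : Fin n → ZMod p) : dot (r • a) b = r * dot a b := by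
  unfold dot
  rw [Finset.mul_sum]
  apply Finset.sum_congr rfl
  intro i _
  show (r * a i) * b i = r * (a i * b i)
  ring

theorem dot_smul_right (r : ZMod p) (a b : Fin n → ZMod p) : dot a (r • b) = r * dot a b := by
  unfold dot
  rw [Finset.mul_sum]
  apply Finset.sum_congr rfl
  intro i _
  show a i * (r * b i) = r * (a i * b i)
  ring

theorem dot_single_right (a : Fin n → ZMod p) (i : Fin n) : dot a (Pi.single i 1) = a i := by
  unfold dot
  simp [Pi.single_apply]

theorem dot_single_left (b : Fin n → ZMod p) (i : Fin n) : dot (Pi.single i 1) b = b i := by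
  unfold dot
  simp [Pi.single_apply]

instance : Mul (Heis n p) := ⟨fun x y => ⟨x.a + y.a, x.b + y.b, x.c + y.c + dot x.a y.b⟩⟩
instance : One (Heis n p) := ⟨⟨0, 0, 0⟩⟩
instance : Inv (Heis n p) := ⟨fun x => ⟨-x.a, -x.b, -x.c + dot x.a x.b⟩⟩

instance : Group (Heis n p) := Group.ofLeftAxioms
  (by
    intro x y z
    apply Heis.ext
    · show x.a + y.a + z.a = x.a + (y.a + z.a)
      rw [add_assoc]
    · show x.b + y.b + z.b = x.b + (y.b + z.b)
      rw [add_assoc]
    · show x.c + y.c + dot x.a y.b + z.c + dot (x.a + y.a) z.b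
        = x.c + (y.c + z.c + dot y.a z.b) + dot x.a (y.b + z.b)
      rw [dot_add_left, dot_add_right]
      ring)
  (by
    intro x
    apply Heis.ext
    · show (0 : Fin n → ZMod p) + x.a = x.a
      rw [zero_add]
    · show (0 : Fin n → ZMod p) + x.b = x.b
      rw [zero_add]
    · show (0 : ZMod p) + x.c + dot (0 : Fin n → ZMod p) x.b = x.c
      rw [dot_zero_left]
      ring)
  (by
    intro x
    apply Heis.ext
    · show -x.a + x.a = 0
      rw [neg_add_cancel]
    · show -x.b + x.b = 0
      rw [neg_add_cancel]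
    · show -x.c + dot x.a x.b + x.c + dot (-x.a) x.b = 0
      rw [dot_neg_left]
      ring)

theorem mul_a (x y : Heis n p) : (x * y).a = x.a + y.a := rfl
theorem mul_b (x y : Heis n p) : (x * y).b = x.b + y.b := rfl
theorem mul_c (x y : Heis n p) : (x * y).c = x.c + y.c + dot x.a y.b := rfl
theorem one_a : (1 : Heis n p).a = 0 := rfl
theorem one_b : (1 : Heis n p).b = 0 := rfl
theorem one_c : (1 : Heis n p).c = 0 := rfl
theorem inv_a (x : Heis n p) : (x⁻¹).a = -x.a := rfl
theorem inv_b (x : Heis n p) : (x⁻¹).b = -x.b := rfl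

theorem pow_formula (x : Heis n p) (k : ℕ) :
    (x ^ k).a = (k : ZMod p) • x.a ∧ (x ^ k).b = (k : ZMod p) • x.b ∧
      (x ^ k).c = (k : ZMod p) * x.c + ((k.choose 2 : ℕ) : ZMod p) * dot x.a x.b := by
  induction k with
  | zero =>
    rw [pow_zero]
    refine ⟨?_, ?_, ?_⟩
    · rw [one_a, Nat.cast_zero, zero_smul]
    · rw [one_b, Nat.cast_zero, zero_smul]
    · rw [one_c]
      simp
  | succ k ih =>
    obtain ⟨iha, ihb, ihc⟩ := ih
    rw [pow_succ]
    refine ⟨?_, ?_, ?_⟩
    · rw [mul_a, iha, Nat.cast_succ, add_smul, one_smul]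
    · rw [mul_b, ihb, Nat.cast_succ, add_smul, one_smul]
    · rw [mul_c, ihc, iha, dot_smul_left]
      have hch : (k + 1).choose 2 = k + k.choose 2 := by
        rw [show (2 : ℕ) = 1 + 1 from rfl, Nat.choose_succ_succ, Nat.choose_one_right]
      rw [hch]
      push_cast
      ring

theorem pow_p [Fact p.Prime] (hp : p ≠ 2) (x : Heis n p) : x ^ p = 1 := by
  obtain ⟨ha, hb, hc⟩ := pow_formula x p
  have hp0 : ((p : ℕ) : ZMod p) = 0 := ZMod.natCast_self p
  have hch : ((p.choose 2 : ℕ) : ZMod p) = 0 := by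
    rw [ZMod.natCast_eq_zero_iff]
    have hpr : p.Prime := Fact.out
    exact hpr.dvd_choose_self (by norm_num) (by have := hpr.two_le; omega)
  apply Heis.ext
  · rw [one_a, ha, hp0, zero_smul]
  · rw [one_b, hb, hp0, zero_smul]
  · rw [one_c, hc, hp0, hch, zero_mul, zero_mul, add_zero]

theorem comm_iff (x y : Heis n p) : x * y = y * x ↔ dot x.a y.b = dot y.a x.b := by
  constructor
  · intro h
    have h1 : x.c + y.c + dot x.a y.b = y.c + x.c + dot y.a x.b := congrArg Heis.c h
    linear_combination h1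
  · intro h
    apply Heis.ext
    · show x.a + y.a = y.a + x.a
      exact add_comm _ _
    · show x.b + y.b = y.b + x.b
      exact add_comm _ _
    · show x.c + y.c + dot x.a y.b = y.c + x.c + dot y.a x.b
      rw [h]
      ring

theorem mem_center_iff' (x : Heis n p) :
    x ∈ Subgroup.center (Heis n p) ↔ x.a = 0 ∧ x.b = 0 := by
  rw [Subgroup.mem_center_iff]
  constructor
  · intro h
    constructor
    · funext i
      have h1 : dot (0 : Fin n → ZMod p) x.b = dot x.a (Pi.single i 1) :=
        (comm_iff (⟨0, Pi.single i 1, 0⟩ : Heis n p) x).1 (h _)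
      rw [dot_zero_left, dot_single_right] at h1
      exact h1.symm
    · funext i
      have h1 : dot (Pi.single i 1) x.b = dot x.a (0 : Fin n → ZMod p) :=
        (comm_iff (⟨Pi.single i 1, 0, 0⟩ : Heis n p) x).1 (h _)
      rw [dot_single_left, dot_zero_right] at h1
      exact h1
  · rintro ⟨ha, hb⟩ g
    rw [comm_iff, ha, hb, dot_zero_left, dot_zero_right]

theorem comm_central (x y : Heis n p) : x * y * x⁻¹ * y⁻¹ ∈ Subgroup.center (Heis n p) := by
  rw [mem_center_iff']
  constructor
  · rw [mul_a, mul_a, mul_a, inv_a, inv_a]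
    abel
  · rw [mul_b, mul_b, mul_b, inv_b, inv_b]
    abel

theorem card_center : Nat.card (Subgroup.center (Heis n p)) = p := by
  have e : Subgroup.center (Heis n p) ≃ ZMod p :=
    { toFun := fun z => z.1.c
      invFun := fun c => ⟨⟨0, 0, c⟩, (mem_center_iff' _).2 ⟨rfl, rfl⟩⟩
      left_inv := by
        intro z
        obtain ⟨ha, hb⟩ := (mem_center_iff' z.1).1 z.2
        apply Subtype.ext
        apply Heis.ext
        · exact ha.symm
        · exact hb.symm
        · rfl
      right_inv := fun c => rfl }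
  rw [Nat.card_congr e, Nat.card_zmod]

theorem nonabelian [Fact p.Prime] (hn : 1 ≤ n) : ∃ x y : Heis n p, x * y ≠ y * x := by
  refine ⟨⟨Pi.single ⟨0, hn⟩ 1, 0, 0⟩, ⟨0, Pi.single ⟨0, hn⟩ 1, 0⟩, ?_⟩
  intro h
  have h1 : dot (Pi.single (⟨0, hn⟩ : Fin n) (1 : ZMod p))
      (Pi.single (⟨0, hn⟩ : Fin n) (1 : ZMod p))
      = dot (0 : Fin n → ZMod p) (0 : Fin n → ZMod p) := (comm_iff _ _).1 h
  rw [dot_single_left, dot_zero_left, Pi.single_eq_same] at h1
  exact one_ne_zero h1

/-- The underlying triple. -/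
def equivProd : Heis n p ≃ (Fin n → ZMod p) × (Fin n → ZMod p) × ZMod p where
  toFun x := (x.a, x.b, x.c)
  invFun t := ⟨t.1, t.2.1, t.2.2⟩
  left_inv _ := rfl
  right_inv _ := rfl

theorem card_eq : Nat.card (Heis n p) = p ^ (1 + 2 * n) := by
  rw [Nat.card_congr equivProd, Nat.card_prod, Nat.card_prod, Nat.card_fun, Nat.card_zmod,
    Nat.card_fin]
  ring

instance [Fact p.Prime] : Finite (Heis n p) := Finite.of_equiv _ equivProd.symm

theorem centP [Fact p.Prime] (hp : p ≠ 2) : CentP p (Heis n p) :=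
  ⟨comm_central, card_center, pow_p hp⟩

/-- The natural linear action on `ZMod p × (Fin n → ZMod p) × ZMod p`. -/
def act (x : Heis n p) : (ZMod p × (Fin n → ZMod p) × ZMod p) →ₗ[ZMod p]
    (ZMod p × (Fin n → ZMod p) × ZMod p) where
  toFun v := (v.1 + dot x.a v.2.1 + x.c * v.2.2, v.2.1 + v.2.2 • x.b, v.2.2)
  map_add' v w := by
    refine Prod.ext ?_ (Prod.ext ?_ rfl)
    · show (v.1 + w.1) + dot x.a (v.2.1 + w.2.1) + x.c * (v.2.2 + w.2.2)
        = (v.1 + dot x.a v.2.1 + x.c * v.2.2) + (w.1 + dot x.a w.2.1 + x.c * w.2.2)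
      rw [dot_add_right]
      ring
    · show (v.2.1 + w.2.1) + (v.2.2 + w.2.2) • x.b
        = (v.2.1 + v.2.2 • x.b) + (w.2.1 + w.2.2 • x.b)
      rw [add_smul]
      abel
  map_smul' r v := by
    refine Prod.ext ?_ (Prod.ext ?_ rfl)
    · show r * v.1 + dot x.a (r • v.2.1) + x.c * (r * v.2.2)
        = r * (v.1 + dot x.a v.2.1 + x.c * v.2.2)
      rw [dot_smul_right]
      ring
    · show r • v.2.1 + (r * v.2.2) • x.b = r • (v.2.1 + v.2.2 • x.b)
      rw [smul_add, mul_smul]

/-- The natural representation. -/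
def rho : Heis n p →* Module.End (ZMod p) (ZMod p × (Fin n → ZMod p) × ZMod p) where
  toFun := act
  map_one' := by
    apply LinearMap.ext
    intro v
    refine Prod.ext ?_ (Prod.ext ?_ rfl)
    · show v.1 + dot (0 : Fin n → ZMod p) v.2.1 + 0 * v.2.2 = v.1
      rw [dot_zero_left]
      ring
    · show v.2.1 + v.2.2 • (0 : Fin n → ZMod p) = v.2.1
      rw [smul_zero, add_zero]
  map_mul' x y := by
    apply LinearMap.ext
    intro v
    refine Prod.ext ?_ (Prod.ext ?_ rfl)
    · show v.1 + dot (x.a + y.a) v.2.1 + (x.c + y.c + dot x.a y.b) * v.2.2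
        = (v.1 + dot y.a v.2.1 + y.c * v.2.2) + dot x.a (v.2.1 + v.2.2 • y.b) + x.c * v.2.2
      rw [dot_add_left, dot_add_right, dot_smul_right]
      ring
    · show v.2.1 + v.2.2 • (x.b + y.b) = (v.2.1 + v.2.2 • y.b) + v.2.2 • x.b
      rw [smul_add]
      abel

theorem rho_inj : Function.Injective (rho : Heis n p →* _) := by
  intro x y h
  have h1 : ((0 : ZMod p) + dot x.a (0 : Fin n → ZMod p) + x.c * 1,
      (0 : Fin n → ZMod p) + (1 : ZMod p) • x.b, (1 : ZMod p))
      = ((0 : ZMod p) + dot y.a (0 : Fin n → ZMod p) + y.c * 1,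
        (0 : Fin n → ZMod p) + (1 : ZMod p) • y.b, (1 : ZMod p)) :=
    LinearMap.congr_fun h ((0 : ZMod p), (0 : Fin n → ZMod p), (1 : ZMod p))
  have hc : x.c = y.c := by
    have h2 : (0 : ZMod p) + dot x.a (0 : Fin n → ZMod p) + x.c * 1
        = (0 : ZMod p) + dot y.a (0 : Fin n → ZMod p) + y.c * 1 := congrArg Prod.fst h1
    simpa [dot_zero_right] using h2
  have hb : x.b = y.b := by
    have h2 : (0 : Fin n → ZMod p) + (1 : ZMod p) • x.b
        = (0 : Fin n → ZMod p) + (1 : ZMod p) • y.b := congrArg (fun t => t.2.1) h1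
    simpa using h2
  have ha : x.a = y.a := by
    funext i
    have h2 : ((0 : ZMod p) + dot x.a (Pi.single i 1) + x.c * 0,
        (Pi.single i 1 : Fin n → ZMod p) + (0 : ZMod p) • x.b, (0 : ZMod p))
        = ((0 : ZMod p) + dot y.a (Pi.single i 1) + y.c * 0,
          (Pi.single i 1 : Fin n → ZMod p) + (0 : ZMod p) • y.b, (0 : ZMod p)) :=
      LinearMap.congr_fun h ((0 : ZMod p), (Pi.single i 1 : Fin n → ZMod p), (0 : ZMod p))
    have h3 : (0 : ZMod p) + dot x.a (Pi.single i 1) + x.c * 0
        = (0 : ZMod p) + dot y.a (Pi.single i 1) + y.c * 0 := congrArg Prod.fst h2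
    simpa [dot_single_right] using h3
  exact Heis.ext ha hb hc

theorem finrank_space [Fact p.Prime] :
    Module.finrank (ZMod p) (ZMod p × (Fin n → ZMod p) × ZMod p) = n + 2 := by
  rw [Module.finrank_prod, Module.finrank_prod, Module.finrank_self, Module.finrank_fin_fun]
  omega

/-- The matrix representation. -/
noncomputable def toMat (n p : ℕ) [Fact p.Prime] :
    Heis n p →* Matrix (Fin (n + 2)) (Fin (n + 2)) (ZMod p) :=
  (MonoidHomClass.toMonoidHom (LinearMap.toMatrixAlgEquiv
    (Module.finBasisOfFinrankEq (ZMod p) (ZMod p × (Fin n → ZMod p) × ZMod p)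
      finrank_space))).comp rho

/-- The embedding into the general linear group. -/
noncomputable def toGL (n p : ℕ) [Fact p.Prime] :
    Heis n p →* Matrix.GeneralLinearGroup (Fin (n + 2)) (ZMod p) :=
  (toMat n p).toHomUnits

theorem toGL_inj (n p : ℕ) [Fact p.Prime] : Function.Injective (toGL n p) := by
  intro x y h
  have h1 : toMat n p x = toMat n p y := congrArg Units.val h
  have h2 : rho x = rho y :=
    (LinearMap.toMatrixAlgEquiv
      (Module.finBasisOfFinrankEq (ZMod p) (ZMod p × (Fin n → ZMod p) × ZMod p)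
        finrank_space)).injective h1
  exact rho_inj h2

end Heis

end Cfsg.Agent.Helper11
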