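import Mathlib
import Cfsg.Prelude

set_option autoImplicit false
set_option linter.unnecessarySeqFocus false
set_option linter.constructorNameAsVariable false

namespace Cfsg.Agent.Helper11

open Cfsg

/-- computable model of the field with four elements: `(u, v)` stands for `u + v ω` -/
abbrev HK : Type := ZMod 2 × ZMod 2

/-- multiplication of the model -/
def hkMul (a b : HK) : HK := (a.1 * b.1 + a.2 * b.2, a.1 * b.2 + a.2 * b.1 + a.2 * b.2)

/-- `ω` in the model -/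
def hkW : HK := (0, 1)

/-- `ω ^ 2` in the model -/
def hkW2 : HK := (1, 1)

/-- the three generators of the hexacode in the model -/
def hkG1 : Fin 6 → HK := ![hkW, hkW2, hkW2, hkW, hkW2, hkW]

/-- second generator -/
def hkG2 : Fin 6 → HK := ![hkW2, hkW, hkW, hkW2, hkW2, hkW]

/-- third generator -/
def hkG3 : Fin 6 → HK := ![hkW2, hkW, hkW2, hkW, hkW, hkW2]

/-- concrete hexacode word with coefficients `t` -/
def hkEnc (t : HK × HK × HK) (i : Fin 6) : HK :=
  hkMul t.1 (hkG1 i) + hkMul t.2.1 (hkG2 i) + hkMul t.2.2 (hkG3 i)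

/-- weight of a concrete hexacode word -/
def hkWt (t : HK × HK × HK) : ℕ := (Finset.univ.filter fun i => hkEnc t i ≠ 0).card

theorem hk_enc_inj : ∀ t t' : HK × HK × HK, hkEnc t = hkEnc t' → t = t' := by decide +kernel

theorem hk_wt_cases : ∀ t : HK × HK × HK, t ≠ 0 → hkWt t = 4 ∨ hkWt t = 6 := by decide +kernel

theorem hk_wt_counts : (Finset.univ.filter (fun t : HK × HK × HK => hkWt t = 4)).card = 45 ∧
    (Finset.univ.filter (fun t : HK × HK × HK => hkWt t = 6)).card = 18 := by decide +kernel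

theorem hk_enc_zero : ∀ i, hkEnc 0 i = 0 := by decide +kernel

theorem hk_cases : ∀ u : ZMod 2, u = 0 ∨ u = 1 := by decide

section

variable {F : Type*} [Field F] [CharP F 2] (ω : F)

/-- the comparison map from the model to a field with four elements -/
def hkPhi (a : HK) : F :=
  ZMod.castHom (dvd_refl 2) F a.1 + ZMod.castHom (dvd_refl 2) F a.2 * ω

theorem hk_two : (2 : F) = 0 := CharTwo.two_eq_zero

theorem hk_phi_add (a b : HK) : hkPhi ω (a + b) = hkPhi ω a + hkPhi ω b := by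
  simp only [hkPhi, Prod.fst_add, Prod.snd_add, map_add]; ring

theorem hk_phi_mul (hω : ω ^ 2 + ω + 1 = 0) (a b : HK) :
    hkPhi ω (hkMul a b) = hkPhi ω a * hkPhi ω b := by
  simp only [hkPhi, hkMul, map_add, map_mul]
  linear_combination (ZMod.castHom (dvd_refl 2) F a.2 * ZMod.castHom (dvd_refl 2) F b.2) * hω
    - (ZMod.castHom (dvd_refl 2) F a.2 * ZMod.castHom (dvd_refl 2) F b.2 * ω ^ 2)
      * (hk_two (F := F))

theorem hk_omega_ne (hω : ω ^ 2 + ω + 1 = 0) : ω ≠ 0 ∧ ω ≠ 1 := by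
  constructor
  · rintro rfl
    simp at hω
  · rintro rfl
    have h2 := hk_two (F := F)
    have : (1 : F) = 0 := by linear_combination hω - h2
    exact one_ne_zero this

theorem hk_phi_ker (hω : ω ^ 2 + ω + 1 = 0) (a : HK) (h : hkPhi ω a = 0) : a = 0 := by
  have hne := hk_omega_ne ω hω
  obtain ⟨u, v⟩ := a
  simp only [hkPhi] at h
  rcases hk_cases u with rfl | rfl <;> rcases hk_cases v with rfl | rfl
  · rfl
  · exfalso
    simp only [map_zero, map_one, zero_add, one_mul] at h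
    exact hne.1 h
  · exfalso
    simp only [map_zero, map_one, zero_mul, add_zero] at h
    exact one_ne_zero h
  · exfalso
    simp only [map_one, one_mul] at h
    apply hne.2
    linear_combination h - hk_two (F := F)

theorem hk_phi_inj (hω : ω ^ 2 + ω + 1 = 0) : Function.Injective (hkPhi (F := F) ω) := by
  intro a b h
  have h0 : hkPhi ω (a - b) = 0 := by
    simp only [hkPhi, Prod.fst_sub, Prod.snd_sub, map_sub] at h ⊢
    linear_combination h
  exact sub_eq_zero.mp (hk_phi_ker ω hω _ h0)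

theorem hk_phi_zero : hkPhi (F := F) ω 0 = 0 := by simp [hkPhi]

theorem hk_phi_eq_zero (hω : ω ^ 2 + ω + 1 = 0) (a : HK) : hkPhi ω a = 0 ↔ a = 0 :=
  ⟨hk_phi_ker ω hω a, fun h => by rw [h]; exact hk_phi_zero ω⟩

theorem hk_phi_surj [Fintype F] (hF : Fintype.card F = 4) (hω : ω ^ 2 + ω + 1 = 0) :
    Function.Surjective (hkPhi (F := F) ω) := by
  have hb := (Fintype.bijective_iff_injective_and_card (hkPhi (F := F) ω)).mpr
    ⟨hk_phi_inj ω hω, by rw [hF]; simp [ZMod.card]⟩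
  exact hb.2

theorem hk_phi_W : hkPhi ω hkW = ω := by simp [hkPhi, hkW]

theorem hk_phi_W2 (hω : ω ^ 2 + ω + 1 = 0) : hkPhi ω hkW2 = ω ^ 2 := by
  simp only [hkPhi, hkW2, map_one, one_mul]
  linear_combination (-1 : F) * hω + (ω + 1) * hk_two (F := F)

theorem hk_g1 (hω : ω ^ 2 + ω + 1 = 0) (i : Fin 6) :
    (![ω, ω ^ 2, ω ^ 2, ω, ω ^ 2, ω] : Fin 6 → F) i = hkPhi ω (hkG1 i) := by
  fin_cases i <;> first | exact (hk_phi_W ω).symm | exact (hk_phi_W2 ω hω).symm

theorem hk_g2 (hω : ω ^ 2 + ω + 1 = 0) (i : Fin 6) :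
    (![ω ^ 2, ω, ω, ω ^ 2, ω ^ 2, ω] : Fin 6 → F) i = hkPhi ω (hkG2 i) := by
  fin_cases i <;> first | exact (hk_phi_W ω).symm | exact (hk_phi_W2 ω hω).symm

theorem hk_g3 (hω : ω ^ 2 + ω + 1 = 0) (i : Fin 6) :
    (![ω ^ 2, ω, ω ^ 2, ω, ω, ω ^ 2] : Fin 6 → F) i = hkPhi ω (hkG3 i) := by
  fin_cases i <;> first | exact (hk_phi_W ω).symm | exact (hk_phi_W2 ω hω).symm

theorem hk_mem_iff [Fintype F] (hF : Fintype.card F = 4) (hω : ω ^ 2 + ω + 1 = 0)
    (x : Fin 6 → F) :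
    x ∈ hexacode F ω ↔ ∃ t : HK × HK × HK, x = fun i => hkPhi ω (hkEnc t i) := by
  unfold hexacode
  rw [Submodule.mem_span_triple]
  have key : ∀ (a b c : HK) (i : Fin 6),
      (hkPhi ω a • (![ω, ω ^ 2, ω ^ 2, ω, ω ^ 2, ω] : Fin 6 → F)
        + hkPhi ω b • ![ω ^ 2, ω, ω, ω ^ 2, ω ^ 2, ω]
        + hkPhi ω c • ![ω ^ 2, ω, ω ^ 2, ω, ω, ω ^ 2]) i = hkPhi ω (hkEnc (a, b, c) i) := by
    intro a b c i
    simp only [Pi.add_apply, Pi.smul_apply, smul_eq_mul, hk_g1 ω hω i, hk_g2 ω hω i,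
      hk_g3 ω hω i, hkEnc, hk_phi_add, hk_phi_mul ω hω]
  constructor
  · rintro ⟨a, b, c, rfl⟩
    obtain ⟨a', rfl⟩ := hk_phi_surj ω hF hω a
    obtain ⟨b', rfl⟩ := hk_phi_surj ω hF hω b
    obtain ⟨c', rfl⟩ := hk_phi_surj ω hF hω c
    exact ⟨(a', b', c'), funext (key a' b' c')⟩
  · rintro ⟨⟨a, b, c⟩, rfl⟩
    exact ⟨hkPhi ω a, hkPhi ω b, hkPhi ω c, funext (key a b c)⟩

theorem hk_par_inj (hω : ω ^ 2 + ω + 1 = 0) :
    Function.Injective (fun (t : HK × HK × HK) (i : Fin 6) => hkPhi (F := F) ω (hkEnc t i)) := by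
  intro t t' h
  apply hk_enc_inj
  funext i
  exact hk_phi_inj ω hω (congrFun h i)

theorem hk_wt [DecidableEq F] (hω : ω ^ 2 + ω + 1 = 0) (t : HK × HK × HK) :
    (Finset.univ.filter fun i => hkPhi (F := F) ω (hkEnc t i) ≠ 0).card = hkWt t := by
  unfold hkWt
  congr 1
  ext i
  simp only [Finset.mem_filter, Finset.mem_univ, true_and, ne_eq, hk_phi_eq_zero ω hω]

theorem hk_ncard [Fintype F] [DecidableEq F] (hF : Fintype.card F = 4)
    (hω : ω ^ 2 + ω + 1 = 0) (Q : ℕ → Prop) [DecidablePred Q] :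
    {x : Fin 6 → F | x ∈ hexacode F ω ∧ Q (Finset.univ.filter fun i => x i ≠ 0).card}.ncard
      = (Finset.univ.filter (fun t : HK × HK × HK => Q (hkWt t))).card := by
  have : {x : Fin 6 → F | x ∈ hexacode F ω ∧ Q (Finset.univ.filter fun i => x i ≠ 0).card}
      = (fun (t : HK × HK × HK) (i : Fin 6) => hkPhi (F := F) ω (hkEnc t i)) ''
        ↑(Finset.univ.filter (fun t : HK × HK × HK => Q (hkWt t))) := by
    ext x
    rw [Set.mem_image]
    constructor
    · rintro ⟨hx, hq⟩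
      obtain ⟨t, rfl⟩ := (hk_mem_iff ω hF hω x).mp hx
      rw [hk_wt ω hω t] at hq
      exact ⟨t, by simpa using hq, rfl⟩
    · rintro ⟨t, ht, rfl⟩
      refine ⟨(hk_mem_iff ω hF hω _).mpr ⟨t, rfl⟩, ?_⟩
      rw [hk_wt ω hω t]
      simpa using ht
  rw [this, Set.ncard_image_of_injective _ (hk_par_inj ω hω), Set.ncard_coe_finset]

theorem hk_card [Fintype F] (hF : Fintype.card F = 4) (hω : ω ^ 2 + ω + 1 = 0) :
    Nat.card ↥(hexacode F ω) = 64 := by
  have hbij : Function.Bijective (fun t : HK × HK × HK =>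
      (⟨fun i => hkPhi (F := F) ω (hkEnc t i), (hk_mem_iff ω hF hω _).mpr ⟨t, rfl⟩⟩ :
        ↥(hexacode F ω))) := by
    constructor
    · intro t t' h
      exact hk_par_inj ω hω (congrArg Subtype.val h)
    · rintro ⟨x, hx⟩
      obtain ⟨t, rfl⟩ := (hk_mem_iff ω hF hω x).mp hx
      exact ⟨t, rfl⟩
  rw [← Nat.card_congr (Equiv.ofBijective _ hbij), Nat.card_eq_fintype_card]
  simp [ZMod.card]

theorem hk_wt_mem [Fintype F] [DecidableEq F] (hF : Fintype.card F = 4)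
    (hω : ω ^ 2 + ω + 1 = 0) (x : Fin 6 → F) (hx : x ∈ hexacode F ω) (hx0 : x ≠ 0) :
    (Finset.univ.filter fun i => x i ≠ 0).card = 4 ∨
      (Finset.univ.filter fun i => x i ≠ 0).card = 6 := by
  obtain ⟨t, rfl⟩ := (hk_mem_iff ω hF hω x).mp hx
  rw [hk_wt ω hω t]
  apply hk_wt_cases
  rintro rfl
  apply hx0
  funext i
  rw [hk_enc_zero i]
  exact hk_phi_zero ω

end

/-- the hexacode has 64 words: 45 of weight 4 and 18 of weight 6 -/
theorem hk_main {F : Type*} [Field F] [Fintype F] [DecidableEq F] (hF : Fintype.card F = 4)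
    (ω : F) (hω : ω ^ 2 + ω + 1 = 0) :
    Nat.card ↥(hexacode F ω) = 64 ∧
    (∀ x ∈ hexacode F ω, x ≠ 0 → (Finset.univ.filter fun i => x i ≠ 0).card = 4 ∨
      (Finset.univ.filter fun i => x i ≠ 0).card = 6) ∧
    {x : Fin 6 → F | x ∈ hexacode F ω ∧ (Finset.univ.filter fun i => x i ≠ 0).card = 4}.ncard
      = 45 ∧
    {x : Fin 6 → F | x ∈ hexacode F ω ∧ (Finset.univ.filter fun i => x i ≠ 0).card = 6}.ncard
      = 18 := by
  have h4 : ((4 : ℕ) : F) = 0 := by rw [← hF]; exact FiniteField.cast_card_eq_zero F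
  have h2 : (2 : F) = 0 := by
    have h22 : (2 : F) * 2 = 0 := by rw [← h4]; norm_num
    exact mul_self_eq_zero.mp h22
  haveI : CharP F 2 := CharTwo.of_one_ne_zero_of_two_eq_zero one_ne_zero h2
  exact ⟨hk_card ω hF hω, hk_wt_mem ω hF hω,
    (hk_ncard ω hF hω (· = 4)).trans hk_wt_counts.1,
    (hk_ncard ω hF hω (· = 6)).trans hk_wt_counts.2⟩

end Cfsg.Agent.Helper11
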