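import Cfsg.Agent.Helper11.Hexa

set_option autoImplicit false
set_option linter.unnecessarySeqFocus false
set_option linter.constructorNameAsVariable false
set_option linter.style.haveILetI false
set_option linter.unusedSimpArgs false

namespace Cfsg.Agent.Helper11

open Cfsg

/-- decoder of the concrete hexacode (from the first three coordinates) -/
def hkDec (y : Fin 6 → HK) : HK × HK × HK :=
  (hkMul hkW (y 0) + hkMul hkW2 (y 1), hkMul hkW2 (y 0) + hkMul hkW2 (y 1) + y 2, y 1 + y 2)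

/-- concrete check that `(σ, d)` maps the word `g` into the hexacode -/
abbrev hkChk (σ : Equiv.Perm (Fin 6)) (d : Fin 6 → HK) (g : Fin 6 → HK) : Prop :=
  ∀ i, hkMul (d i) (g (σ.symm i)) = hkEnc (hkDec (fun j => hkMul (d j) (g (σ.symm j)))) i

/-- elements of the model from their codes -/
def hkOfNat (n : ℕ) : HK :=
  if n = 1 then (1, 0) else if n = 2 then (0, 1) else if n = 3 then (1, 1) else (0, 0)

/-- codes of scalar vectors lifting the three-cycles `swap a b * swap b c` -/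
def hkCodes : List ℕ := [
  0, 0, 0, 0, 0, 0, 0, 0, 2901, 3669, 1461, 1509, 0, 3669, 0, 2901, 2925, 2937,
  0, 2901, 3669, 0, 3801, 3741, 0, 1509, 1725, 1977, 0, 1461, 0, 1461, 3561, 2541, 1509, 0,
  0, 0, 3669, 2901, 1509, 1461, 0, 0, 0, 0, 0, 0, 2901, 0, 0, 3669, 2541, 1977,
  3669, 0, 2901, 0, 3561, 1725, 1461, 0, 3741, 2937, 0, 1509, 1509, 0, 3801, 2925, 1461, 0,
  0, 2901, 0, 3669, 1725, 3561, 3669, 0, 0, 2901, 3741, 3801, 0, 0, 0, 0, 0, 0,
  2901, 3669, 0, 0, 2733, 4089, 2925, 2541, 0, 4089, 0, 2733, 2937, 1977, 0, 2733, 4089, 0,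
  0, 3669, 2901, 0, 1977, 2541, 2901, 0, 3669, 0, 2937, 2925, 3669, 2901, 0, 0, 4089, 2733,
  0, 0, 0, 0, 0, 0, 3801, 3561, 2733, 0, 0, 4089, 3741, 1725, 4089, 0, 2733, 0,
  0, 1461, 2925, 3801, 0, 1509, 1509, 0, 2541, 3561, 0, 1461, 1725, 3741, 0, 2733, 0, 4089,
  1977, 2937, 4089, 0, 0, 2733, 0, 0, 0, 0, 0, 0, 1461, 1509, 2733, 4089, 0, 0,
  0, 1509, 2937, 3741, 1461, 0, 1461, 0, 1977, 1725, 1509, 0, 3561, 3801, 0, 4089, 2733, 0,
  2541, 2925, 2733, 0, 4089, 0, 1509, 1461, 4089, 2733, 0, 0, 0, 0, 0, 0, 0, 0]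

/-- scalar vector lifting the three-cycle `swap a b * swap b c` -/
def hkTab (a b c : Fin 6) (i : Fin 6) : HK :=
  hkOfNat (hkCodes.getD (36 * a.val + 6 * b.val + c.val) 0 / 4 ^ i.val % 4)

theorem hk_tab_ok : ∀ a b c : Fin 6, a ≠ b → b ≠ c → a ≠ c →
    (∀ i, hkTab a b c i ≠ 0) ∧ hkChk (Equiv.swap a b * Equiv.swap b c) (hkTab a b c) hkG1 ∧
      hkChk (Equiv.swap a b * Equiv.swap b c) (hkTab a b c) hkG2 ∧
      hkChk (Equiv.swap a b * Equiv.swap b c) (hkTab a b c) hkG3 := by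
  decide +kernel

theorem hk_pairs : ∀ i j : Fin 6, i = j ∨
    ∃ t : HK × HK × HK, hkEnc t i ≠ 0 ∧ hkEnc t j ≠ 0 ∧ hkWt t = 4 := by
  decide +kernel

theorem hk_word1 : ∃ t : HK × HK × HK,
    hkEnc t 0 = 0 ∧ hkEnc t 1 = 0 ∧ hkEnc t 3 ≠ 0 ∧ hkEnc t 4 ≠ 0 := by
  decide +kernel

theorem hk_word2 : ∃ t : HK × HK × HK, hkEnc t 0 ≠ 0 ∧ hkEnc t 1 = 0 ∧ hkEnc t 5 = 0 := by
  decide +kernel

theorem hk_fin6 : ∀ k : Fin 6, k = 0 ∨ k = 1 ∨ k = 2 ∨ k = 3 ∨ k = 4 ∨ k = 5 := by decide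

theorem hk_charP {F : Type*} [Field F] [Fintype F] (hF : Fintype.card F = 4) : CharP F 2 := by
  have h4 : ((4 : ℕ) : F) = 0 := by rw [← hF]; exact FiniteField.cast_card_eq_zero F
  have h2 : (2 : F) = 0 := by
    have h22 : (2 : F) * 2 = 0 := by rw [← h4]; norm_num
    exact mul_self_eq_zero.mp h22
  exact CharTwo.of_one_ne_zero_of_two_eq_zero one_ne_zero h2

section

variable {F : Type*} [Field F]

theorem hk_mono_add (σ : Equiv.Perm (Fin 6)) (c : Fin 6 → Fˣ) (x y : Fin 6 → F) :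
    monomialMap σ c (x + y) = monomialMap σ c x + monomialMap σ c y := by
  funext i
  simp only [monomialMap, Pi.add_apply]
  ring

theorem hk_mono_smul (σ : Equiv.Perm (Fin 6)) (c : Fin 6 → Fˣ) (a : F) (x : Fin 6 → F) :
    monomialMap σ c (a • x) = a • monomialMap σ c x := by
  funext i
  simp only [monomialMap, Pi.smul_apply, smul_eq_mul]
  ring

theorem hk_mono_zero (σ : Equiv.Perm (Fin 6)) (c : Fin 6 → Fˣ) :
    monomialMap σ c (0 : Fin 6 → F) = 0 := by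
  funext i
  simp only [monomialMap, Pi.zero_apply, mul_zero]

theorem hk_mono_mul (σ σ' : Equiv.Perm (Fin 6)) (c c' : Fin 6 → Fˣ) (x : Fin 6 → F) :
    monomialMap σ c (monomialMap σ' c' x)
      = monomialMap (σ * σ') (fun i => c i * c' (σ.symm i)) x := by
  funext i
  show (c i : F) * ((c' (σ.symm i) : F) * x (σ'.symm (σ.symm i)))
    = ((c i * c' (σ.symm i) : Fˣ) : F) * x (σ'.symm (σ.symm i))
  rw [Units.val_mul, mul_assoc]

/-- the monomial map `(σ, c)` preserves the hexacode -/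
def hkPres (ω : F) (σ : Equiv.Perm (Fin 6)) (c : Fin 6 → Fˣ) : Prop :=
  ∀ x ∈ hexacode F ω, monomialMap σ c x ∈ hexacode F ω

theorem hk_pres_surj [Finite F] (ω : F) (σ : Equiv.Perm (Fin 6)) (c : Fin 6 → Fˣ)
    (h : hkPres ω σ c) (x : Fin 6 → F) (hx : x ∈ hexacode F ω) :
    ∃ y ∈ hexacode F ω, monomialMap σ c y = x := by
  have hinj : Function.Injective (fun y : ↥(hexacode F ω) =>
      (⟨monomialMap σ c y.1, h y.1 y.2⟩ : ↥(hexacode F ω))) := by
    intro y y' hyy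
    have h1 : monomialMap σ c y.1 = monomialMap σ c y'.1 := congrArg Subtype.val hyy
    apply Subtype.ext
    funext i
    have h2 : (c (σ i) : F) * y.1 (σ.symm (σ i)) = (c (σ i) : F) * y'.1 (σ.symm (σ i)) :=
      congrFun h1 (σ i)
    rw [Equiv.symm_apply_apply] at h2
    exact mul_left_cancel₀ (Units.ne_zero _) h2
  obtain ⟨y, hy⟩ := Finite.surjective_of_injective hinj ⟨x, hx⟩
  exact ⟨y.1, y.2, congrArg Subtype.val hy⟩

theorem hk_pres_smul (ω : F) (σ : Equiv.Perm (Fin 6)) (c0 : Fin 6 → Fˣ) (l : Fˣ)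
    (h : hkPres ω σ c0) : hkPres ω σ (fun i => l * c0 i) := by
  intro x hx
  have h1 : monomialMap σ (fun i => l * c0 i) x = (l : F) • monomialMap σ c0 x := by
    funext i
    show ((l * c0 i : Fˣ) : F) * x (σ.symm i) = (l : F) * ((c0 i : F) * x (σ.symm i))
    rw [Units.val_mul, mul_assoc]
  rw [h1]
  exact Submodule.smul_mem _ _ (h x hx)

/-- permutation parts of the monomial automorphisms of the hexacode -/
def hkS [Finite F] (ω : F) : Subgroup (Equiv.Perm (Fin 6)) where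
  carrier := {σ | ∃ c : Fin 6 → Fˣ, hkPres ω σ c}
  one_mem' := by
    show ∃ c : Fin 6 → Fˣ, hkPres ω 1 c
    refine ⟨fun _ => 1, fun x hx => ?_⟩
    have h1 : monomialMap 1 (fun _ => (1 : Fˣ)) x = x := by
      funext i
      show ((1 : Fˣ) : F) * x i = x i
      rw [Units.val_one, one_mul]
    rw [h1]
    exact hx
  mul_mem' := by
    rintro σ σ' ⟨c, hc⟩ ⟨c', hc'⟩
    show ∃ c : Fin 6 → Fˣ, hkPres ω (σ * σ') c
    refine ⟨fun i => c i * c' (σ.symm i), fun x hx => ?_⟩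
    rw [← hk_mono_mul]
    exact hc _ (hc' x hx)
  inv_mem' := by
    rintro σ ⟨c, hc⟩
    show ∃ c : Fin 6 → Fˣ, hkPres ω σ⁻¹ c
    refine ⟨fun i => (c (σ i))⁻¹, fun x hx => ?_⟩
    obtain ⟨y, hy, rfl⟩ := hk_pres_surj ω σ c hc x hx
    have h1 : monomialMap σ⁻¹ (fun i => (c (σ i))⁻¹) (monomialMap σ c y) = y := by
      funext i
      show (((c (σ i))⁻¹ : Fˣ) : F) * ((c (σ i) : F) * y (σ.symm (σ i))) = y i
      rw [Equiv.symm_apply_apply, ← mul_assoc, ← Units.val_mul, inv_mul_cancel, Units.val_one,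
        one_mul]
    rw [h1]
    exact hy

theorem hk_mem_S [Finite F] (ω : F) (σ : Equiv.Perm (Fin 6)) :
    σ ∈ hkS ω ↔ ∃ c : Fin 6 → Fˣ, hkPres ω σ c := Iff.rfl

theorem hk_pres_of_chk [Fintype F] [CharP F 2] (ω : F) (hF : Fintype.card F = 4)
    (hω : ω ^ 2 + ω + 1 = 0) (σ : Equiv.Perm (Fin 6)) (d : Fin 6 → HK) (hd : ∀ i, d i ≠ 0)
    (h1 : hkChk σ d hkG1) (h2 : hkChk σ d hkG2) (h3 : hkChk σ d hkG3) :
    ∃ c : Fin 6 → Fˣ, hkPres ω σ c := by
  obtain ⟨c, hc⟩ : ∃ c : Fin 6 → Fˣ, ∀ i, (c i : F) = hkPhi ω (d i) :=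
    ⟨fun i => Units.mk0 (hkPhi ω (d i)) (fun h0 => hd i ((hk_phi_eq_zero ω hω _).mp h0)),
      fun i => rfl⟩
  refine ⟨c, fun x hx => ?_⟩
  unfold hexacode at hx
  refine Submodule.span_induction (p := fun x _ => monomialMap σ c x ∈ hexacode F ω)
    ?_ ?_ ?_ ?_ hx
  · intro y hy
    simp only [Set.mem_insert_iff, Set.mem_singleton_iff] at hy
    rcases hy with rfl | rfl | rfl
    · refine (hk_mem_iff ω hF hω _).mpr
        ⟨hkDec (fun j => hkMul (d j) (hkG1 (σ.symm j))), ?_⟩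
      funext i
      show (c i : F) * (![ω, ω ^ 2, ω ^ 2, ω, ω ^ 2, ω] : Fin 6 → F) (σ.symm i) = _
      rw [hc i, hk_g1 ω hω, ← hk_phi_mul ω hω, h1 i]
    · refine (hk_mem_iff ω hF hω _).mpr
        ⟨hkDec (fun j => hkMul (d j) (hkG2 (σ.symm j))), ?_⟩
      funext i
      show (c i : F) * (![ω ^ 2, ω, ω, ω ^ 2, ω ^ 2, ω] : Fin 6 → F) (σ.symm i) = _
      rw [hc i, hk_g2 ω hω, ← hk_phi_mul ω hω, h2 i]
    · refine (hk_mem_iff ω hF hω _).mpr
        ⟨hkDec (fun j => hkMul (d j) (hkG3 (σ.symm j))), ?_⟩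
      funext i
      show (c i : F) * (![ω ^ 2, ω, ω ^ 2, ω, ω, ω ^ 2] : Fin 6 → F) (σ.symm i) = _
      rw [hc i, hk_g3 ω hω, ← hk_phi_mul ω hω, h3 i]
  · show monomialMap σ c 0 ∈ hexacode F ω
    rw [hk_mono_zero]
    exact Submodule.zero_mem _
  · intro x y _ _ ihx ihy
    show monomialMap σ c (x + y) ∈ hexacode F ω
    rw [hk_mono_add]
    exact Submodule.add_mem _ ihx ihy
  · intro a x _ ih
    show monomialMap σ c (a • x) ∈ hexacode F ω
    rw [hk_mono_smul]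
    exact Submodule.smul_mem _ a ih

theorem hk_swap_mem [Fintype F] [CharP F 2] (ω : F) (hF : Fintype.card F = 4)
    (hω : ω ^ 2 + ω + 1 = 0) (a b c : Fin 6) (hab : a ≠ b) (hbc : b ≠ c) (hac : a ≠ c) :
    Equiv.swap a b * Equiv.swap b c ∈ hkS ω := by
  obtain ⟨hd, h1, h2, h3⟩ := hk_tab_ok a b c hab hbc hac
  exact (hk_mem_S ω _).mpr (hk_pres_of_chk ω hF hω _ _ hd h1 h2 h3)

theorem hk_alt_le [Fintype F] [CharP F 2] (ω : F) (hF : Fintype.card F = 4)
    (hω : ω ^ 2 + ω + 1 = 0) : alternatingGroup (Fin 6) ≤ hkS ω := by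
  rw [← Equiv.Perm.closure_three_cycles_eq_alternating, Subgroup.closure_le]
  intro σ hσ
  have h3 : σ.IsThreeCycle := hσ
  obtain ⟨a, ha⟩ : ∃ a, σ a ≠ a := by
    by_contra hcon
    exact h3.ne_one (Equiv.ext fun a => not_not.mp fun hne => hcon ⟨a, hne⟩)
  have hmem : a ∈ σ.support := Equiv.Perm.mem_support.mpr ha
  have hnd := h3.nodup_iff_mem_support.mpr hmem
  have heq := h3.eq_swap_mul_swap_iff_mem_support.mpr hmem
  obtain ⟨hn1, hn2⟩ := List.nodup_cons.mp hnd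
  obtain ⟨hn3, -⟩ := List.nodup_cons.mp hn2
  have hab : a ≠ σ a := fun h => hn1 (List.mem_cons.mpr (Or.inl h))
  have hac : a ≠ σ (σ a) :=
    fun h => hn1 (List.mem_cons.mpr (Or.inr (List.mem_singleton.mpr h)))
  have hbc : σ a ≠ σ (σ a) := fun h => hn3 (List.mem_singleton.mpr h)
  have hin := hk_swap_mem ω hF hω a (σ a) (σ (σ a)) hab hbc hac
  rw [← heq] at hin
  exact hin

theorem hk_small [Fintype F] [DecidableEq F] [CharP F 2] (ω : F) (hF : Fintype.card F = 4)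
    (hω : ω ^ 2 + ω + 1 = 0) (y : Fin 6 → F) (hy : y ∈ hexacode F ω) (s : Finset (Fin 6))
    (hs : s.card ≤ 3) (hsub : ∀ k, y k ≠ 0 → k ∈ s) : y = 0 := by
  by_contra hne
  have hwt := hk_wt_mem ω hF hω y hy hne
  have hle : (Finset.univ.filter fun i => y i ≠ 0).card ≤ s.card :=
    Finset.card_le_card (fun k hk => hsub k (Finset.mem_filter.mp hk).2)
  omega

theorem hk_diag [Fintype F] [DecidableEq F] [CharP F 2] (ω : F) (hF : Fintype.card F = 4)
    (hω : ω ^ 2 + ω + 1 = 0) (c : Fin 6 → Fˣ) (h : hkPres ω 1 c) (i j : Fin 6) :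
    c i = c j := by
  by_cases hij : i = j
  · rw [hij]
  obtain ⟨t, hti, htj, ht4⟩ := (hk_pairs i j).resolve_left hij
  obtain ⟨w, hw⟩ : ∃ w : Fin 6 → F, w = fun k => hkPhi ω (hkEnc t k) := ⟨_, rfl⟩
  have hwH : w ∈ hexacode F ω := (hk_mem_iff ω hF hω w).mpr ⟨t, hw⟩
  have hwi : w i ≠ 0 := by
    rw [hw]; exact fun h0 => hti ((hk_phi_eq_zero ω hω _).mp h0)
  have hwj : w j ≠ 0 := by
    rw [hw]; exact fun h0 => htj ((hk_phi_eq_zero ω hω _).mp h0)
  have hw4 : (Finset.univ.filter fun k => w k ≠ 0).card = 4 := by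
    rw [hw, hk_wt ω hω t]; exact ht4
  obtain ⟨y, hy⟩ : ∃ y : Fin 6 → F, y = monomialMap 1 c w - (c i : F) • w := ⟨_, rfl⟩
  have hyH : y ∈ hexacode F ω := by
    rw [hy]; exact Submodule.sub_mem _ (h w hwH) (Submodule.smul_mem _ _ hwH)
  have hyk : ∀ k, y k = ((c k : F) - (c i : F)) * w k := by
    intro k
    rw [hy]
    show (c k : F) * w k - (c i : F) * w k = _
    ring
  have hy0 : y = 0 := by
    apply hk_small ω hF hω y hyH ((Finset.univ.filter fun k => w k ≠ 0).erase i)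
    · have hc3 : ((Finset.univ.filter fun k => w k ≠ 0).erase i).card
          = (Finset.univ.filter fun k => w k ≠ 0).card - 1 :=
        Finset.card_erase_of_mem (Finset.mem_filter.mpr ⟨Finset.mem_univ i, hwi⟩)
      omega
    · intro k hk
      rw [Finset.mem_erase, Finset.mem_filter]
      refine ⟨fun hki => hk ?_, Finset.mem_univ _, fun hwk => hk ?_⟩
      · rw [hyk, hki, sub_self, zero_mul]
      · rw [hyk, hwk, mul_zero]
  have hj : ((c j : F) - (c i : F)) * w j = 0 := by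
    have h5 := hyk j
    rw [hy0] at h5
    exact h5.symm
  rcases mul_eq_zero.mp hj with h1 | h1
  · exact (Units.ext (sub_eq_zero.mp h1)).symm
  · exact absurd h1 hwj

theorem hk_swap_not [Fintype F] [DecidableEq F] [CharP F 2] (ω : F) (hF : Fintype.card F = 4)
    (hω : ω ^ 2 + ω + 1 = 0) (c : Fin 6 → Fˣ) : ¬ hkPres ω (Equiv.swap 0 1) c := by
  intro h
  have e0 : (Equiv.swap (0 : Fin 6) 1).symm 0 = 1 := by decide
  have e1 : (Equiv.swap (0 : Fin 6) 1).symm 1 = 0 := by decide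
  have e2 : (Equiv.swap (0 : Fin 6) 1).symm 2 = 2 := by decide
  have e3 : (Equiv.swap (0 : Fin 6) 1).symm 3 = 3 := by decide
  have e4 : (Equiv.swap (0 : Fin 6) 1).symm 4 = 4 := by decide
  have e5 : (Equiv.swap (0 : Fin 6) 1).symm 5 = 5 := by decide
  have hval : ∀ (x : Fin 6 → F) (k : Fin 6),
      (monomialMap (Equiv.swap 0 1) c x - (c 2 : F) • x) k
        = (c k : F) * x ((Equiv.swap (0 : Fin 6) 1).symm k) - (c 2 : F) * x k :=
    fun _ _ => rfl
  obtain ⟨t1, h10, h11, h13, h14⟩ := hk_word1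
  obtain ⟨u, hu⟩ : ∃ u : Fin 6 → F, u = fun k => hkPhi ω (hkEnc t1 k) := ⟨_, rfl⟩
  have huH : u ∈ hexacode F ω := (hk_mem_iff ω hF hω u).mpr ⟨t1, hu⟩
  have hu0 : u 0 = 0 := by
    rw [hu]; show hkPhi ω (hkEnc t1 0) = 0; rw [h10]; exact hk_phi_zero ω
  have hu1 : u 1 = 0 := by
    rw [hu]; show hkPhi ω (hkEnc t1 1) = 0; rw [h11]; exact hk_phi_zero ω
  have hu3 : u 3 ≠ 0 := by
    rw [hu]; exact fun h0 => h13 ((hk_phi_eq_zero ω hω _).mp h0)
  have hu4 : u 4 ≠ 0 := by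
    rw [hu]; exact fun h0 => h14 ((hk_phi_eq_zero ω hω _).mp h0)
  have hy1H : monomialMap (Equiv.swap 0 1) c u - (c 2 : F) • u ∈ hexacode F ω :=
    Submodule.sub_mem _ (h u huH) (Submodule.smul_mem _ _ huH)
  have hy1 : monomialMap (Equiv.swap 0 1) c u - (c 2 : F) • u = 0 := by
    apply hk_small ω hF hω _ hy1H ({3, 4, 5} : Finset (Fin 6)) (by decide)
    intro k hk
    rcases hk_fin6 k with rfl | rfl | rfl | rfl | rfl | rfl
    · exfalso; apply hk; rw [hval, e0, hu1, hu0, mul_zero, mul_zero, sub_zero]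
    · exfalso; apply hk; rw [hval, e1, hu0, hu1, mul_zero, mul_zero, sub_zero]
    · exfalso; apply hk; rw [hval, e2, sub_self]
    · decide
    · decide
    · decide
  have hc3 : (c 3 : F) = (c 2 : F) := by
    have h3 := congrFun hy1 3
    rw [hval, e3] at h3
    have h3' : ((c 3 : F) - (c 2 : F)) * u 3 = 0 := by rw [sub_mul]; exact h3
    rcases mul_eq_zero.mp h3' with h0 | h0
    · exact sub_eq_zero.mp h0
    · exact absurd h0 hu3
  have hc4 : (c 4 : F) = (c 2 : F) := by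
    have h3 := congrFun hy1 4
    rw [hval, e4] at h3
    have h3' : ((c 4 : F) - (c 2 : F)) * u 4 = 0 := by rw [sub_mul]; exact h3
    rcases mul_eq_zero.mp h3' with h0 | h0
    · exact sub_eq_zero.mp h0
    · exact absurd h0 hu4
  obtain ⟨t2, h20, h21, h25⟩ := hk_word2
  obtain ⟨w, hw⟩ : ∃ w : Fin 6 → F, w = fun k => hkPhi ω (hkEnc t2 k) := ⟨_, rfl⟩
  have hwH : w ∈ hexacode F ω := (hk_mem_iff ω hF hω w).mpr ⟨t2, hw⟩
  have hw0 : w 0 ≠ 0 := by
    rw [hw]; exact fun h0 => h20 ((hk_phi_eq_zero ω hω _).mp h0)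
  have hw1 : w 1 = 0 := by
    rw [hw]; show hkPhi ω (hkEnc t2 1) = 0; rw [h21]; exact hk_phi_zero ω
  have hw5 : w 5 = 0 := by
    rw [hw]; show hkPhi ω (hkEnc t2 5) = 0; rw [h25]; exact hk_phi_zero ω
  have hy2H : monomialMap (Equiv.swap 0 1) c w - (c 2 : F) • w ∈ hexacode F ω :=
    Submodule.sub_mem _ (h w hwH) (Submodule.smul_mem _ _ hwH)
  have hy2 : monomialMap (Equiv.swap 0 1) c w - (c 2 : F) • w = 0 := by
    apply hk_small ω hF hω _ hy2H ({0, 1} : Finset (Fin 6)) (by decide)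
    intro k hk
    rcases hk_fin6 k with rfl | rfl | rfl | rfl | rfl | rfl
    · decide
    · decide
    · exfalso; apply hk; rw [hval, e2, sub_self]
    · exfalso; apply hk; rw [hval, e3, hc3, sub_self]
    · exfalso; apply hk; rw [hval, e4, hc4, sub_self]
    · exfalso; apply hk; rw [hval, e5, hw5, mul_zero, mul_zero, sub_zero]
  have h0 := congrFun hy2 0
  rw [hval, e0, hw1, mul_zero, zero_sub] at h0
  have h0' : (c 2 : F) * w 0 = 0 := neg_eq_zero.mp h0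
  rcases mul_eq_zero.mp h0' with h5 | h5
  · exact Units.ne_zero _ h5
  · exact hw0 h5

theorem hk_S_eq [Fintype F] [DecidableEq F] [CharP F 2] (ω : F) (hF : Fintype.card F = 4)
    (hω : ω ^ 2 + ω + 1 = 0) : hkS ω = alternatingGroup (Fin 6) := by
  apply Equiv.Perm.eq_alternatingGroup_of_index_eq_two
  have hdvd := Subgroup.index_dvd_of_le (hk_alt_le ω hF hω)
  rw [alternatingGroup.index_eq_two] at hdvd
  have hne1 : (hkS ω).index ≠ 1 := by
    intro h1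
    have htop := Subgroup.index_eq_one.mp h1
    have hmem : Equiv.swap (0 : Fin 6) 1 ∈ hkS ω := by rw [htop]; exact Subgroup.mem_top _
    obtain ⟨c, hc⟩ := (hk_mem_S ω _).mp hmem
    exact hk_swap_not ω hF hω c hc
  rcases (Nat.dvd_prime Nat.prime_two).mp hdvd with h | h
  · exact absurd h hne1
  · exact h

theorem hk_fiber [Fintype F] [DecidableEq F] [CharP F 2] (ω : F) (hF : Fintype.card F = 4)
    (hω : ω ^ 2 + ω + 1 = 0) (σ : Equiv.Perm (Fin 6)) (c c0 : Fin 6 → Fˣ)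
    (h0 : hkPres ω σ c0) (h : hkPres ω σ c) : ∃ l : Fˣ, ∀ i, c i = l * c0 i := by
  have h1 : hkPres ω 1 (fun i => c i * (c0 i)⁻¹) := by
    intro x hx
    obtain ⟨y, hy, rfl⟩ := hk_pres_surj ω σ c0 h0 x hx
    have h2 : monomialMap 1 (fun i => c i * (c0 i)⁻¹) (monomialMap σ c0 y)
        = monomialMap σ c y := by
      funext i
      show ((c i * (c0 i)⁻¹ : Fˣ) : F) * ((c0 i : F) * y (σ.symm i)) = (c i : F) * y (σ.symm i)
      rw [← mul_assoc, ← Units.val_mul, inv_mul_cancel_right]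
    rw [h2]
    exact h y hy
  refine ⟨c 0 * (c0 0)⁻¹, fun i => ?_⟩
  have h4 : c i * (c0 i)⁻¹ = c 0 * (c0 0)⁻¹ := hk_diag ω hF hω _ h1 i 0
  rw [← h4, inv_mul_cancel_right]

theorem hk_count [Fintype F] [DecidableEq F] [CharP F 2] (ω : F) (hF : Fintype.card F = 4)
    (hω : ω ^ 2 + ω + 1 = 0) :
    Nat.card {f : Equiv.Perm (Fin 6) × (Fin 6 → Fˣ) //
      ∀ x ∈ hexacode F ω, monomialMap f.1 f.2 x ∈ hexacode F ω} = 1080 := by
  have hwit : ∀ s : ↥(hkS ω), ∃ c0 : Fin 6 → Fˣ, hkPres ω s.1 c0 :=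
    fun s => (hk_mem_S ω _).mp s.2
  choose c0 hc0 using hwit
  have hbij : Function.Bijective (fun p : ↥(hkS ω) × Fˣ =>
      (⟨(p.1.1, fun i => p.2 * c0 p.1 i), hk_pres_smul ω _ _ _ (hc0 p.1)⟩ :
        {f : Equiv.Perm (Fin 6) × (Fin 6 → Fˣ) //
          ∀ x ∈ hexacode F ω, monomialMap f.1 f.2 x ∈ hexacode F ω})) := by
    constructor
    · intro p p' hpp
      have h1 : ((p.1.1, fun i => p.2 * c0 p.1 i) : Equiv.Perm (Fin 6) × (Fin 6 → Fˣ))
          = (p'.1.1, fun i => p'.2 * c0 p'.1 i) := congrArg Subtype.val hpp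
      have h2 : p.1.1 = p'.1.1 := congrArg Prod.fst h1
      have h3 : (fun i => p.2 * c0 p.1 i) = (fun i => p'.2 * c0 p'.1 i) :=
        congrArg Prod.snd h1
      have h4 : p.1 = p'.1 := Subtype.ext h2
      have h5 : p.2 * c0 p.1 0 = p'.2 * c0 p'.1 0 := congrFun h3 0
      rw [h4] at h5
      exact Prod.ext h4 (mul_right_cancel h5)
    · rintro ⟨⟨σ, c⟩, h⟩
      have hσ : σ ∈ hkS ω := (hk_mem_S ω σ).mpr ⟨c, h⟩
      obtain ⟨l, hl⟩ := hk_fiber ω hF hω σ c (c0 ⟨σ, hσ⟩) (hc0 ⟨σ, hσ⟩) h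
      exact ⟨(⟨σ, hσ⟩, l), Subtype.ext (Prod.ext rfl (funext fun i => (hl i).symm))⟩
  have hS : Nat.card ↥(hkS ω) = 360 := by
    have h1 : Nat.card ↥(alternatingGroup (Fin 6)) = (Nat.card (Fin 6)).factorial / 2 :=
      nat_card_alternatingGroup
    rw [Nat.card_fin] at h1
    have h2 : Nat.factorial 6 / 2 = 360 := by decide
    rw [hk_S_eq ω hF hω]
    exact h1.trans h2
  have hU : Nat.card Fˣ = 3 := by
    rw [Nat.card_units, Nat.card_eq_fintype_card, hF]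
  have hprod : Nat.card (↥(hkS ω) × Fˣ) = 360 * 3 := by rw [Nat.card_prod, hS, hU]
  exact (Nat.card_congr (Equiv.ofBijective _ hbij)).symm.trans (hprod.trans (by norm_num))

end

/-- the monomial automorphism group of the hexacode -/
theorem hk_main2 {F : Type*} [Field F] [Fintype F] [DecidableEq F] (hF : Fintype.card F = 4)
    (ω : F) (hω : ω ^ 2 + ω + 1 = 0) :
    Nat.card {f : Equiv.Perm (Fin 6) × (Fin 6 → Fˣ) //
      (∀ x ∈ hexacode F ω, monomialMap f.1 f.2 x ∈ hexacode F ω)} = 1080 ∧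
    (∀ c : Fin 6 → Fˣ, (∀ x ∈ hexacode F ω, monomialMap 1 c x ∈ hexacode F ω) →
      ∀ i j, c i = c j) ∧
    {σ : Equiv.Perm (Fin 6) | ∃ c : Fin 6 → Fˣ,
      (∀ x ∈ hexacode F ω, monomialMap σ c x ∈ hexacode F ω)}
      = (alternatingGroup (Fin 6) : Set (Equiv.Perm (Fin 6))) := by
  haveI : CharP F 2 := hk_charP hF
  refine ⟨hk_count ω hF hω, fun c h i j => hk_diag ω hF hω c h i j, ?_⟩
  rw [← hk_S_eq ω hF hω]
  rfl

end Cfsg.Agent.Helper11
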