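import Mathlib

set_option autoImplicit false

namespace Cfsg.Agent.Helper11

open scoped Matrix

/-- shift matrix power: entry `(a,b)` is `1` iff `a = b + k`. -/
def joS (F : Type*) [Field F] (d k : ℕ) : Matrix (Fin d) (Fin d) F :=
  Matrix.of fun a b => if (a : ℕ) = (b : ℕ) + k then 1 else 0

theorem joS_apply {F : Type*} [Field F] (d k : ℕ) (a b : Fin d) :
    joS F d k a b = if (a : ℕ) = (b : ℕ) + k then 1 else 0 := rfl

theorem joS_zero {F : Type*} [Field F] (d : ℕ) : joS F d 0 = 1 := by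
  ext a b
  rw [joS_apply, Matrix.one_apply]
  by_cases h : a = b
  · rw [if_pos h, if_pos (by have := congrArg Fin.val h; omega)]
  · rw [if_neg h, if_neg (fun h' => h (Fin.ext (by omega)))]

theorem joS_mul {F : Type*} [Field F] (d k j : ℕ) :
    joS F d k * joS F d j = joS F d (k + j) := by
  ext a c
  rw [Matrix.mul_apply, joS_apply]
  by_cases h : (c : ℕ) + j < d
  · rw [Finset.sum_eq_single (⟨(c : ℕ) + j, h⟩ : Fin d)]
    · rw [joS_apply, joS_apply, if_pos rfl, mul_one]
      by_cases h' : (a : ℕ) = (c : ℕ) + j + k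
      · rw [if_pos h', if_pos (by omega)]
      · rw [if_neg h', if_neg (by omega)]
    · intro b _ hb
      have hb' : ¬ ((b : ℕ) = (c : ℕ) + j) := fun h' => hb (Fin.ext h')
      rw [joS_apply, joS_apply, if_neg hb', mul_zero]
    · intro h'
      exact absurd (Finset.mem_univ _) h'
  · rw [Finset.sum_eq_zero, if_neg (by have := a.2; omega)]
    intro b _
    have hb' : ¬ ((b : ℕ) = (c : ℕ) + j) := by have := b.2; omega
    rw [joS_apply, joS_apply, if_neg hb', mul_zero]

theorem joS_pow {F : Type*} [Field F] (d k : ℕ) : joS F d 1 ^ k = joS F d k := by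
  induction k with
  | zero => rw [pow_zero, joS_zero]
  | succ k ih => rw [pow_succ, ih, joS_mul]

theorem joS_eq_zero {F : Type*} [Field F] (d k : ℕ) (hk : d ≤ k) : joS F d k = 0 := by
  ext a b
  rw [joS_apply, if_neg (by have := a.2; omega), Matrix.zero_apply]

/-- diagonal weight: `1` iff `b + k < d`. -/
def joW (F : Type*) [Field F] (d k : ℕ) : Fin d → F :=
  fun b => if (b : ℕ) + k < d then 1 else 0

theorem joW_apply {F : Type*} [Field F] (d k : ℕ) (b : Fin d) :
    joW F d k b = if (b : ℕ) + k < d then 1 else 0 := rfl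

theorem joW_card {F : Type*} [Field F] [DecidableEq F] (d k : ℕ) :
    Fintype.card {i : Fin d // joW F d k i ≠ 0} = d - k := by
  have e : {i : Fin d // joW F d k i ≠ 0} ≃ Fin (d - k) :=
    { toFun := fun x => ⟨(x.1 : ℕ), by
        have h := x.2
        by_contra hc
        apply h
        rw [joW_apply, if_neg (by omega)]⟩
      invFun := fun c => ⟨⟨(c : ℕ), by have := c.2; omega⟩, by
        have hc : (c : ℕ) + k < d := by have := c.2; omega
        rw [joW_apply]
        simp [hc]⟩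
      left_inv := fun x => Subtype.ext (Fin.ext rfl)
      right_inv := fun c => Fin.ext rfl }
  rw [← Nat.card_eq_fintype_card, Nat.card_congr e, Nat.card_eq_fintype_card, Fintype.card_fin]

theorem joS_mul_diag {F : Type*} [Field F] (d k : ℕ) :
    joS F d k = joS F d k * Matrix.diagonal (joW F d k) := by
  ext a b
  rw [Matrix.mul_diagonal, joS_apply, joW_apply]
  by_cases h : (a : ℕ) = (b : ℕ) + k
  · rw [if_pos h, if_pos (by have := a.2; omega), mul_one]
  · rw [if_neg h, zero_mul]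

theorem joS_tr_mul {F : Type*} [Field F] (d k : ℕ) :
    (joS F d k)ᵀ * joS F d k = Matrix.diagonal (joW F d k) := by
  ext a c
  rw [Matrix.mul_apply, Matrix.diagonal_apply]
  by_cases h : (a : ℕ) + k < d
  · rw [Finset.sum_eq_single (⟨(a : ℕ) + k, h⟩ : Fin d)]
    · rw [Matrix.transpose_apply, joS_apply, joS_apply, if_pos rfl, one_mul]
      by_cases hac : a = c
      · have hac' : (a : ℕ) + k = (c : ℕ) + k := by rw [hac]
        rw [if_pos hac, joW_apply, if_pos h, if_pos hac']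
      · have hac' : ¬ ((a : ℕ) + k = (c : ℕ) + k) := fun h' => hac (Fin.ext (by omega))
        rw [if_neg hac, if_neg hac']
    · intro b _ hb
      have hb' : ¬ ((b : ℕ) = (a : ℕ) + k) := fun h' => hb (Fin.ext h')
      rw [Matrix.transpose_apply, joS_apply, if_neg hb', zero_mul]
    · intro h'
      exact absurd (Finset.mem_univ _) h'
  · rw [Finset.sum_eq_zero]
    · by_cases hac : a = c
      · rw [if_pos hac, joW_apply, if_neg h]
      · rw [if_neg hac]
    · intro b _
      have hb' : ¬ ((b : ℕ) = (a : ℕ) + k) := by have := b.2; omega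
      rw [Matrix.transpose_apply, joS_apply, if_neg hb', zero_mul]

theorem joS_rank {F : Type*} [Field F] (d k : ℕ) : (joS F d k).rank = d - k := by
  classical
  have hdiag : (Matrix.diagonal (joW F d k)).rank = d - k := by
    rw [Matrix.rank_diagonal, joW_card]
  apply le_antisymm
  · rw [joS_mul_diag, ← hdiag]
    exact Matrix.rank_mul_le_right _ _
  · rw [← hdiag, ← joS_tr_mul]
    exact Matrix.rank_mul_le_right _ _

/-- the antidiagonal sign form. -/
def joM (F : Type*) [Field F] (d : ℕ) : Matrix (Fin d) (Fin d) F :=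
  Matrix.of fun a b => if (a : ℕ) + (b : ℕ) + 1 = d then (-1) ^ (a : ℕ) else 0

theorem joM_apply {F : Type*} [Field F] (d : ℕ) (a b : Fin d) :
    joM F d a b = if (a : ℕ) + (b : ℕ) + 1 = d then (-1) ^ (a : ℕ) else 0 := rfl

theorem jo_sign {F : Type*} [Field F] (a b m : ℕ) (h : a + b = 2 * m) :
    (-1 : F) ^ b = (-1) ^ a := by
  have h1 : (-1 : F) ^ a * (-1) ^ b = 1 := by
    rw [← pow_add, h, pow_mul, neg_one_sq, one_pow]
  have h2 : (-1 : F) ^ a * (-1) ^ a = 1 := by
    rw [← pow_add, ← two_mul, pow_mul, neg_one_sq, one_pow]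
  calc (-1 : F) ^ b = ((-1) ^ a * (-1) ^ a) * (-1) ^ b := by rw [h2, one_mul]
    _ = (-1) ^ a * ((-1) ^ a * (-1) ^ b) := by rw [mul_assoc]
    _ = (-1) ^ a := by rw [h1, mul_one]

theorem joM_symm {F : Type*} [Field F] (d : ℕ) (hd : Odd d) : (joM F d)ᵀ = joM F d := by
  obtain ⟨m, hm⟩ := hd
  ext a b
  rw [Matrix.transpose_apply, joM_apply, joM_apply]
  by_cases h : (a : ℕ) + (b : ℕ) + 1 = d
  · rw [if_pos h, if_pos (by omega)]
    exact jo_sign (a : ℕ) (b : ℕ) m (by omega)
  · rw [if_neg h, if_neg (by omega)]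

theorem joM_sq {F : Type*} [Field F] (d : ℕ) (hd : Odd d) : joM F d * joM F d = 1 := by
  obtain ⟨m, hm⟩ := hd
  ext a c
  rw [Matrix.mul_apply, Matrix.one_apply]
  have ha : d - 1 - (a : ℕ) < d := by have := a.2; omega
  rw [Finset.sum_eq_single (⟨d - 1 - (a : ℕ), ha⟩ : Fin d)]
  · have h1 : (a : ℕ) + (d - 1 - (a : ℕ)) + 1 = d := by have := a.2; omega
    rw [joM_apply, joM_apply, if_pos h1]
    by_cases hac : a = c
    · have h2 : d - 1 - (a : ℕ) + (c : ℕ) + 1 = d := by rw [← hac]; have := a.2; omega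
      rw [if_pos hac, if_pos h2]
      have h3 := jo_sign (F := F) (a : ℕ) (d - 1 - (a : ℕ)) m (by have := a.2; omega)
      rw [h3, ← pow_add, ← two_mul, pow_mul, neg_one_sq, one_pow]
    · have h2 : ¬ (d - 1 - (a : ℕ) + (c : ℕ) + 1 = d) := fun h' => hac (Fin.ext (by have := a.2; omega))
      rw [if_neg hac, if_neg h2, mul_zero]
  · intro b _ hb
    have hb' : ¬ ((a : ℕ) + (b : ℕ) + 1 = d) :=
      fun h' => hb (Fin.ext (show (b : ℕ) = d - 1 - (a : ℕ) by have := a.2; omega))
    rw [joM_apply, if_neg hb', zero_mul]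
  · intro h'
    exact absurd (Finset.mem_univ _) h'

theorem joM_det {F : Type*} [Field F] (d : ℕ) (hd : Odd d) : (joM F d).det ≠ 0 := by
  intro h0
  have h := congrArg Matrix.det (joM_sq (F := F) d hd)
  rw [Matrix.det_mul, h0, Matrix.det_one, mul_zero] at h
  exact zero_ne_one h

theorem jo_sumL {F : Type*} [Field F] (d : ℕ) (a c : Fin d) :
    ∑ b : Fin d, joS F d 1 b a * joM F d b c =
      if (a : ℕ) + (c : ℕ) + 2 = d then (-1) ^ ((a : ℕ) + 1) else 0 := by
  by_cases h : (a : ℕ) + 1 < d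
  · rw [Finset.sum_eq_single (⟨(a : ℕ) + 1, h⟩ : Fin d)]
    · rw [joS_apply, joM_apply, if_pos rfl, one_mul]
      by_cases h' : (a : ℕ) + (c : ℕ) + 2 = d
      · have h2 : (a : ℕ) + 1 + (c : ℕ) + 1 = d := by omega
        rw [if_pos h', if_pos h2]
      · have h2 : ¬ ((a : ℕ) + 1 + (c : ℕ) + 1 = d) := by omega
        rw [if_neg h', if_neg h2]
    · intro b _ hb
      have hb' : ¬ ((b : ℕ) = (a : ℕ) + 1) := fun h' => hb (Fin.ext h')
      rw [joS_apply, if_neg hb', zero_mul]
    · intro h'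
      exact absurd (Finset.mem_univ _) h'
  · rw [Finset.sum_eq_zero, if_neg (by have := c.2; omega)]
    intro b _
    have hb' : ¬ ((b : ℕ) = (a : ℕ) + 1) := by have := b.2; omega
    rw [joS_apply, if_neg hb', zero_mul]

theorem jo_sumR {F : Type*} [Field F] (d : ℕ) (a c : Fin d) :
    ∑ b : Fin d, joM F d a b * joS F d 1 b c =
      if (a : ℕ) + (c : ℕ) + 2 = d then (-1) ^ (a : ℕ) else 0 := by
  by_cases h : (c : ℕ) + 1 < d
  · rw [Finset.sum_eq_single (⟨(c : ℕ) + 1, h⟩ : Fin d)]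
    · rw [joS_apply, joM_apply, if_pos rfl, mul_one]
      by_cases h' : (a : ℕ) + (c : ℕ) + 2 = d
      · have h2 : (a : ℕ) + ((c : ℕ) + 1) + 1 = d := by omega
        rw [if_pos h', if_pos h2]
      · have h2 : ¬ ((a : ℕ) + ((c : ℕ) + 1) + 1 = d) := by omega
        rw [if_neg h', if_neg h2]
    · intro b _ hb
      have hb' : ¬ ((b : ℕ) = (c : ℕ) + 1) := fun h' => hb (Fin.ext h')
      rw [joS_apply, if_neg hb', mul_zero]
    · intro h'
      exact absurd (Finset.mem_univ _) h'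
  · rw [Finset.sum_eq_zero, if_neg (by have := a.2; omega)]
    intro b _
    have hb' : ¬ ((b : ℕ) = (c : ℕ) + 1) := by have := b.2; omega
    rw [joS_apply, if_neg hb', mul_zero]

theorem jo_skew {F : Type*} [Field F] (d : ℕ) :
    (joS F d 1)ᵀ * joM F d = -(joM F d * joS F d 1) := by
  ext a c
  rw [Matrix.neg_apply, Matrix.mul_apply, Matrix.mul_apply]
  have hL : ∑ b : Fin d, (joS F d 1)ᵀ a b * joM F d b c = ∑ b : Fin d, joS F d 1 b a * joM F d b c :=
    Finset.sum_congr rfl fun b _ => by rw [Matrix.transpose_apply]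
  rw [hL, jo_sumL, jo_sumR]
  by_cases h : (a : ℕ) + (c : ℕ) + 2 = d
  · rw [if_pos h, if_pos h, pow_succ, mul_neg_one]
  · rw [if_neg h, if_neg h, neg_zero]

/-- [P6a] an odd Jordan block is an isometry of a nondegenerate symmetric form. -/
theorem odd_block_form {F : Type*} [Field F] (h2 : (2 : F) ≠ 0) (d : ℕ) (hd : Odd d) :
    ∃ A M : Matrix (Fin d) (Fin d) F, Mᵀ = M ∧ M.det ≠ 0 ∧ Aᵀ * M * A = M ∧
      ∀ k, ((A - 1) ^ k).rank = d - k := by
  classical
  obtain ⟨N, hN⟩ : ∃ N : Matrix (Fin d) (Fin d) F, N = joS F d 1 := ⟨_, rfl⟩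
  obtain ⟨M, hM⟩ : ∃ M : Matrix (Fin d) (Fin d) F, M = joM F d := ⟨_, rfl⟩
  obtain ⟨U, hU⟩ : ∃ U : Matrix (Fin d) (Fin d) F, U = ∑ i ∈ Finset.range d, N ^ i := ⟨_, rfl⟩
  have hNd : N ^ d = 0 := by rw [hN, joS_pow, joS_eq_zero d d le_rfl]
  have hU1 : (1 - N) * U = 1 := by rw [hU, mul_neg_geom_sum, hNd, sub_zero]
  have hU2 : U * (1 - N) = 1 := by rw [hU, geom_sum_mul_neg, hNd, sub_zero]
  have hNU : N * U = U * N := by
    rw [hU, Finset.mul_sum, Finset.sum_mul]
    refine Finset.sum_congr rfl fun i _ => ?_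
    rw [← pow_succ', ← pow_succ]
  have hNM : Nᵀ * M = -(M * N) := by rw [hN, hM]; exact jo_skew d
  have hT1 : (1 + N)ᵀ * M = M * (1 - N) := by
    rw [Matrix.transpose_add, Matrix.transpose_one, add_mul, one_mul, hNM, mul_sub, mul_one,
      sub_eq_add_neg]
  have hT2 : (1 - N)ᵀ * M = M * (1 + N) := by
    rw [Matrix.transpose_sub, Matrix.transpose_one, sub_mul, one_mul, hNM, sub_neg_eq_add, mul_add,
      mul_one]
  have hUT : Uᵀ * (1 - N)ᵀ = 1 := by rw [← Matrix.transpose_mul, hU1, Matrix.transpose_one]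
  have hcomm : (1 - N) * (1 + N) = (1 + N) * (1 - N) := by noncomm_ring
  refine ⟨(1 + N) * U, M, ?_, ?_, ?_, ?_⟩
  · rw [hM]; exact joM_symm d hd
  · rw [hM]; exact joM_det d hd
  · calc ((1 + N) * U)ᵀ * M * ((1 + N) * U)
        = Uᵀ * ((1 + N)ᵀ * M) * ((1 + N) * U) := by
          rw [Matrix.transpose_mul, Matrix.mul_assoc Uᵀ]
      _ = Uᵀ * (M * ((1 - N) * (1 + N))) * U := by rw [hT1]; simp only [Matrix.mul_assoc]
      _ = Uᵀ * (M * ((1 + N) * (1 - N))) * U := by rw [hcomm]
      _ = Uᵀ * ((1 - N)ᵀ * M) * ((1 - N) * U) := by rw [hT2]; simp only [Matrix.mul_assoc]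
      _ = M := by rw [hU1, Matrix.mul_one, ← Matrix.mul_assoc, hUT, Matrix.one_mul]
  · intro k
    have hA1 : (1 + N) * U - 1 = N * (U + U) := by
      have : (1 + N) * U - 1 = (1 + N) * U - (1 - N) * U := by rw [hU1]
      rw [this]
      noncomm_ring
    have hcomm2 : Commute N (U + U) := by
      show N * (U + U) = (U + U) * N
      rw [mul_add, add_mul, hNU]
    have hVW : (U + U) * ((2⁻¹ : F) • (1 - N)) = 1 := by
      rw [Matrix.mul_smul, add_mul, hU2, ← two_smul F (1 : Matrix (Fin d) (Fin d) F), smul_smul,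
        inv_mul_cancel₀ h2, one_smul]
    have hdet : IsUnit ((U + U) ^ k).det := by
      rw [Matrix.det_pow]
      exact (Matrix.isUnit_det_of_right_inverse hVW).pow k
    rw [hA1, hcomm2.mul_pow, Matrix.rank_mul_eq_left_of_isUnit_det _ _ hdet, hN, joS_pow, joS_rank]

end Cfsg.Agent.Helper11
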