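import Mathlib
import Cfsg.Prelude.Def_Classical
import Cfsg.Prelude.Def_ClassicalGeometry
import Cfsg.Agent.S2585

set_option autoImplicit false

namespace Cfsg.Agent.Helper11

open Matrix

theorem jo2_reindex_mulVec {F : Type*} [Field F] {α β : Type*} [Fintype α] [Fintype β]
    [DecidableEq α] [DecidableEq β] (τ : α ≃ β) (M : Matrix α α F) (v : β → F) :
    (Matrix.reindex τ τ M *ᵥ v) ∘ τ = M *ᵥ (v ∘ τ) := by
  rw [Matrix.reindex_apply, Matrix.submatrix_mulVec_equiv]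
  funext i
  simp

theorem jo2_dot_comp {F : Type*} [Field F] {α β : Type*} [Fintype α] [Fintype β]
    (τ : α ≃ β) (u w : β → F) : (u ∘ τ) ⬝ᵥ (w ∘ τ) = u ⬝ᵥ w := by
  simp only [dotProduct, Function.comp_apply]
  exact Equiv.sum_comp τ (fun j => u j * w j)

/-- [T2] of the S2584 sprint: a symplectic matrix in characteristic 2, transported to `Fin (2 * m)`,
is an isometry of a quadratic form with nondegenerate polar form. -/
theorem symp_to_orth2 {F : Type*} [Field F] [Fintype F] [CharP F 2] {m : ℕ}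
    (B : Matrix.symplecticGroup (Fin m) F) (τ : (Fin m ⊕ Fin m) ≃ Fin (2 * m)) :
    ∃ Q : QuadraticForm F (Fin (2 * m) → F), (QuadraticMap.polarBilin Q).Nondegenerate ∧
      ∃ A : ↥(Cfsg.isometryGroup F ⇑Q),
        ((A : Matrix.GeneralLinearGroup (Fin (2 * m)) F) : Matrix (Fin (2 * m)) (Fin (2 * m)) F) =
          Matrix.reindex τ τ (B : Matrix (Fin m ⊕ Fin m) (Fin m ⊕ Fin m) F) := by
  classical
  obtain ⟨Q₀, hpol, hinv⟩ := Cfsg.Agent.S2585.result B
  obtain ⟨Q, hQ⟩ : ∃ Q : QuadraticForm F (Fin (2 * m) → F),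
      Q = Q₀.comp (LinearMap.funLeft F F τ) := ⟨_, rfl⟩
  have hQa : ∀ v, Q v = Q₀ (v ∘ τ) := fun v => by rw [hQ]; rfl
  have hpolar : QuadraticMap.polarBilin Q =
      Matrix.toBilin' (Matrix.reindex τ τ (Matrix.J (Fin m) F)) := by
    refine LinearMap.ext fun u => LinearMap.ext fun w => ?_
    show QuadraticMap.polar (⇑Q) u w = _
    rw [Matrix.toBilin'_apply', ← jo2_dot_comp τ u, jo2_reindex_mulVec]
    have h1 := hpol (u ∘ τ) (w ∘ τ)
    unfold Cfsg.sympForm at h1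
    rw [← h1]
    unfold QuadraticMap.polar
    rw [hQa, hQa, hQa]
    rfl
  have hnd : (QuadraticMap.polarBilin Q).Nondegenerate := by
    rw [hpolar]
    apply Matrix.Nondegenerate.toBilin'
    apply Matrix.nondegenerate_of_det_ne_zero
    rw [Matrix.det_reindex_self]
    intro h0
    have h := Matrix.J_det_mul_J_det (Fin m) F
    rw [h0, mul_zero] at h
    exact zero_ne_one h
  have hBB : (B : Matrix (Fin m ⊕ Fin m) (Fin m ⊕ Fin m) F) *
      ((B⁻¹ : Matrix.symplecticGroup (Fin m) F) : Matrix (Fin m ⊕ Fin m) (Fin m ⊕ Fin m) F) = 1 := by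
    have h := congrArg (Subtype.val) (mul_inv_cancel B)
    exact h
  have hBB' : ((B⁻¹ : Matrix.symplecticGroup (Fin m) F) : Matrix (Fin m ⊕ Fin m) (Fin m ⊕ Fin m) F) *
      (B : Matrix (Fin m ⊕ Fin m) (Fin m ⊕ Fin m) F) = 1 := by
    have h := congrArg (Subtype.val) (inv_mul_cancel B)
    exact h
  have hmulre : ∀ X Y : Matrix (Fin m ⊕ Fin m) (Fin m ⊕ Fin m) F,
      Matrix.reindex τ τ X * Matrix.reindex τ τ Y = Matrix.reindex τ τ (X * Y) := by
    intro X Y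
    rw [Matrix.reindex_apply, Matrix.reindex_apply, Matrix.reindex_apply,
      Matrix.submatrix_mul_equiv]
  have hone : Matrix.reindex τ τ (1 : Matrix (Fin m ⊕ Fin m) (Fin m ⊕ Fin m) F) = 1 := by
    rw [Matrix.reindex_apply, Matrix.submatrix_one_equiv]
  have h1 : Matrix.reindex τ τ (B : Matrix (Fin m ⊕ Fin m) (Fin m ⊕ Fin m) F) *
      Matrix.reindex τ τ
        ((B⁻¹ : Matrix.symplecticGroup (Fin m) F) : Matrix (Fin m ⊕ Fin m) (Fin m ⊕ Fin m) F) = 1 := by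
    rw [hmulre, hBB, hone]
  have h2 : Matrix.reindex τ τ
        ((B⁻¹ : Matrix.symplecticGroup (Fin m) F) : Matrix (Fin m ⊕ Fin m) (Fin m ⊕ Fin m) F) *
      Matrix.reindex τ τ (B : Matrix (Fin m ⊕ Fin m) (Fin m ⊕ Fin m) F) = 1 := by
    rw [hmulre, hBB', hone]
  have hmem : (⟨_, _, h1, h2⟩ : Matrix.GeneralLinearGroup (Fin (2 * m)) F)
      ∈ Cfsg.isometryGroup F ⇑Q := by
    intro u v
    show Q (Matrix.reindex τ τ (B : Matrix (Fin m ⊕ Fin m) (Fin m ⊕ Fin m) F) *ᵥ u) = Q u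
    rw [hQa, hQa, jo2_reindex_mulVec]
    exact hinv (u ∘ τ)
  exact ⟨Q, hnd, ⟨_, hmem⟩, rfl⟩

end Cfsg.Agent.Helper11
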