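import Mathlib

set_option autoImplicit false
set_option linter.style.haveILetI false

namespace Cfsg.Agent.Helper11

universe u v

/-- Fitting's lemma for a normal endomorphism of a finite indecomposable group. -/
theorem ks_fitting {G : Type*} [Group G] [Finite G]
    (hind : ∀ H K : Subgroup G, H.Normal → K.Normal → H ⊓ K = ⊥ → H ⊔ K = ⊤ → H = ⊥ ∨ K = ⊥)
    (f : G →* G) (hf : ∀ g x : G, f (g * x * g⁻¹) = g * f x * g⁻¹) :
    Function.Injective f ∨ ∃ N : ℕ, ∀ x : G, f^[N] x = 1 := by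
  obtain ⟨F, hF⟩ : ∃ F : ℕ → (G →* G), ∀ k x, F k x = f^[k] x :=
    ⟨fun k => @HPow.hPow (Monoid.End G) ℕ (Monoid.End G) _ f k, fun k x => rfl⟩
  have hmono : Monotone (fun k => (F k).ker) := by
    apply monotone_nat_of_le_succ
    intro k x hx
    rw [MonoidHom.mem_ker, hF] at hx ⊢
    rw [Function.iterate_succ_apply', hx, map_one]
  obtain ⟨n, hn⟩ := WellFoundedGT.monotone_chain_condition ⟨fun k => (F k).ker, hmono⟩
  have hker : ∀ x, f^[(n + 1) + (n + 1)] x = 1 → f^[n + 1] x = 1 := by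
    intro x hx
    have h1 : x ∈ (F ((n + 1) + (n + 1))).ker := by rw [MonoidHom.mem_ker, hF]; exact hx
    have h2 : (F n).ker = (F ((n + 1) + (n + 1))).ker := hn _ (by omega)
    have h3 : (F n).ker = (F (n + 1)).ker := hn _ (by omega)
    rw [← h2, h3, MonoidHom.mem_ker, hF] at h1
    exact h1
  have hFn : ∀ k g x, f^[k] (g * x * g⁻¹) = g * f^[k] x * g⁻¹ := by
    intro k
    induction k with
    | zero => intro g x; rfl
    | succ k ih =>
      intro g x
      rw [Function.iterate_succ_apply', Function.iterate_succ_apply', ih, hf]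
  have hIn : (F (n + 1)).range.Normal := by
    constructor
    rintro _ ⟨z, rfl⟩ g
    refine ⟨g * z * g⁻¹, ?_⟩
    rw [hF, hF, hFn]
  have hinf : (F (n + 1)).ker ⊓ (F (n + 1)).range = ⊥ := by
    rw [Subgroup.eq_bot_iff_forall]
    intro x hx
    obtain ⟨hx1, ⟨y, rfl⟩⟩ := Subgroup.mem_inf.mp hx
    rw [MonoidHom.mem_ker, hF, hF, ← Function.iterate_add_apply] at hx1
    rw [hF, hker y hx1]
  have hcompl : Subgroup.IsComplement' (F (n + 1)).ker (F (n + 1)).range := by
    refine Subgroup.isComplement'_of_card_mul_and_disjoint ?_ (disjoint_iff.mpr hinf)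
    rw [← Subgroup.index_ker]; exact Subgroup.card_mul_index _
  rcases hind _ _ (MonoidHom.normal_ker _) hIn hinf hcompl.sup_eq_top with h | h
  · left
    rw [injective_iff_map_eq_one]
    intro a ha
    have h1 : a ∈ (F (n + 1)).ker := by
      rw [MonoidHom.mem_ker, hF, Function.iterate_succ_apply, ha, iterate_map_one]
    rw [h, Subgroup.mem_bot] at h1
    exact h1
  · right
    refine ⟨n + 1, fun x => ?_⟩
    have h1 : F (n + 1) x ∈ (F (n + 1)).range := ⟨x, rfl⟩
    rw [h, Subgroup.mem_bot, hF] at h1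
    exact h1

/-- If a bijective normal endomorphism is a "sum" `g₁ + g₂` with `g₁` normal, then one of the
summands is injective. -/
theorem ks_sum {G : Type*} [Group G] [Finite G]
    (hind : ∀ H K : Subgroup G, H.Normal → K.Normal → H ⊓ K = ⊥ → H ⊔ K = ⊤ → H = ⊥ ∨ K = ⊥)
    (u g₁ g₂ : G →* G) (hu : Function.Bijective u)
    (hun : ∀ g x : G, u (g * x * g⁻¹) = g * u x * g⁻¹)
    (h1n : ∀ g x : G, g₁ (g * x * g⁻¹) = g * g₁ x * g⁻¹)
    (hsum : ∀ x, u x = g₁ x * g₂ x) :
    Function.Injective g₁ ∨ Function.Injective g₂ := by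
  by_cases h1 : Function.Injective g₁
  · exact Or.inl h1
  right
  obtain ⟨U, hU⟩ : ∃ U : G ≃* G, ∀ x, U x = u x := ⟨MulEquiv.ofBijective u hu, fun x => rfl⟩
  obtain ⟨w, hw⟩ : ∃ w : G →* G, ∀ x, w x = U.symm (g₁ x) :=
    ⟨U.symm.toMonoidHom.comp g₁, fun x => rfl⟩
  have hvn : ∀ g y : G, U.symm (g * y * g⁻¹) = g * U.symm y * g⁻¹ := by
    intro g y
    apply U.injective
    rw [MulEquiv.apply_symm_apply, hU, hun, ← hU, MulEquiv.apply_symm_apply]
  have hwn : ∀ g x : G, w (g * x * g⁻¹) = g * w x * g⁻¹ := by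
    intro g x
    rw [hw, hw, h1n, hvn]
  rcases ks_fitting hind w hwn with h | ⟨N, hN⟩
  · exfalso
    apply h1
    intro a b hab
    apply h
    rw [hw, hw, hab]
  · rw [injective_iff_map_eq_one]
    intro x hx
    have h2 : u x = g₁ x := by rw [hsum, hx, mul_one]
    have h3 : w x = x := by
      rw [hw, ← h2, ← hU, MulEquiv.symm_apply_apply]
    rw [← hN x, Function.iterate_fixed h3]

/-- projection of a product onto the coordinates in `S` -/
def ksProj {κ : Type*} [DecidableEq κ] (B : κ → Type*) [∀ j, Group (B j)] (S : Finset κ) :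
    ((j : κ) → B j) →* ((j : κ) → B j) where
  toFun x := fun j => if j ∈ S then x j else 1
  map_one' := by funext j; simp
  map_mul' x y := by funext j; by_cases h : j ∈ S <;> simp [h]

theorem ksProj_apply {κ : Type*} [DecidableEq κ] (B : κ → Type*) [∀ j, Group (B j)]
    (S : Finset κ) (x : (j : κ) → B j) (j : κ) :
    ksProj B S x j = if j ∈ S then x j else 1 := rfl

theorem ksProj_conj {κ : Type*} [DecidableEq κ] (B : κ → Type*) [∀ j, Group (B j)]
    (S : Finset κ) (y z : (j : κ) → B j) :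
    ksProj B S (y * z * y⁻¹) = y * ksProj B S z * y⁻¹ := by
  funext j
  simp only [ksProj_apply, Pi.mul_apply, Pi.inv_apply]
  by_cases h : j ∈ S <;> simp [h]

theorem ksProj_empty {κ : Type*} [DecidableEq κ] (B : κ → Type*) [∀ j, Group (B j)]
    (x : (j : κ) → B j) : ksProj B ∅ x = 1 := by
  funext j
  simp [ksProj_apply]

theorem ksProj_univ {κ : Type*} [DecidableEq κ] [Fintype κ] (B : κ → Type*) [∀ j, Group (B j)]
    (x : (j : κ) → B j) : ksProj B Finset.univ x = x := by
  funext j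
  simp [ksProj_apply]

theorem ksProj_insert {κ : Type*} [DecidableEq κ] (B : κ → Type*) [∀ j, Group (B j)]
    (j : κ) (S : Finset κ) (hj : j ∉ S) (x : (j : κ) → B j) :
    ksProj B (insert j S) x = ksProj B {j} x * ksProj B S x := by
  funext i
  simp only [ksProj_apply, Pi.mul_apply, Finset.mem_insert, Finset.mem_singleton]
  by_cases h1 : i = j
  · rw [h1]; simp [hj]
  · simp [h1]

theorem ksProj_single {κ : Type*} [DecidableEq κ] (B : κ → Type*) [∀ j, Group (B j)]
    (j : κ) (x : (j : κ) → B j) : ksProj B {j} x = Pi.mulSingle j (x j) := by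
  funext i
  by_cases h : i = j
  · rw [h]; simp [ksProj_apply]
  · simp [ksProj_apply, h]

/-- The exchange step. -/
theorem ks_exchange {κ : Type*} [Fintype κ] [DecidableEq κ] {B : κ → Type*} [∀ j, Group (B j)]
    [∀ j, Finite (B j)] {A₀ : Type*} [Group A₀] [Finite A₀] [Nontrivial A₀]
    (hindA : ∀ H K : Subgroup A₀, H.Normal → K.Normal → H ⊓ K = ⊥ → H ⊔ K = ⊤ → H = ⊥ ∨ K = ⊥)
    (hindB : ∀ j, ∀ H K : Subgroup (B j), H.Normal → K.Normal → H ⊓ K = ⊥ → H ⊔ K = ⊤ →
      H = ⊥ ∨ K = ⊥)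
    (p : ((j : κ) → B j) →* A₀) (s : A₀ →* ((j : κ) → B j)) (hps : ∀ a, p (s a) = a)
    (hsn : s.range.Normal) :
    ∃ j, Nonempty (A₀ ≃* B j) ∧ Nonempty (↥p.ker ≃* ↥(Pi.evalMonoidHom B j).ker) := by
  classical
  obtain ⟨gS, hgS⟩ : ∃ gS : Finset κ → (A₀ →* A₀), ∀ S x, gS S x = p (ksProj B S (s x)) :=
    ⟨fun S => p.comp ((ksProj B S).comp s), fun S x => rfl⟩
  have hgn : ∀ (S : Finset κ) (a x : A₀), gS S (a * x * a⁻¹) = a * gS S x * a⁻¹ := by
    intro S a x
    have e1 : s (a * x * a⁻¹) = s a * s x * (s a)⁻¹ := by rw [map_mul, map_mul, map_inv]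
    rw [hgS, hgS, e1, ksProj_conj, map_mul, map_mul, map_inv, hps]
  have hstep : ∀ S : Finset κ, Function.Injective (gS S) →
      ∃ j ∈ S, Function.Injective (gS {j}) := by
    intro S
    induction S using Finset.induction_on with
    | empty =>
      intro hinj
      exfalso
      obtain ⟨a, ha⟩ := exists_ne (1 : A₀)
      apply ha
      apply hinj
      rw [hgS, hgS, ksProj_empty, ksProj_empty]
    | insert j S hj ih =>
      intro hinj
      have hsum : ∀ x, gS (insert j S) x = gS {j} x * gS S x := by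
        intro x
        rw [hgS, hgS, hgS, ksProj_insert B j S hj, map_mul]
      rcases ks_sum hindA (gS (insert j S)) (gS {j}) (gS S)
          (Finite.injective_iff_bijective.mp hinj) (hgn _) (hgn _) hsum with h | h
      · exact ⟨j, Finset.mem_insert_self j S, h⟩
      · obtain ⟨j', hj', hj'inj⟩ := ih h
        exact ⟨j', Finset.mem_insert_of_mem hj', hj'inj⟩
  obtain ⟨j, -, hj⟩ := hstep Finset.univ (by
    intro x y hxy
    rw [hgS, hgS, ksProj_univ, ksProj_univ, hps, hps] at hxy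
    exact hxy)
  obtain ⟨t, ht⟩ : ∃ t : A₀ →* B j, ∀ a, t a = s a j :=
    ⟨(Pi.evalMonoidHom B j).comp s, fun a => rfl⟩
  obtain ⟨q, hq⟩ : ∃ q : B j →* A₀, ∀ b, q b = p (Pi.mulSingle j b) :=
    ⟨p.comp (MonoidHom.mulSingle B j), fun b => rfl⟩
  have hqt : ∀ a, q (t a) = gS {j} a := by
    intro a; rw [hq, ht, hgS, ksProj_single]
  have htinj : Function.Injective t := by
    intro a b hab
    apply hj
    rw [← hqt, ← hqt, hab]
  have hqsurj : Function.Surjective q := by
    have hbij : Function.Bijective (gS {j}) := Finite.injective_iff_bijective.mp hj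
    intro a
    obtain ⟨a', ha'⟩ := hbij.2 a
    exact ⟨t a', by rw [hqt, ha']⟩
  have htn : t.range.Normal := by
    constructor
    rintro _ ⟨a, rfl⟩ b
    obtain ⟨a', ha'⟩ := hsn.conj_mem (s a) ⟨a, rfl⟩ (Pi.mulSingle j b)
    refine ⟨a', ?_⟩
    rw [ht, ha', ht]
    simp
  have hdisj : Disjoint t.range q.ker := by
    rw [Subgroup.disjoint_def]
    rintro _ ⟨a, rfl⟩ hx
    have h1 : gS {j} a = 1 := by rw [← hqt]; exact MonoidHom.mem_ker.mp hx
    have h2 : a = 1 := hj (by rw [h1, map_one])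
    rw [h2, map_one]
  have hcardt : Nat.card t.range = Nat.card A₀ :=
    Nat.card_congr (MonoidHom.ofInjective htinj).toEquiv.symm
  have hcardq : q.ker.index = Nat.card A₀ := by
    rw [Subgroup.index_ker, MonoidHom.range_eq_top.mpr hqsurj, Subgroup.card_top]
  have hcompl : Subgroup.IsComplement' t.range q.ker := by
    refine Subgroup.isComplement'_of_card_mul_and_disjoint ?_ hdisj
    rw [hcardt, ← hcardq, mul_comm]; exact Subgroup.card_mul_index _
  have hBj := hindB j t.range q.ker htn (MonoidHom.normal_ker q) (disjoint_iff.mp hdisj)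
    hcompl.sup_eq_top
  have hqker : q.ker = ⊥ := by
    rcases hBj with h | h
    · exfalso
      obtain ⟨a, ha⟩ := exists_ne (1 : A₀)
      apply ha
      apply htinj
      have h1 : t a ∈ t.range := ⟨a, rfl⟩
      rw [h, Subgroup.mem_bot] at h1
      rw [h1, map_one]
    · exact h
  have hqinj : Function.Injective q := (MonoidHom.ker_eq_bot_iff q).mp hqker
  obtain ⟨Q⟩ : Nonempty (B j ≃* A₀) := ⟨MulEquiv.ofBijective q ⟨hqinj, hqsurj⟩⟩
  have hcardB : Nat.card (B j) = Nat.card A₀ := Nat.card_congr Q.toEquiv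
  have hsinj : Function.Injective s := by
    intro a b hab
    rw [← hps a, ← hps b, hab]
  have hpsurj : Function.Surjective p := fun a => ⟨s a, hps a⟩
  have hcards : Nat.card s.range = Nat.card A₀ :=
    Nat.card_congr (MonoidHom.ofInjective hsinj).toEquiv.symm
  have hc1 : Subgroup.IsComplement' p.ker s.range := by
    apply Subgroup.isComplement'_of_card_mul_and_disjoint
    · rw [hcards, ← Subgroup.card_mul_index p.ker, Subgroup.index_ker,
        MonoidHom.range_eq_top.mpr hpsurj, Subgroup.card_top]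
    · rw [Subgroup.disjoint_def]
      rintro x hx ⟨a, rfl⟩
      have h1 : a = 1 := by rw [← hps a]; exact MonoidHom.mem_ker.mp hx
      rw [h1, map_one]
  have hevsurj : Function.Surjective (Pi.evalMonoidHom B j) :=
    fun b => ⟨Pi.mulSingle j b, Pi.mulSingle_eq_same j b⟩
  have hc2 : Subgroup.IsComplement' (Pi.evalMonoidHom B j).ker s.range := by
    apply Subgroup.isComplement'_of_card_mul_and_disjoint
    · rw [hcards, ← hcardB, ← Subgroup.card_mul_index (Pi.evalMonoidHom B j).ker,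
        Subgroup.index_ker, MonoidHom.range_eq_top.mpr hevsurj, Subgroup.card_top]
    · rw [Subgroup.disjoint_def]
      rintro x hx ⟨a, rfl⟩
      have h1 : t a = 1 := by rw [ht]; exact MonoidHom.mem_ker.mp hx
      have h2 : a = 1 := htinj (by rw [h1, map_one])
      rw [h2, map_one]
  haveI := hsn
  exact ⟨j, ⟨Q.symm⟩, ⟨(hc1.QuotientMulEquiv).symm.trans hc2.QuotientMulEquiv⟩⟩

/-- the kernel of an evaluation map is the product of the remaining factors -/
theorem ks_ker_equiv {ι : Type*} [DecidableEq ι] {A : ι → Type*} [∀ i, Group (A i)] {G : Type*}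
    [Group G] (e : ((i : ι) → A i) ≃* G) (i₀ : ι) :
    Nonempty (↥((Pi.evalMonoidHom A i₀).comp e.symm.toMonoidHom).ker ≃*
      ((i : {i // i ≠ i₀}) → A i.1)) := by
  let r : ↥((Pi.evalMonoidHom A i₀).comp e.symm.toMonoidHom).ker →*
      ((i : {i // i ≠ i₀}) → A i.1) :=
    { toFun := fun x i => (e.symm x.1) i.1
      map_one' := by funext i; simp
      map_mul' := fun x y => by
        funext i
        show (e.symm (x.1 * y.1)) i.1 = (e.symm x.1) i.1 * (e.symm y.1) i.1
        rw [map_mul]; rfl }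
  have hr : ∀ x i, r x i = (e.symm x.1) i.1 := fun x i => rfl
  have hinj : Function.Injective r := by
    rw [injective_iff_map_eq_one]
    intro x hx
    have hx0 : (e.symm x.1) i₀ = 1 := MonoidHom.mem_ker.mp x.2
    have h1 : e.symm x.1 = 1 := by
      funext i
      by_cases h : i = i₀
      · rw [h]; exact hx0
      · have h2 := congrFun hx ⟨i, h⟩
        rw [hr] at h2
        exact h2
    apply Subtype.ext
    exact (MulEquiv.map_eq_one_iff e.symm).mp h1
  have hsurj : Function.Surjective r := by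
    intro y
    have hmem : e (fun i => if h : i = i₀ then 1 else y ⟨i, h⟩) ∈
        ((Pi.evalMonoidHom A i₀).comp e.symm.toMonoidHom).ker := by
      rw [MonoidHom.mem_ker]
      show (e.symm (e (fun i => if h : i = i₀ then 1 else y ⟨i, h⟩))) i₀ = 1
      rw [MulEquiv.symm_apply_apply]
      exact dif_pos rfl
    refine ⟨⟨_, hmem⟩, ?_⟩
    funext i
    rw [hr]
    show (e.symm (e (fun i => if h : i = i₀ then 1 else y ⟨i, h⟩))) i.1 = y i
    rw [MulEquiv.symm_apply_apply]
    exact dif_neg i.2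
  exact ⟨MulEquiv.ofBijective r ⟨hinj, hsurj⟩⟩

/-- Krull–Remak–Schmidt for finite groups, general index types. -/
theorem ks_main (n : ℕ) : ∀ (ι κ : Type) [Fintype ι] [Fintype κ] [DecidableEq ι] [DecidableEq κ]
    (A : ι → Type u) (B : κ → Type v) [∀ i, Group (A i)] [∀ j, Group (B j)]
    [∀ i, Finite (A i)] [∀ j, Finite (B j)]
    (_ : ∀ i, Nontrivial (A i) ∧ ∀ H K : Subgroup (A i), H.Normal → K.Normal → H ⊓ K = ⊥ →
      H ⊔ K = ⊤ → H = ⊥ ∨ K = ⊥)
    (_ : ∀ j, Nontrivial (B j) ∧ ∀ H K : Subgroup (B j), H.Normal → K.Normal → H ⊓ K = ⊥ →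
      H ⊔ K = ⊤ → H = ⊥ ∨ K = ⊥)
    (_ : Fintype.card ι = n)
    (_ : ((i : ι) → A i) ≃* ((j : κ) → B j)), ∃ σ : ι ≃ κ, ∀ i, Nonempty (A i ≃* B (σ i)) := by
  induction n with
  | zero =>
    intro ι κ _ _ _ _ A B _ _ _ _ hA hB hcard e
    haveI : IsEmpty ι := Fintype.card_eq_zero_iff.mp hcard
    haveI : IsEmpty κ := by
      by_contra hne
      rw [not_isEmpty_iff] at hne
      obtain ⟨j⟩ := hne
      haveI := (hB j).1
      obtain ⟨b, hb⟩ := exists_ne (1 : B j)
      have h1 : e.symm (Pi.mulSingle j b) = 1 := Subsingleton.elim _ _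
      have h2 : Pi.mulSingle j b = (1 : (j : κ) → B j) := by
        rw [← MulEquiv.apply_symm_apply e (Pi.mulSingle j b), h1, map_one]
      have h3 := congrFun h2 j
      rw [Pi.mulSingle_eq_same, Pi.one_apply] at h3
      exact hb h3
    exact ⟨Equiv.equivOfIsEmpty ι κ, fun i => isEmptyElim i⟩
  | succ n ih =>
    intro ι κ _ _ _ _ A B _ _ _ _ hA hB hcard e
    have hne : Nonempty ι := by
      rw [← Fintype.card_pos_iff, hcard]; exact Nat.succ_pos n
    obtain ⟨i₀⟩ := hne
    haveI := (hA i₀).1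
    have hps : ∀ a, ((Pi.evalMonoidHom A i₀).comp e.symm.toMonoidHom)
        ((e.toMonoidHom.comp (MonoidHom.mulSingle A i₀)) a) = a := by
      intro a
      show (e.symm (e (Pi.mulSingle i₀ a))) i₀ = a
      rw [MulEquiv.symm_apply_apply, Pi.mulSingle_eq_same]
    have hsn : (e.toMonoidHom.comp (MonoidHom.mulSingle A i₀)).range.Normal := by
      constructor
      rintro _ ⟨a, rfl⟩ g
      refine ⟨(e.symm g) i₀ * a * ((e.symm g) i₀)⁻¹, ?_⟩
      show e (Pi.mulSingle i₀ ((e.symm g) i₀ * a * ((e.symm g) i₀)⁻¹)) =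
        g * e (Pi.mulSingle i₀ a) * g⁻¹
      have h1 : Pi.mulSingle i₀ ((e.symm g) i₀ * a * ((e.symm g) i₀)⁻¹) =
          e.symm g * Pi.mulSingle i₀ a * (e.symm g)⁻¹ := by
        funext i
        by_cases h : i = i₀
        · rw [h]; simp
        · simp [Pi.mulSingle_eq_of_ne h]
      rw [h1, map_mul, map_mul, map_inv, MulEquiv.apply_symm_apply]
    obtain ⟨j₀, ⟨f₀⟩, ⟨f₁⟩⟩ := ks_exchange (hA i₀).2 (fun j => (hB j).2)
      ((Pi.evalMonoidHom A i₀).comp e.symm.toMonoidHom)
      (e.toMonoidHom.comp (MonoidHom.mulSingle A i₀)) hps hsn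
    obtain ⟨rA⟩ := ks_ker_equiv e i₀
    obtain ⟨rB⟩ : Nonempty (↥(Pi.evalMonoidHom B j₀).ker ≃* ((j : {j // j ≠ j₀}) → B j.1)) :=
      ks_ker_equiv (MulEquiv.refl ((j : κ) → B j)) j₀
    have hcard' : Fintype.card {i // i ≠ i₀} = n := by
      have h1 := Fintype.card_congr (Equiv.optionSubtypeNe i₀)
      rw [Fintype.card_option, hcard] at h1
      omega
    obtain ⟨σ', hσ'⟩ := ih {i // i ≠ i₀} {j // j ≠ j₀} (fun i => A i.1) (fun j => B j.1)
      (fun i => hA i.1) (fun j => hB j.1) hcard' (rA.symm.trans (f₁.trans rB))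
    refine ⟨(Equiv.optionSubtypeNe i₀).symm.trans
      ((Equiv.optionCongr σ').trans (Equiv.optionSubtypeNe j₀)), fun i => ?_⟩
    by_cases h : i = i₀
    · rw [h]
      have hσ : ((Equiv.optionSubtypeNe i₀).symm.trans
          ((Equiv.optionCongr σ').trans (Equiv.optionSubtypeNe j₀))) i₀ = j₀ := by
        simp
      rw [hσ]; exact ⟨f₀⟩
    · have hσ : ((Equiv.optionSubtypeNe i₀).symm.trans
          ((Equiv.optionCongr σ').trans (Equiv.optionSubtypeNe j₀))) i = (σ' ⟨i, h⟩).1 := by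
        simp [Equiv.optionSubtypeNe_symm_of_ne h]
      rw [hσ]; exact hσ' ⟨i, h⟩

end Cfsg.Agent.Helper11
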