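import Mathlib
import Cfsg.Agent.Helper11.LargeExtra3
import Cfsg.Agent.Helper11.Fstar
import Cfsg.Agent.Helper9.FStar

set_option autoImplicit false

namespace Cfsg.Agent.Helper11

/-- A finite normal subgroup on which an involution acts without non-trivial fixed points has
odd order. -/
theorem odd_card_of_fpf {G : Type*} [Group G] (N : Subgroup G) [Finite ↥N] (hN : N.Normal)
    (z : G) (hz : orderOf z = 2) (hfix : ∀ n ∈ N, n * z = z * n → n = 1) :
    Odd (Nat.card ↥N) := by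
  haveI : Fact (Nat.Prime 2) := ⟨Nat.prime_two⟩
  haveI := hN
  let _ : MulAction ↥(Subgroup.zpowers z) ↥N :=
    MulAction.compHom ↥N
      ((MulAut.conjNormal : G →* MulAut ↥N).comp (Subgroup.zpowers z).subtype)
  have hsmul : ∀ (t : ↥(Subgroup.zpowers z)) (n : ↥N),
      ((t • n : ↥N) : G) = (t : G) * (n : G) * (t : G)⁻¹ := fun t n => rfl
  have hp : IsPGroup 2 ↥(Subgroup.zpowers z) := by
    apply IsPGroup.of_card (n := 1)
    rw [Nat.card_zpowers, hz, pow_one]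
  have hmod := hp.card_modEq_card_fixedPoints ↥N
  have hone : ∀ a : ↥(MulAction.fixedPoints ↥(Subgroup.zpowers z) ↥N), (a : ↥N) = 1 := by
    intro a
    have h1 : (⟨z, Subgroup.mem_zpowers z⟩ : ↥(Subgroup.zpowers z)) • (a : ↥N) = (a : ↥N) :=
      (MulAction.mem_fixedPoints.mp a.2) _
    have h2 : z * ((a : ↥N) : G) * z⁻¹ = ((a : ↥N) : G) := by
      have h3 := congrArg Subtype.val h1
      rw [hsmul] at h3
      exact h3
    apply Subtype.ext
    apply hfix _ (a : ↥N).2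
    calc ((a : ↥N) : G) * z = (z * ((a : ↥N) : G) * z⁻¹) * z := by rw [h2]
      _ = z * ((a : ↥N) : G) := by group
  have hfp : Nat.card ↥(MulAction.fixedPoints ↥(Subgroup.zpowers z) ↥N) = 1 := by
    rw [Nat.card_eq_one_iff_unique]
    constructor
    · constructor
      intro a b
      exact Subtype.ext ((hone a).trans (hone b).symm)
    · refine ⟨⟨1, MulAction.mem_fixedPoints.mpr (fun t => Subtype.ext ?_)⟩⟩
      rw [hsmul]
      simp
  rw [hfp] at hmod
  have h2 : Nat.card ↥N % 2 = 1 % 2 := hmod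
  rw [Nat.odd_iff]
  omega

/-- A normal subgroup of `G` not containing `z` is trivial. -/
theorem normal_eq_bot_of_not_mem {G : Type*} [Group G] [Finite G] (Q : Subgroup G) (z : G)
    (hz : orderOf z = 2)
    (hQN : ∀ c : G, c * z = z * c → ∀ q ∈ Q, c * q * c⁻¹ ∈ Q)
    (hcomm : ∀ p ∈ Q, ∀ q ∈ Q, p * q * p⁻¹ * q⁻¹ = 1 ∨ p * q * p⁻¹ * q⁻¹ = z)
    (hcen : ∀ ζ ∈ Q, (∀ q ∈ Q, q * ζ = ζ * q) → ζ = 1 ∨ ζ = z)
    (hself : ∀ c : G, (∀ q ∈ Q, c * q = q * c) → c = 1 ∨ c = z)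
    (hodd : ∀ K : Subgroup G, Odd (Nat.card ↥K) → (∀ q ∈ Q, ∀ k ∈ K, q * k * q⁻¹ ∈ K) → K = ⊥)
    (N : Subgroup G) (hN : N.Normal) (hzN : z ∉ N) : N = ⊥ := by
  have hNQ : ∀ x ∈ N, x ∈ Q → x = 1 := by
    intro x hxN hxQ
    by_contra hx1
    by_cases hc : ∀ q ∈ Q, q * x = x * q
    · rcases hcen x hxQ hc with h | h
      · exact hx1 h
      · exact hzN (h ▸ hxN)
    · push_neg at hc
      obtain ⟨q, hq, hne⟩ := hc
      rcases hcomm q hq x hxQ with h | h
      · apply hne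
        calc q * x = (q * x * q⁻¹ * x⁻¹) * (x * q) := by group
          _ = x * q := by rw [h, one_mul]
      · apply hzN
        rw [← h]
        exact N.mul_mem (hN.conj_mem x hxN q) (N.inv_mem hxN)
  have hNC : ∀ n ∈ N, n * z = z * n → n = 1 := by
    intro n hn hnz
    have hnq : ∀ q ∈ Q, n * q = q * n := by
      intro q hq
      have hc1 : q * n * q⁻¹ * n⁻¹ ∈ N := N.mul_mem (hN.conj_mem n hn q) (N.inv_mem hn)
      have hc2 : q * n * q⁻¹ * n⁻¹ ∈ Q := by
        have h1 : n * q⁻¹ * n⁻¹ ∈ Q := hQN n hnz q⁻¹ (Q.inv_mem hq)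
        have e : q * n * q⁻¹ * n⁻¹ = q * (n * q⁻¹ * n⁻¹) := by group
        rw [e]; exact Q.mul_mem hq h1
      have h1 := hNQ _ hc1 hc2
      calc n * q = (q * n * q⁻¹ * n⁻¹)⁻¹ * (q * n) := by group
        _ = q * n := by rw [h1, inv_one, one_mul]
    rcases hself n hnq with h | h
    · exact h
    · exact absurd (h ▸ hn) hzN
  exact hodd N (odd_card_of_fpf N hN z hz hNC) (fun q _ k hk => hN.conj_mem k hk q)

/-- A normal subgroup of `G` containing `C_G(z)` is everything (Frattini argument). -/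
theorem normal_eq_top_of_centralizer_le {G : Type*} [Group G] [Finite G] (Q : Subgroup G)
    (z : G) (hz1 : z ≠ 1) (hzQ : z ∈ Q) (hQ2 : IsPGroup 2 ↥Q)
    (hQC : ∀ q ∈ Q, q * z = z * q)
    (hself : ∀ c : G, (∀ q ∈ Q, c * q = q * c) → c = 1 ∨ c = z)
    (N : Subgroup G) (hN : N.Normal) (hCN : Subgroup.centralizer ({z} : Set G) ≤ N) :
    N = ⊤ := by
  haveI : Fact (Nat.Prime 2) := ⟨Nat.prime_two⟩
  haveI := hN
  have hQN' : Q ≤ N := fun q hq =>
    hCN (Subgroup.mem_centralizer_singleton_iff.mpr (hQC q hq))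
  obtain ⟨P, hP⟩ := (hQ2.comap_subtype (K := N)).exists_le_sylow
  have hfrat : Subgroup.normalizer
      ((Subgroup.map N.subtype (P : Subgroup ↥N) : Subgroup G) : Set G) ⊔ N = ⊤ :=
    Sylow.normalizer_sup_eq_top P
  obtain ⟨P', hP'def⟩ : ∃ P' : Subgroup G, P' = Subgroup.map N.subtype (P : Subgroup ↥N) :=
    ⟨_, rfl⟩
  rw [← hP'def] at hfrat
  have hP'2 : IsPGroup 2 ↥P' := by
    rw [hP'def]; exact P.isPGroup'.map N.subtype
  have hQP' : Q ≤ P' := by
    intro q hq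
    rw [hP'def]
    exact Subgroup.mem_map.mpr ⟨⟨q, hQN' hq⟩, hP (Subgroup.mem_subgroupOf.mpr hq), rfl⟩
  have hzP' : z ∈ P' := hQP' hzQ
  have hzcen : ∀ p ∈ P', p * z = z * p := by
    haveI : Nontrivial ↥P' := ⟨⟨⟨z, hzP'⟩, 1, fun h => hz1 (congrArg Subtype.val h)⟩⟩
    haveI : Nontrivial ↥(Subgroup.center ↥P') := hP'2.center_nontrivial
    obtain ⟨ζ, hζ⟩ := exists_ne (1 : ↥(Subgroup.center ↥P'))
    have hζc : ∀ p ∈ P', ((ζ : ↥P') : G) * p = p * ((ζ : ↥P') : G) := by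
      intro p hp
      have hthis := Subgroup.mem_center_iff.mp ζ.2 ⟨p, hp⟩
      exact (congrArg Subtype.val hthis).symm
    rcases hself _ (fun q hq => hζc q (hQP' hq)) with h | h
    · exfalso
      exact hζ (Subtype.ext (Subtype.ext h))
    · intro p hp
      rw [← h]
      exact (hζc p hp).symm
  have hnorm : Subgroup.normalizer (P' : Set G) ≤ N := by
    intro n hn
    apply hCN
    rw [Subgroup.mem_centralizer_singleton_iff]
    have hn' : n⁻¹ ∈ Subgroup.normalizer (P' : Set G) := Subgroup.inv_mem _ hn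
    have hconj : ∀ q ∈ Q, (n * z * n⁻¹) * q = q * (n * z * n⁻¹) := by
      intro q hq
      have h1 : n⁻¹ * q * n⁻¹⁻¹ ∈ P' := (Subgroup.mem_normalizer_iff.mp hn' q).mp (hQP' hq)
      rw [inv_inv] at h1
      have h2 := hzcen _ h1
      calc (n * z * n⁻¹) * q = n * (z * (n⁻¹ * q * n)) * n⁻¹ := by group
        _ = n * ((n⁻¹ * q * n) * z) * n⁻¹ := by rw [h2]
        _ = q * (n * z * n⁻¹) := by group
    rcases hself _ hconj with h | h
    · exfalso
      apply hz1
      calc z = n⁻¹ * (n * z * n⁻¹) * n := by group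
        _ = 1 := by rw [h]; group
    · calc n * z = (n * z * n⁻¹) * n := by group
        _ = z * n := by rw [h]
  have hle : Subgroup.normalizer (P' : Set G) ⊔ N = N := sup_eq_right.mpr hnorm
  rw [hle] at hfrat
  exact hfrat

/-- Elementwise version of `large_of_conj`: if a conjugate of `z` other than `z` lies in `Q`,
then `Q` normalizes no non-trivial subgroup of odd order. -/
theorem large_odd_of_conj {G : Type*} [Group G] [Finite G] (Q : Subgroup G) (z : G)
    (hzQ : z ∈ Q) (hz2 : z * z = 1) (hz1 : z ≠ 1)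
    (hQ2 : IsPGroup 2 ↥Q)
    (hQC : ∀ q ∈ Q, q * z = z * q)
    (hQN : ∀ c : G, c * z = z * c → ∀ q ∈ Q, c * q * c⁻¹ ∈ Q)
    (hcomm : ∀ p ∈ Q, ∀ q ∈ Q, p * q * p⁻¹ * q⁻¹ = 1 ∨ p * q * p⁻¹ * q⁻¹ = z)
    (hcen : ∀ ζ ∈ Q, (∀ q ∈ Q, q * ζ = ζ * q) → ζ = 1 ∨ ζ = z)
    (hself : ∀ c : G, (∀ q ∈ Q, c * q = q * c) → c = 1 ∨ c = z)
    (g : G) (haQ : g * z * g⁻¹ ∈ Q) (hne : g * z * g⁻¹ ≠ z)
    (K : Subgroup G) (hK : Odd (Nat.card ↥K)) (hQK : ∀ q ∈ Q, ∀ k ∈ K, q * k * q⁻¹ ∈ K) :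
    K = ⊥ := by
  have hself' : ∀ c : G, (∀ q ∈ Q, c * q = q * c) → c ∈ Q := by
    intro c hc
    rcases hself c hc with h | h
    · rw [h]; exact Q.one_mem
    · rw [h]; exact hzQ
  have hb := symp_conj_mem Q z hzQ hz2 hz1 hQ2 hQC hQN hcomm (fun ζ hζ h _ => hcen ζ hζ h)
    hself' g (g * z * g⁻¹) rfl haQ hne
  have hQle : Q ≤ o2c z := le_o2c Q z hQ2 hQC hQN
  have hzb : z ∈ o2c (g * z * g⁻¹) := by
    have h1 := o2c_conj g z (g * z * g⁻¹) rfl (hQle hb)
    have e : g * (g⁻¹ * z * g) * g⁻¹ = z := by group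
    rw [e] at h1
    exact h1
  have ha2 : (g * z * g⁻¹) * (g * z * g⁻¹) = 1 := by
    calc g * z * g⁻¹ * (g * z * g⁻¹) = g * (z * z) * g⁻¹ := by group
      _ = 1 := by rw [hz2]; group
  have ha1 : g * z * g⁻¹ ≠ 1 := by
    intro h
    apply hz1
    calc z = g⁻¹ * (g * z * g⁻¹) * g := by group
      _ = 1 := by rw [h]; group
  exact large_extra_odd Q z hzQ hz2 hQ2 hQC hQN hcomm hcen hself (g * z * g⁻¹) haQ ha2 ha1 hne
    hzb K hK hQK

/-- Simplicity and largeness from generation of the involution centralizer (S5427). -/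
theorem simple_of_gen {G : Type*} [Group G] [Finite G] (z : G) (hz : orderOf z = 2)
    (Q : Subgroup G)
    (hQC : Q ≤ Subgroup.centralizer ({z} : Set G))
    (hF : (Cfsg.generalizedFittingSubgroup ↥(Subgroup.centralizer ({z} : Set G))).map
      (Subgroup.centralizer ({z} : Set G)).subtype = Q)
    (hQ : Cfsg.IsExtraspecial 2 ↥Q)
    (K U : Subgroup G) (hU : U = Subgroup.closure {x : G | ∃ k ∈ K, x = k * z * k⁻¹})
    (hUab : IsMulCommutative ↥U)
    (hgen : Subgroup.closure {x : G | ∃ c ∈ Subgroup.centralizer ({z} : Set G),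
      ∃ u ∈ U, x = c * u * c⁻¹} = Subgroup.centralizer ({z} : Set G))
    (h3 : (∃ k ∈ K, k * z * k⁻¹ ∈ Q ∧ k * z * k⁻¹ ≠ z) ∨
      ∃ u ∈ U ⊓ Q, u ∉ Subgroup.zpowers z ∧ z ∈ o2c u) :
    IsSimpleGroup G ∧ Cfsg.IsLargeExtraspecial Q := by
  haveI : Fact (Nat.Prime 2) := ⟨Nat.prime_two⟩
  have hz2 : z * z = 1 := by
    rw [← pow_two, ← hz]; exact pow_orderOf_eq_one z
  have hz1 : z ≠ 1 := by
    intro h
    rw [h, orderOf_one] at hz
    exact absurd hz (by norm_num)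
  have hzC : z ∈ Subgroup.centralizer ({z} : Set G) :=
    Subgroup.mem_centralizer_singleton_iff.mpr rfl
  have hzQ : z ∈ Q := by
    rw [← hF]
    refine Subgroup.mem_map.mpr ⟨⟨z, hzC⟩, ?_, rfl⟩
    exact fitting_le_genFitting _ (center_le_fitting _ (Subgroup.mem_center_iff.mpr
      (fun c => Subtype.ext (Subgroup.mem_centralizer_singleton_iff.mp c.2))))
  have hQC' : ∀ q ∈ Q, q * z = z * q := fun q hq =>
    Subgroup.mem_centralizer_singleton_iff.mp (hQC hq)
  have hcentQ : ∀ c : G, (∀ q ∈ Q, c * q = q * c) → c ∈ Q := by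
    intro c hc
    have hcC : c ∈ Subgroup.centralizer ({z} : Set G) :=
      Subgroup.mem_centralizer_singleton_iff.mpr (hc z hzQ)
    have h1 : (⟨c, hcC⟩ : ↥(Subgroup.centralizer ({z} : Set G))) ∈
        Subgroup.centralizer ((Cfsg.generalizedFittingSubgroup
          ↥(Subgroup.centralizer ({z} : Set G)) : Subgroup _) : Set _) := by
      rw [Subgroup.mem_centralizer_iff]
      intro f hf
      apply Subtype.ext
      have hfQ : (f : G) ∈ Q := by
        rw [← hF]; exact Subgroup.mem_map.mpr ⟨f, hf, rfl⟩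
      exact (hc _ hfQ).symm
    have h2 := Cfsg.Agent.Helper9.centralizer_genFitting_le h1
    rw [← hF]
    exact Subgroup.mem_map.mpr ⟨⟨c, hcC⟩, h2, rfl⟩
  have hL2 : Subgroup.centralizer (Q : Set G) = (Subgroup.center ↥Q).map Q.subtype := by
    apply le_antisymm
    · intro c hc
      have hc' : ∀ q ∈ Q, c * q = q * c := fun q hq =>
        (Subgroup.mem_centralizer_iff.mp hc q hq).symm
      have hcQ := hcentQ c hc'
      refine Subgroup.mem_map.mpr ⟨⟨c, hcQ⟩, ?_, rfl⟩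
      rw [Subgroup.mem_center_iff]
      intro q
      apply Subtype.ext
      exact (hc' q.1 q.2).symm
    · rintro _ ⟨ζ, hζ, rfl⟩
      rw [Subgroup.mem_centralizer_iff]
      intro q hq
      exact congrArg Subtype.val (Subgroup.mem_center_iff.mp hζ ⟨q, hq⟩)
  have hQnorm : ∀ c : G, c * z = z * c → ∀ q ∈ Q, c * q * c⁻¹ ∈ Q := by
    intro c hc q hq
    have hcC : c ∈ Subgroup.centralizer ({z} : Set G) :=
      Subgroup.mem_centralizer_singleton_iff.mpr hc
    rw [← hF] at hq ⊢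
    obtain ⟨q0, hq0, rfl⟩ := Subgroup.mem_map.mp hq
    exact Subgroup.mem_map.mpr ⟨⟨c, hcC⟩ * q0 * ⟨c, hcC⟩⁻¹,
      (genFitting_normal _).conj_mem q0 hq0 _, rfl⟩
  have hzZ : z ∈ (Subgroup.center ↥Q).map Q.subtype := by
    refine Subgroup.mem_map.mpr ⟨⟨z, hzQ⟩, ?_, rfl⟩
    rw [Subgroup.mem_center_iff]
    intro q
    exact Subtype.ext (hQC' q.1 q.2)
  have hL3 : Subgroup.centralizer (((Subgroup.center ↥Q).map Q.subtype : Subgroup G) : Set G) ≤
      Subgroup.normalizer (Q : Set G) := by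
    intro c hc
    have hcz : c * z = z * c := (Subgroup.mem_centralizer_iff.mp hc z hzZ).symm
    exact mem_normalizer_of_conj_le Q c (hQnorm c hcz)
  obtain ⟨z', hz'Q, hz'2, hz'1, hQCz, hQN, hcomm, hcen, hself, hZc⟩ :=
    large_extra_setup Q hQ hL2 hL3
  have hzz' : z = z' := by
    rcases (hZc z).mp hzZ with h | h
    · exact absurd h hz1
    · exact h
  subst hzz'
  have hcommU : ∀ a ∈ U, ∀ b ∈ U, a * b = b * a := by
    intro a ha b hb
    exact congrArg Subtype.val (hUab.is_comm.comm (⟨a, ha⟩ : ↥U) ⟨b, hb⟩)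
  have hU2 : ∀ x ∈ U, x * x = 1 := by
    intro x hx
    have hx' : x ∈ Subgroup.closure {x : G | ∃ k ∈ K, x = k * z * k⁻¹} := by
      rw [← hU]; exact hx
    clear hx
    induction hx' using Subgroup.closure_induction with
    | mem y hy =>
      obtain ⟨k, -, rfl⟩ := hy
      calc k * z * k⁻¹ * (k * z * k⁻¹) = k * (z * z) * k⁻¹ := by group
        _ = 1 := by rw [hz2]; group
    | one => exact one_mul 1
    | mul a b ha hb iha ihb =>
      have haU : a ∈ U := by rw [hU]; exact ha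
      have hbU : b ∈ U := by rw [hU]; exact hb
      calc a * b * (a * b) = a * (b * a) * b := by group
        _ = a * (a * b) * b := by rw [hcommU b hbU a haU]
        _ = (a * a) * (b * b) := by group
        _ = 1 := by rw [iha, ihb, one_mul]
    | inv a ha iha =>
      calc a⁻¹ * a⁻¹ = (a * a)⁻¹ := by group
        _ = 1 := by rw [iha, inv_one]
  have hlarge : Cfsg.IsLargeExtraspecial Q := by
    rcases h3 with ⟨k, -, hkQ, hkne⟩ | ⟨u, hu, huz, hzu⟩
    · refine (large_of_conj Q hQ hL2 hL3 k ?_ ?_).2.2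
      · intro hkN
        have h1 := (Subgroup.mem_normalizer_iff.mp hkN z).mp hzZ
        rcases (hZc _).mp h1 with h | h
        · apply hz1
          calc z = k⁻¹ * (k * z * k⁻¹) * k := by group
            _ = 1 := by rw [h]; group
        · exact hkne h
      · rintro _ ⟨x, hx, rfl⟩
        rcases (hZc x).mp hx with h | h
        · rw [h, map_one]; exact Q.one_mem
        · rw [h]; exact hkQ
    · obtain ⟨huU, huQ⟩ := Subgroup.mem_inf.mp hu
      have hu1 : u ≠ 1 := fun h => huz (h ▸ Subgroup.one_mem _)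
      have hou : orderOf u = 2 := orderOf_eq_prime (by rw [pow_two]; exact hU2 u huU) hu1
      refine large_of_inv Q hQ hL2 hL3 u huQ ?_ hou ?_
      · intro h
        rcases (hZc u).mp h with h' | h'
        · exact hu1 h'
        · exact huz (h' ▸ Subgroup.mem_zpowers z)
      · intro x hx
        rcases (hZc x).mp hx with h | h
        · rw [h]; exact Subgroup.one_mem _
        · rw [h]; exact hzu
  have hodd : ∀ K' : Subgroup G, Odd (Nat.card ↥K') →
      (∀ q ∈ Q, ∀ k ∈ K', q * k * q⁻¹ ∈ K') → K' = ⊥ := by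
    intro K' hK' hQK'
    apply hlarge.2.2.2 K' hK'
    intro q hq
    exact mem_normalizer_of_conj_le K' q (hQK' q hq)
  refine ⟨?_, hlarge⟩
  refine @IsSimpleGroup.mk G _ ⟨⟨z, 1, hz1⟩⟩ ?_
  intro N hN
  by_cases hzN : z ∈ N
  · right
    have hUN : U ≤ N := by
      rw [hU, Subgroup.closure_le]
      rintro _ ⟨k, -, rfl⟩
      exact hN.conj_mem z hzN k
    have hCN : Subgroup.centralizer ({z} : Set G) ≤ N := by
      rw [← hgen, Subgroup.closure_le]
      rintro _ ⟨c, -, u, hu, rfl⟩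
      exact hN.conj_mem u (hUN hu) c
    exact normal_eq_top_of_centralizer_le Q z hz1 hzQ hQ.1.1 hQCz hself N hN hCN
  · left
    exact normal_eq_bot_of_not_mem Q z hz hQN hcomm hcen hself hodd N hN hzN

/-- Simplicity from irreducibility of `C/Q` on `Q/⟨z⟩` (S5436), for a general description `C`
of the centralizer of `z`. -/
theorem simple_of_irred {G : Type*} [Group G] [Finite G] (z : G) (hz : orderOf z = 2)
    (C : Subgroup G) (hC : ∀ c : G, c ∈ C ↔ c * z = z * c)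
    (Q : Subgroup ↥C) [hQn : Q.Normal]
    (hcent : Subgroup.centralizer (Q : Set ↥C) ≤ Q)
    (hzQ : ∀ hzC : z ∈ C, (⟨z, hzC⟩ : ↥C) ∈ Q)
    (hQ : Cfsg.IsExtraspecial 2 ↥Q)
    (hnwc : ∃ g : G, (∃ hq : g * z * g⁻¹ ∈ C, (⟨g * z * g⁻¹, hq⟩ : ↥C) ∈ Q) ∧ g * z * g⁻¹ ≠ z)
    (hsimp : IsSimpleGroup (↥C ⧸ Q))
    (hirr : ∀ W : Subgroup ↥C, W.Normal → W ≤ Q →
      (W = Q ∨ ∀ x ∈ W, (x : G) ∈ Subgroup.zpowers z))
    (hwcl : Subgroup.closure {x : ↥C | IsConj z (x : G)} ≠ Q) :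
    IsSimpleGroup G := by
  have hz2 : z * z = 1 := by
    rw [← pow_two, ← hz]; exact pow_orderOf_eq_one z
  have hz1 : z ≠ 1 := by
    intro h
    rw [h, orderOf_one] at hz
    exact absurd hz (by norm_num)
  have hzC : z ∈ C := (hC z).mpr rfl
  have hz0Q := hzQ hzC
  have hz0c : ∀ q ∈ Q, q * (⟨z, hzC⟩ : ↥C) = ⟨z, hzC⟩ * q := by
    intro q _
    exact Subtype.ext ((hC _).mp q.2)
  have hz01 : (⟨z, hzC⟩ : ↥C) ≠ 1 := fun h => hz1 (congrArg Subtype.val h)
  obtain ⟨hcomm0, hcen0⟩ := extra_struct Q hQ ⟨z, hzC⟩ hz0Q hz01 hz0c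
  obtain ⟨Q', hQ'def⟩ : ∃ Q' : Subgroup G, Q' = Q.map C.subtype := ⟨_, rfl⟩
  have hmemQ' : ∀ x : G, x ∈ Q' ↔ ∃ hx : x ∈ C, (⟨x, hx⟩ : ↥C) ∈ Q := by
    intro x
    rw [hQ'def]
    constructor
    · rintro ⟨x0, hx0, rfl⟩
      exact ⟨x0.2, hx0⟩
    · rintro ⟨hx, hxQ⟩
      exact Subgroup.mem_map.mpr ⟨⟨x, hx⟩, hxQ, rfl⟩
  have hzQ' : z ∈ Q' := (hmemQ' z).mpr ⟨hzC, hz0Q⟩
  have hQ2' : IsPGroup 2 ↥Q' := by
    rw [hQ'def]; exact hQ.1.1.map C.subtype
  have hQC' : ∀ q ∈ Q', q * z = z * q := by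
    intro q hq
    obtain ⟨hqC, -⟩ := (hmemQ' q).mp hq
    exact (hC q).mp hqC
  have hQN' : ∀ c : G, c * z = z * c → ∀ q ∈ Q', c * q * c⁻¹ ∈ Q' := by
    intro c hc q hq
    obtain ⟨hqC, hqQ⟩ := (hmemQ' q).mp hq
    have hcC : c ∈ C := (hC c).mpr hc
    rw [hmemQ']
    exact ⟨C.mul_mem (C.mul_mem hcC hqC) (C.inv_mem hcC),
      hQn.conj_mem ⟨q, hqC⟩ hqQ ⟨c, hcC⟩⟩
  have hcomm' : ∀ p ∈ Q', ∀ q ∈ Q', p * q * p⁻¹ * q⁻¹ = 1 ∨ p * q * p⁻¹ * q⁻¹ = z := by
    intro p hp q hq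
    obtain ⟨hpC, hpQ⟩ := (hmemQ' p).mp hp
    obtain ⟨hqC, hqQ⟩ := (hmemQ' q).mp hq
    rcases hcomm0 ⟨p, hpC⟩ hpQ ⟨q, hqC⟩ hqQ with h | h
    · left; exact congrArg Subtype.val h
    · right; exact congrArg Subtype.val h
  have hcen' : ∀ ζ ∈ Q', (∀ q ∈ Q', q * ζ = ζ * q) → ζ = 1 ∨ ζ = z := by
    intro ζ hζ hc
    obtain ⟨hζC, hζQ⟩ := (hmemQ' ζ).mp hζ
    have hc0 : ∀ q ∈ Q, q * (⟨ζ, hζC⟩ : ↥C) = ⟨ζ, hζC⟩ * q := by
      intro q hq
      apply Subtype.ext
      exact hc q.1 ((hmemQ' q.1).mpr ⟨q.2, hq⟩)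
    rcases hcen0 ⟨ζ, hζC⟩ hζQ hc0 with h | h
    · left; exact congrArg Subtype.val h
    · right; exact congrArg Subtype.val h
  have hself' : ∀ c : G, (∀ q ∈ Q', c * q = q * c) → c = 1 ∨ c = z := by
    intro c hc
    have hcC : c ∈ C := (hC c).mpr (hc z hzQ')
    have h1 : (⟨c, hcC⟩ : ↥C) ∈ Subgroup.centralizer (Q : Set ↥C) := by
      rw [Subgroup.mem_centralizer_iff]
      intro f hf
      apply Subtype.ext
      exact (hc f.1 ((hmemQ' f.1).mpr ⟨f.2, hf⟩)).symm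
    have h2 : c ∈ Q' := (hmemQ' c).mpr ⟨hcC, hcent h1⟩
    exact hcen' c h2 (fun q hq => (hc q hq).symm)
  obtain ⟨g, ⟨haC, haQ0⟩, hne⟩ := hnwc
  have haQ' : g * z * g⁻¹ ∈ Q' := (hmemQ' _).mpr ⟨haC, haQ0⟩
  have hodd : ∀ K : Subgroup G, Odd (Nat.card ↥K) →
      (∀ q ∈ Q', ∀ k ∈ K, q * k * q⁻¹ ∈ K) → K = ⊥ :=
    fun K hK hQK => large_odd_of_conj Q' z hzQ' hz2 hz1 hQ2' hQC' hQN' hcomm' hcen' hself' g
      haQ' hne K hK hQK
  have hanz : g * z * g⁻¹ ∉ Subgroup.zpowers z := by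
    intro h
    rcases mem_zpowers_two hz h with h1 | h1
    · apply hz1
      calc z = g⁻¹ * (g * z * g⁻¹) * g := by group
        _ = 1 := by rw [h1]; group
    · exact hne h1
  refine @IsSimpleGroup.mk G _ ⟨⟨z, 1, hz1⟩⟩ ?_
  intro N hN
  by_cases hzN : z ∈ N
  · right
    apply normal_eq_top_of_centralizer_le Q' z hz1 hzQ' hQ2' hQC' hself' N hN
    haveI hN0 : (N.subgroupOf C).Normal := hN.subgroupOf C
    have ha0N : (⟨g * z * g⁻¹, haC⟩ : ↥C) ∈ N.subgroupOf C :=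
      Subgroup.mem_subgroupOf.mpr (hN.conj_mem z hzN g)
    have hM : N.subgroupOf C ⊓ Q = Q := by
      rcases hirr (N.subgroupOf C ⊓ Q) inferInstance inf_le_right with h | h
      · exact h
      · exact absurd (h _ (Subgroup.mem_inf.mpr ⟨ha0N, haQ0⟩)) hanz
    have hQN0 : Q ≤ N.subgroupOf C := inf_eq_right.mp hM
    have hmapN : ((N.subgroupOf C).map (QuotientGroup.mk' Q)).Normal :=
      Subgroup.Normal.map hN0 _ (QuotientGroup.mk'_surjective Q)
    have hCN : ∀ c ∈ C, c ∈ N := by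
      rcases hsimp.eq_bot_or_eq_top_of_normal _ hmapN with hbot | htop
      · exfalso
        have hN0Q : N.subgroupOf C ≤ Q := by
          intro x hx
          have h1 : QuotientGroup.mk' Q x ∈ (N.subgroupOf C).map (QuotientGroup.mk' Q) :=
            Subgroup.mem_map_of_mem _ hx
          rw [hbot, Subgroup.mem_bot] at h1
          exact (QuotientGroup.eq_one_iff x).mp h1
        have hWN0 : Subgroup.closure {x : ↥C | IsConj z (x : G)} ≤ N.subgroupOf C := by
          rw [Subgroup.closure_le]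
          intro x hx
          obtain ⟨c, hc⟩ := isConj_iff.mp hx
          rw [SetLike.mem_coe, Subgroup.mem_subgroupOf, ← hc]
          exact hN.conj_mem z hzN c
        have hWnormal : (Subgroup.closure {x : ↥C | IsConj z (x : G)}).Normal := by
          constructor
          intro n hn c
          induction hn using Subgroup.closure_induction with
          | mem y hy =>
            apply Subgroup.subset_closure
            obtain ⟨d, hd⟩ := isConj_iff.mp hy
            show IsConj z ((c * y * c⁻¹ : ↥C) : G)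
            apply isConj_iff.mpr
            refine ⟨(c : G) * d, ?_⟩
            show (c : G) * d * z * ((c : G) * d)⁻¹ = (c : G) * (y : G) * (c : G)⁻¹
            rw [← hd]; group
          | one =>
            have e : c * 1 * c⁻¹ = 1 := by group
            rw [e]; exact Subgroup.one_mem _
          | mul a b _ _ iha ihb =>
            have e : c * (a * b) * c⁻¹ = (c * a * c⁻¹) * (c * b * c⁻¹) := by group
            rw [e]; exact Subgroup.mul_mem _ iha ihb
          | inv a _ iha =>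
            have e : c * a⁻¹ * c⁻¹ = (c * a * c⁻¹)⁻¹ := by group
            rw [e]; exact Subgroup.inv_mem _ iha
        rcases hirr _ hWnormal (hWN0.trans hN0Q) with h | h
        · exact hwcl h
        · apply hanz
          exact h ⟨g * z * g⁻¹, haC⟩ (Subgroup.subset_closure (isConj_iff.mpr ⟨g, rfl⟩))
      · have h2 := Subgroup.comap_map_eq (QuotientGroup.mk' Q) (N.subgroupOf C)
        rw [htop, Subgroup.comap_top, QuotientGroup.ker_mk'] at h2
        have h3 : N.subgroupOf C = ⊤ := (sup_eq_left.mpr hQN0).symm.trans h2.symm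
        intro c hc
        have hthis : (⟨c, hc⟩ : ↥C) ∈ N.subgroupOf C := by
          rw [h3]; exact Subgroup.mem_top _
        exact Subgroup.mem_subgroupOf.mp hthis
    intro c hc
    exact hCN c ((hC c).mpr (Subgroup.mem_centralizer_singleton_iff.mp hc))
  · left
    exact normal_eq_bot_of_not_mem Q' z hz hQN' hcomm' hcen' hself' hodd N hN hzN

end Cfsg.Agent.Helper11
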