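import Mathlib
import Cfsg.Agent.Helper11.LargeExtra3
import Cfsg.Agent.Helper11.ExtraExist
import Cfsg.Agent.Helper1.Coprime
import Cfsg.Agent.Helper10.Coprime
import Cfsg.Prelude.Def_MonsterType
import Cfsg.Prelude.Def_Transfer

set_option autoImplicit false

namespace Cfsg.Agent.Helper11

open scoped commutatorElement

universe u

/-- A subgroup `U` of an extraspecial `2`-subgroup `Q` containing `z` whose centre is `{1, z}`
has central commutators and centre of order two. -/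
theorem centTwo_sub {G : Type u} [Group G] (Q U : Subgroup G) (z : G) (hUQ : U ≤ Q)
    (hzU : z ∈ U) (hz1 : z ≠ 1) (hQC : ∀ q ∈ Q, q * z = z * q)
    (hcomm : ∀ p ∈ Q, ∀ q ∈ Q, p * q * p⁻¹ * q⁻¹ = 1 ∨ p * q * p⁻¹ * q⁻¹ = z)
    (hZU : ∀ ζ ∈ U, (∀ u ∈ U, u * ζ = ζ * u) → ζ = 1 ∨ ζ = z) : CentTwo ↥U := by
  have hzc : (⟨z, hzU⟩ : ↥U) ∈ Subgroup.center ↥U := by
    rw [Subgroup.mem_center_iff]
    intro g
    exact Subtype.ext (hQC g.1 (hUQ g.2))
  constructor
  · intro a b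
    rw [Subgroup.mem_center_iff]
    intro g
    apply Subtype.ext
    show (g : G) * ((a : G) * (b : G) * (a : G)⁻¹ * (b : G)⁻¹) =
      ((a : G) * (b : G) * (a : G)⁻¹ * (b : G)⁻¹) * (g : G)
    rcases hcomm a.1 (hUQ a.2) b.1 (hUQ b.2) with h | h
    · rw [h, mul_one, one_mul]
    · rw [h]
      exact hQC g.1 (hUQ g.2)
  · apply (Nat.card_eq_two_iff' (1 : ↥(Subgroup.center ↥U))).mpr
    refine ⟨⟨⟨z, hzU⟩, hzc⟩, ?_, ?_⟩
    · intro h
      apply hz1
      have h' := congrArg (fun y : ↥(Subgroup.center ↥U) => ((y : ↥U) : G)) h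
      exact h'
    · intro y hy
      have hyc : ∀ u ∈ U, u * ((y : ↥U) : G) = ((y : ↥U) : G) * u := by
        intro u hu
        have h := Subgroup.mem_center_iff.mp y.2 ⟨u, hu⟩
        exact congrArg Subtype.val h
      rcases hZU _ y.1.2 hyc with h | h
      · exfalso
        apply hy
        exact Subtype.ext (Subtype.ext h)
      · exact Subtype.ext (Subtype.ext h)

/-- Coprime action of an odd-order subgroup of `N(Q)` on a large extraspecial `2`-subgroup. -/
theorem large_odd_decomp {G : Type u} [Group G] [Finite G] (Q : Subgroup G)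
    (hQ : Cfsg.IsLargeExtraspecial Q) (A : Subgroup G)
    (hA : A ≤ Subgroup.normalizer (Q : Set G)) (hAodd : Odd (Nat.card ↥A)) (hA1 : A ≠ ⊥) :
    (Q ⊓ Subgroup.centralizer (A : Set G)) ⊔ ⁅Q, A⁆ = Q ∧
    (∀ x ∈ Q ⊓ Subgroup.centralizer (A : Set G), ∀ y ∈ ⁅Q, A⁆, x * y = y * x) ∧
    Cfsg.IsExtraspecial 2 ↥⁅Q, A⁆ ∧
    (Q ⊓ Subgroup.centralizer (A : Set G) = ((Subgroup.center ↥Q).map Q.subtype) ∨
      Cfsg.IsExtraspecial 2 ↥(Q ⊓ Subgroup.centralizer (A : Set G))) := by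
  haveI : Fact (Nat.Prime 2) := ⟨Nat.prime_two⟩
  obtain ⟨hL1, hL2, hL3, -⟩ := hQ
  obtain ⟨z, hzQ, hzz, hz1, hQC, hQN, hcomm, hcen, hself, hZc⟩ :=
    large_extra_setup Q hL1 hL2 hL3
  obtain ⟨C, hC⟩ : ∃ C : Subgroup G, C = Q ⊓ Subgroup.centralizer (A : Set G) := ⟨_, rfl⟩
  obtain ⟨D, hD⟩ : ∃ D : Subgroup G, D = ⁅Q, A⁆ := ⟨_, rfl⟩
  rw [← hC, ← hD]
  have hCm : ∀ x : G, x ∈ C ↔ x ∈ Q ∧ ∀ α ∈ A, α * x = x * α := by
    intro x
    rw [hC, Subgroup.mem_inf]
    exact and_congr Iff.rfl Subgroup.mem_centralizer_iff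
  have hAQ : ∀ α ∈ A, ∀ q ∈ Q, α * q * α⁻¹ ∈ Q := by
    intro α hα q hq
    exact (Subgroup.mem_normalizer_iff.mp (hA hα) q).mp hq
  have hAz : ∀ α ∈ A, α * z = z * α := by
    intro α hα
    have hmem : α * z * α⁻¹ ∈ Q := hAQ α hα z hzQ
    have hc : ∀ q ∈ Q, q * (α * z * α⁻¹) = (α * z * α⁻¹) * q := by
      intro q hq
      have hq' : α⁻¹ * q * α ∈ Q := by
        have h := hAQ α⁻¹ (A.inv_mem hα) q hq
        rw [inv_inv] at h
        exact h
      have h := hQC _ hq'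
      calc q * (α * z * α⁻¹) = α * ((α⁻¹ * q * α) * z) * α⁻¹ := by group
        _ = α * (z * (α⁻¹ * q * α)) * α⁻¹ := by rw [h]
        _ = (α * z * α⁻¹) * q := by group
    rcases hcen _ hmem hc with h | h
    · exfalso
      apply hz1
      calc z = α⁻¹ * (α * z * α⁻¹) * α := by group
        _ = 1 := by rw [h]; group
    · calc α * z = (α * z * α⁻¹) * α := by group
        _ = z * α := by rw [h]
  have hDQ : D ≤ Q := by
    rw [hD]
    exact Cfsg.Agent.Helper1.commutator_le_of_le_normalizer Q A hA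
  have hAD : A ≤ Subgroup.normalizer (D : Set G) := by
    rw [hD]
    exact Cfsg.Agent.Helper1.le_normalizer_commutator Q A A hA Subgroup.le_normalizer
  have hQ2 : IsPGroup 2 ↥Q := hL1.1.1
  have hcop : (Nat.card ↥A).Coprime (Nat.card ↥Q) := by
    obtain ⟨n, hn⟩ := IsPGroup.iff_card.mp hQ2
    rw [hn]
    exact Nat.Coprime.pow_right n (Nat.coprime_two_right.mpr hAodd)
  haveI : Group.IsNilpotent ↥Q := hQ2.isNilpotent
  have hdec : ∀ x ∈ Q, ∃ c ∈ C, ∃ d ∈ D, x = c * d := by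
    intro x hx
    obtain ⟨d, hd, hxd⟩ := Cfsg.Agent.Helper1.coprime_coset_fixed A Q D hA hAD hDQ hcop
      (Or.inr inferInstance) x hx (fun a ha => by
        have h : ⁅x⁻¹, a⁆ ∈ ⁅Q, A⁆ := Subgroup.commutator_mem_commutator (Q.inv_mem hx) ha
        rw [commutatorElement_def, inv_inv, ← hD] at h
        exact h)
    refine ⟨x * d, ?_, d⁻¹, D.inv_mem hd, by group⟩
    rw [hC]
    exact Subgroup.mem_inf.mpr ⟨Q.mul_mem hx (hDQ hd), hxd⟩
  have hCQ : C ≤ Q := by
    rw [hC]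
    exact inf_le_left
  have h1 : C ⊔ D = Q := by
    apply le_antisymm
    · exact sup_le hCQ hDQ
    · intro x hx
      obtain ⟨c, hc, d, hd, rfl⟩ := hdec x hx
      exact Subgroup.mul_mem_sup hc hd
  have hCA : ∀ c ∈ C, ∀ α ∈ A, α * c = c * α := fun c hc => ((hCm c).mp hc).2
  have hAC : ⁅A, C⁆ = ⊥ := by
    rw [Subgroup.commutator_eq_bot_iff_le_centralizer]
    intro α hα
    rw [Subgroup.mem_centralizer_iff]
    intro c hc
    exact (hCA c hc α hα).symm
  have hCQA : ⁅⁅C, Q⁆, A⁆ = ⊥ := by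
    rw [Subgroup.commutator_eq_bot_iff_le_centralizer, Subgroup.commutator_le]
    intro c hc q hq
    rw [Subgroup.mem_centralizer_iff, commutatorElement_def]
    intro α hα
    rcases hcomm c (hCQ hc) q hq with h | h
    · rw [h, mul_one, one_mul]
    · rw [h]
      exact hAz α hα
  have hQAC : ⁅⁅Q, A⁆, C⁆ = ⊥ := by
    apply Subgroup.commutator_commutator_eq_bot_of_rotate
    · rw [hAC, Subgroup.commutator_bot_left]
    · exact hCQA
  have h2 : ∀ x ∈ C, ∀ y ∈ D, x * y = y * x := by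
    intro x hx y hy
    rw [← hD, Subgroup.commutator_eq_bot_iff_le_centralizer] at hQAC
    exact Subgroup.mem_centralizer_iff.mp (hQAC hy) x hx
  have hZD : ∀ ζ ∈ D, (∀ u ∈ D, u * ζ = ζ * u) → ζ = 1 ∨ ζ = z := by
    intro ζ hζ hζc
    apply hcen ζ (hDQ hζ)
    intro q hq
    obtain ⟨c, hc, d, hd, rfl⟩ := hdec q hq
    calc c * d * ζ = c * (d * ζ) := by group
      _ = c * (ζ * d) := by rw [hζc d hd]
      _ = (c * ζ) * d := by group
      _ = (ζ * c) * d := by rw [h2 c hc ζ hζ]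
      _ = ζ * (c * d) := by group
  have hZC : ∀ ζ ∈ C, (∀ u ∈ C, u * ζ = ζ * u) → ζ = 1 ∨ ζ = z := by
    intro ζ hζ hζc
    apply hcen ζ (hCQ hζ)
    intro q hq
    obtain ⟨c, hc, d, hd, rfl⟩ := hdec q hq
    calc c * d * ζ = c * (d * ζ) := by group
      _ = c * (ζ * d) := by rw [h2 ζ hζ d hd]
      _ = (c * ζ) * d := by group
      _ = (ζ * c) * d := by rw [hζc c hc]
      _ = ζ * (c * d) := by group
  have hzC : z ∈ C := (hCm z).mpr ⟨hzQ, fun α hα => hAz α hα⟩
  have hDnc : ∃ u ∈ D, ∃ v ∈ D, u * v ≠ v * u := by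
    by_contra hcon
    push_neg at hcon
    have hD1 : ∀ d ∈ D, d = 1 ∨ d = z := fun d hd => hZD d hd (fun u hu => hcon u hu d hd)
    have hAcent : ∀ α ∈ A, ∀ q ∈ Q, α * q = q * α := by
      intro α hα q hq
      have hmem : ⁅q, α⁆ ∈ D := by
        rw [hD]
        exact Subgroup.commutator_mem_commutator hq hα
      rw [commutatorElement_def] at hmem
      have hodd : Nat.Coprime (orderOf α) 2 := by
        have h3 : (⟨α, hα⟩ : ↥A) ^ Nat.card ↥A = 1 := pow_card_eq_one'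
        have h4 : α ^ Nat.card ↥A = 1 := congrArg Subtype.val h3
        exact Nat.Coprime.coprime_dvd_left (orderOf_dvd_of_pow_eq_one h4)
          (Nat.coprime_two_right.mpr hAodd)
      have hζ : q * α * q⁻¹ * α⁻¹ = 1 := by
        rcases hD1 _ hmem with h | h
        · exact h
        · exact Cfsg.Agent.Helper10.commutator_eq_one_of_coprime q α _ 2 rfl
            (by rw [h]; exact hAz α hα) (by rw [h, pow_two]; exact hzz) hodd
      calc α * q = (q * α * q⁻¹ * α⁻¹)⁻¹ * (q * α) := by group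
        _ = q * α := by rw [hζ, inv_one, one_mul]
    apply hA1
    rw [Subgroup.eq_bot_iff_forall]
    intro α hα
    rcases hself α (fun q hq => hAcent α hα q hq) with h | h
    · exact h
    · exfalso
      obtain ⟨k, hk⟩ := hAodd
      have h3 : (⟨α, hα⟩ : ↥A) ^ Nat.card ↥A = 1 := pow_card_eq_one'
      have h4 : α ^ Nat.card ↥A = 1 := congrArg Subtype.val h3
      rw [hk, h, pow_succ, pow_mul, pow_two, hzz, one_pow, one_mul] at h4
      exact hz1 h4
  obtain ⟨u, hu, v, hv, huv⟩ := hDnc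
  have hzD : z ∈ D := by
    rcases hcomm u (hDQ hu) v (hDQ hv) with h | h
    · exfalso
      apply huv
      calc u * v = (u * v * u⁻¹ * v⁻¹) * (v * u) := by group
        _ = v * u := by rw [h, one_mul]
    · rw [← h]
      exact D.mul_mem (D.mul_mem (D.mul_mem hu hv) (D.inv_mem hu)) (D.inv_mem hv)
  have h3 : Cfsg.IsExtraspecial 2 ↥D := by
    apply centTwo_extraspecial (centTwo_sub Q D z hDQ hzD hz1 hQC hcomm hZD)
    refine ⟨⟨u, hu⟩, ⟨v, hv⟩, ?_⟩
    intro h
    exact huv (congrArg Subtype.val h)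
  have h4 : C = (Subgroup.center ↥Q).map Q.subtype ∨ Cfsg.IsExtraspecial 2 ↥C := by
    by_cases hab : ∀ x ∈ C, ∀ y ∈ C, x * y = y * x
    · left
      ext x
      rw [hZc]
      constructor
      · intro hx
        exact hZC x hx (fun u hu => hab u hu x hx)
      · rintro (h | h)
        · rw [h]
          exact C.one_mem
        · rw [h]
          exact hzC
    · right
      push_neg at hab
      obtain ⟨x, hx, y, hy, hxy⟩ := hab
      apply centTwo_extraspecial (centTwo_sub Q C z hCQ hzC hz1 hQC hcomm hZC)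
      refine ⟨⟨x, hx⟩, ⟨y, hy⟩, ?_⟩
      intro h
      exact hxy (congrArg Subtype.val h)
  exact ⟨h1, h2, h3, h4⟩

end Cfsg.Agent.Helper11
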