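import Mathlib
import Cfsg.Agent.Helper11.LargeExtra3
import Cfsg.Agent.Helper11.Symp2
import Cfsg.Agent.Helper11.AbOp
import Cfsg.Prelude.Def_MonsterType
import Cfsg.Prelude.Def_Transfer

set_option autoImplicit false

namespace Cfsg.Agent.Helper11

open scoped commutatorElement

/-- Squares in an extraspecial `2`-subgroup lie in `{1, z}`. -/
theorem extra_sq {G : Type*} [Group G] (Q : Subgroup G) (z : G) (hzz : z * z = 1)
    (hQC : ∀ q ∈ Q, q * z = z * q)
    (hcomm : ∀ p ∈ Q, ∀ q ∈ Q, p * q * p⁻¹ * q⁻¹ = 1 ∨ p * q * p⁻¹ * q⁻¹ = z)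
    (hcen : ∀ ζ ∈ Q, (∀ q ∈ Q, q * ζ = ζ * q) → ζ = 1 ∨ ζ = z)
    (x : G) (hx : x ∈ Q) : x * x = 1 ∨ x * x = z := by
  apply hcen (x * x) (Q.mul_mem hx hx)
  intro b hb
  obtain ⟨c, hc⟩ : ∃ c : G, c = x * b * x⁻¹ * b⁻¹ := ⟨_, rfl⟩
  have hcc : c * c = 1 := by
    rcases hcomm x hx b hb with h | h
    · rw [hc, h, mul_one]
    · rw [hc, h, hzz]
  have hcx : c * x = x * c := by
    rcases hcomm x hx b hb with h | h
    · rw [hc, h, one_mul, mul_one]
    · rw [hc, h]
      exact (hQC x hx).symm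
  have e1 : x * b = c * (b * x) := by
    rw [hc]
    group
  calc b * (x * x) = (b * x) * x := by group
    _ = (c * c) * (b * x) * x := by rw [hcc, one_mul]
    _ = c * (c * (b * x)) * x := by group
    _ = c * (x * b) * x := by rw [← e1]
    _ = (c * x) * (b * x) := by group
    _ = (x * c) * (b * x) := by rw [hcx]
    _ = x * (c * (b * x)) := by group
    _ = x * (x * b) := by rw [← e1]
    _ = x * x * b := by group

/-- Conjugation by `q` preserves `⟨z, a⟩` as soon as it maps `z` and `a` into it. -/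
theorem conj_closure_pair_mem {G : Type*} [Group G] (z a q : G) (W : Subgroup G)
    (hW : W = Subgroup.closure ({z, a} : Set G))
    (hz : q * z * q⁻¹ ∈ W) (ha : q * a * q⁻¹ ∈ W) : ∀ v ∈ W, q * v * q⁻¹ ∈ W := by
  intro v hv
  rw [hW] at hv
  induction hv using Subgroup.closure_induction with
  | mem s hs =>
    rcases hs with hs | hs
    · rw [hs]
      exact hz
    · rw [Set.mem_singleton_iff.mp hs]
      exact ha
  | one =>
    rw [mul_one, mul_inv_cancel]
    exact W.one_mem
  | mul u v hu hv ihu ihv =>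
    have e : q * (u * v) * q⁻¹ = (q * u * q⁻¹) * (q * v * q⁻¹) := by group
    rw [e]
    exact W.mul_mem ihu ihv
  | inv u hu ihu =>
    have e : q * u⁻¹ * q⁻¹ = (q * u * q⁻¹)⁻¹ := by group
    rw [e]
    exact W.inv_mem ihu

/-- Commutators of a generated subgroup with a set land in `V` once the generators normalize
`V` and their commutators with the set land in `V`. -/
theorem comm_gens_mem {G : Type*} [Group G] (V : Subgroup G) (S T : Set G)
    (hSn : ∀ s ∈ S, s ∈ Subgroup.normalizer (V : Set G))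
    (hS : ∀ s ∈ S, ∀ e ∈ T, ⁅s, e⁆ ∈ V) :
    ∀ x ∈ Subgroup.closure S, ∀ e ∈ T, ⁅x, e⁆ ∈ V := by
  have key : ∀ x ∈ Subgroup.closure S,
      x ∈ Subgroup.normalizer (V : Set G) ∧ ∀ e ∈ T, ⁅x, e⁆ ∈ V := by
    intro x hx
    induction hx using Subgroup.closure_induction with
    | mem s hs => exact ⟨hSn s hs, hS s hs⟩
    | one =>
      exact ⟨Subgroup.one_mem _, fun e _ => by
        rw [commutatorElement_one_left]
        exact V.one_mem⟩
    | mul u v hu hv ihu ihv =>
      refine ⟨Subgroup.mul_mem _ ihu.1 ihv.1, fun e he => ?_⟩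
      rw [abop_comm_mul_left]
      exact V.mul_mem ((Subgroup.mem_normalizer_iff.mp ihu.1 _).mp (ihv.2 e he)) (ihu.2 e he)
    | inv u hu ihu =>
      refine ⟨Subgroup.inv_mem _ ihu.1, fun e he => ?_⟩
      rw [abop_comm_inv_left]
      have h1 := (Subgroup.mem_normalizer_iff.mp (Subgroup.inv_mem _ ihu.1) _).mp
        (V.inv_mem (ihu.2 e he))
      rw [inv_inv] at h1
      exact h1
  intro x hx
  exact (key x hx).2

theorem comm_gens_mem_both {G : Type*} [Group G] (E : Subgroup G) (S : Set G)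
    (hSn : ∀ s ∈ S, s ∈ Subgroup.normalizer (E : Set G))
    (hS : ∀ s ∈ S, ∀ t ∈ S, ⁅s, t⁆ ∈ E) :
    ∀ x ∈ Subgroup.closure S, ∀ y ∈ Subgroup.closure S, ⁅x, y⁆ ∈ E := by
  have h1 := comm_gens_mem E S S hSn hS
  have h2 : ∀ s ∈ S, ∀ e ∈ ((Subgroup.closure S : Subgroup G) : Set G), ⁅s, e⁆ ∈ E := by
    intro s hs e he
    rw [← commutatorElement_inv e s]
    exact E.inv_mem (h1 e he s hs)
  exact comm_gens_mem E S _ hSn h2

theorem sq_mem_of_gens {G : Type*} [Group G] (E : Subgroup G) (S : Set G)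
    (hc : ∀ x ∈ Subgroup.closure S, ∀ y ∈ Subgroup.closure S, ⁅x, y⁆ ∈ E)
    (hS : ∀ s ∈ S, s ^ 2 ∈ E) : ∀ x ∈ Subgroup.closure S, x ^ 2 ∈ E := by
  intro x hx
  induction hx using Subgroup.closure_induction with
  | mem s hs => exact hS s hs
  | one =>
    rw [one_pow]
    exact E.one_mem
  | mul u v hu hv ihu ihv =>
    have e : (u * v) ^ 2 = u ^ 2 * ⁅u⁻¹, v⁆ * v ^ 2 := by
      rw [commutatorElement_def, pow_two, pow_two, pow_two]
      group
    rw [e]
    exact E.mul_mem (E.mul_mem ihu (hc _ (Subgroup.inv_mem _ hu) _ hv)) ihv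
  | inv u hu ihu =>
    rw [inv_pow]
    exact E.inv_mem ihu

/-- An element normalizing the extraspecial `2`-subgroup `Q`, centralizing `z` and `C_Q(a)` for
a noncentral involution `a` of `Q`, lies in `{1, z, a, z * a}` (given `C_G(Q) = ⟨z⟩`). -/
theorem large_pair_center {G : Type*} [Group G] (Q : Subgroup G) (z a : G)
    (hzz : z * z = 1)
    (hQC : ∀ q ∈ Q, q * z = z * q)
    (hcomm : ∀ p ∈ Q, ∀ q ∈ Q, p * q * p⁻¹ * q⁻¹ = 1 ∨ p * q * p⁻¹ * q⁻¹ = z)
    (hcen : ∀ ζ ∈ Q, (∀ q ∈ Q, q * ζ = ζ * q) → ζ = 1 ∨ ζ = z)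
    (hself : ∀ c : G, (∀ q ∈ Q, c * q = q * c) → c = 1 ∨ c = z)
    (haQ : a ∈ Q) (haa : a * a = 1) (ha1 : a ≠ 1) (hne : a ≠ z)
    (x : G) (hxQ : ∀ q ∈ Q, x * q * x⁻¹ ∈ Q) (hxz : x * z = z * x)
    (hxA : ∀ α ∈ Q, α * a = a * α → x * α = α * x) :
    x = 1 ∨ x = z ∨ x = a ∨ x = z * a := by
  have hcj : ∀ q ∈ Q, ∀ c ∈ Q, q * c ≠ c * q → q * c * q⁻¹ = z * c := by
    intro q hq c hc hqc
    rcases hcomm q hq c hc with h | h
    · exfalso
      apply hqc
      calc q * c = (q * c * q⁻¹ * c⁻¹) * (c * q) := by group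
        _ = c * q := by rw [h, one_mul]
    · calc q * c * q⁻¹ = (q * c * q⁻¹ * c⁻¹) * c := by group
        _ = z * c := by rw [h]
  -- elements outside `C_Q(a)` form one coset
  have hcoset : ∀ q₁ ∈ Q, ∀ q ∈ Q, q₁ * a ≠ a * q₁ → q * a ≠ a * q →
      (q₁⁻¹ * q) * a = a * (q₁⁻¹ * q) := by
    intro q₁ hq₁ q hq hq₁a hqa
    have e1 : q * a = z * a * q := by
      calc q * a = (q * a * q⁻¹) * q := by group
        _ = z * a * q := by rw [hcj q hq a haQ hqa]
    have h := hcj q₁ hq₁ a haQ hq₁a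
    have hz' : q₁⁻¹ * z = z * q₁⁻¹ := hQC q₁⁻¹ (Q.inv_mem hq₁)
    have e2 : q₁⁻¹ * a = z * a * q₁⁻¹ := by
      calc q₁⁻¹ * a = q₁⁻¹ * ((z * z) * a) := by rw [hzz, one_mul]
        _ = (q₁⁻¹ * z) * (z * a) := by group
        _ = (z * q₁⁻¹) * (q₁ * a * q₁⁻¹) := by rw [hz', h]
        _ = z * a * q₁⁻¹ := by group
    calc q₁⁻¹ * q * a = q₁⁻¹ * (q * a) := by group
      _ = q₁⁻¹ * (z * a * q) := by rw [e1]
      _ = (q₁⁻¹ * z) * a * q := by group
      _ = (z * q₁⁻¹) * a * q := by rw [hz']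
      _ = z * (q₁⁻¹ * a) * q := by group
      _ = z * (z * a * q₁⁻¹) * q := by rw [e2]
      _ = (z * z) * a * (q₁⁻¹ * q) := by group
      _ = a * (q₁⁻¹ * q) := by rw [hzz, one_mul]
  -- an element centralizing `C_Q(a)` and one element outside centralizes `Q`
  have hcentral : ∀ c : G, (∀ α ∈ Q, α * a = a * α → c * α = α * c) →
      ∀ q₁ ∈ Q, q₁ * a ≠ a * q₁ → c * q₁ = q₁ * c → ∀ q ∈ Q, c * q = q * c := by
    intro c hcA q₁ hq₁ hq₁a hc1 q hq
    by_cases hqa : q * a = a * q
    · exact hcA q hq hqa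
    · have hα := hcoset q₁ hq₁ q hq hq₁a hqa
      have hcα := hcA (q₁⁻¹ * q) (Q.mul_mem (Q.inv_mem hq₁) hq) hα
      calc c * q = (c * q₁) * (q₁⁻¹ * q) := by group
        _ = (q₁ * c) * (q₁⁻¹ * q) := by rw [hc1]
        _ = q₁ * (c * (q₁⁻¹ * q)) := by group
        _ = q₁ * ((q₁⁻¹ * q) * c) := by rw [hcα]
        _ = q * c := by group
  -- the centralizer in `Q` of `C_Q(a)`
  have hCA : ∀ c ∈ Q, (∀ α ∈ Q, α * a = a * α → c * α = α * c) →
      c = 1 ∨ c = z ∨ c = a ∨ c = z * a := by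
    intro c hcQ hcA
    by_cases h : ∃ q₁ ∈ Q, q₁ * a ≠ a * q₁ ∧ c * q₁ = q₁ * c
    · obtain ⟨q₁, hq₁, hq₁a, hq₁c⟩ := h
      have h3 := hcentral c hcA q₁ hq₁ hq₁a hq₁c
      rcases hcen c hcQ (fun q hq => (h3 q hq).symm) with h' | h'
      · exact Or.inl h'
      · exact Or.inr (Or.inl h')
    · have h2 : ∀ q₁ ∈ Q, q₁ * a ≠ a * q₁ → c * q₁ ≠ q₁ * c :=
        fun q₁ hq₁ hq₁a hq₁c => h ⟨q₁, hq₁, hq₁a, hq₁c⟩
      have hza : a * z = z * a := hQC a haQ
      have hac : ∀ q ∈ Q, q * (a * c) = (a * c) * q := by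
        intro q hq
        by_cases hqa : q * a = a * q
        · have hqc := hcA q hq hqa
          calc q * (a * c) = (q * a) * c := by group
            _ = (a * q) * c := by rw [hqa]
            _ = a * (q * c) := by group
            _ = a * (c * q) := by rw [hqc]
            _ = a * c * q := by group
        · have hqc : q * c ≠ c * q := fun h' => h2 q hq hqa h'.symm
          have e1 := hcj q hq a haQ hqa
          have e2 := hcj q hq c hcQ hqc
          calc q * (a * c) = (q * a * q⁻¹) * (q * c * q⁻¹) * q := by group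
            _ = (z * a) * (z * c) * q := by rw [e1, e2]
            _ = z * (a * z) * c * q := by group
            _ = z * (z * a) * c * q := by rw [hza]
            _ = (z * z) * (a * c) * q := by group
            _ = a * c * q := by rw [hzz, one_mul]
      rcases hcen (a * c) (Q.mul_mem haQ hcQ) hac with h' | h'
      · right
        right
        left
        calc c = (a * a) * c := by rw [haa, one_mul]
          _ = a * (a * c) := by group
          _ = a := by rw [h', mul_one]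
      · right
        right
        right
        calc c = (a * a) * c := by rw [haa, one_mul]
          _ = a * (a * c) := by group
          _ = a * z := by rw [h']
          _ = z * a := hza
  -- the action of `x` on elements outside `C_Q(a)`
  have hstep : ∀ q ∈ Q, q * a ≠ a * q → x * q * x⁻¹ = q ∨ x * q * x⁻¹ = q * z := by
    intro q hq hqa
    obtain ⟨c, hc⟩ : ∃ c : G, c = q⁻¹ * (x * q * x⁻¹) := ⟨_, rfl⟩
    have hcQ : c ∈ Q := by
      rw [hc]
      exact Q.mul_mem (Q.inv_mem hq) (hxQ q hq)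
    have hxq : x * q * x⁻¹ = q * c := by
      rw [hc]
      group
    have hcA : ∀ α ∈ Q, α * a = a * α → c * α = α * c := by
      intro α hα hαa
      have hα'Q : q * α * q⁻¹ ∈ Q := Q.mul_mem (Q.mul_mem hq hα) (Q.inv_mem hq)
      have hα'a : (q * α * q⁻¹) * a = a * (q * α * q⁻¹) := by
        have hqia : q⁻¹ * a ≠ a * q⁻¹ := by
          intro h'
          apply hqa
          calc q * a = q * (a * q⁻¹) * q := by group
            _ = q * (q⁻¹ * a) * q := by rw [h']
            _ = a * q := by group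
        have e1 : q⁻¹ * a * q⁻¹⁻¹ = z * a := hcj q⁻¹ (Q.inv_mem hq) a haQ hqia
        rw [inv_inv] at e1
        have e2 : q * a * q⁻¹ = z * a := hcj q hq a haQ hqa
        have hαz : α * z = z * α := hQC α hα
        calc q * α * q⁻¹ * a = q * α * (q⁻¹ * a * q) * q⁻¹ := by group
          _ = q * (α * z) * a * q⁻¹ := by rw [e1]; group
          _ = q * (z * α) * a * q⁻¹ := by rw [hαz]
          _ = q * z * (α * a) * q⁻¹ := by group
          _ = q * z * (a * α) * q⁻¹ := by rw [hαa]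
          _ = (q * z) * a * α * q⁻¹ := by group
          _ = (z * q) * a * α * q⁻¹ := by rw [hQC q hq]
          _ = z * (q * a * q⁻¹) * (q * α * q⁻¹) := by group
          _ = z * (z * a) * (q * α * q⁻¹) := by rw [e2]
          _ = (z * z) * a * (q * α * q⁻¹) := by group
          _ = a * (q * α * q⁻¹) := by rw [hzz, one_mul]
      have hxα : x * α * x⁻¹ = α := by
        rw [hxA α hα hαa]
        group
      have hxα' : x * (q * α * q⁻¹) * x⁻¹ = q * α * q⁻¹ := by
        rw [hxA _ hα'Q hα'a]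
        group
      have e : x * (q * α * q⁻¹) * x⁻¹ =
          (x * q * x⁻¹) * (x * α * x⁻¹) * (x * q * x⁻¹)⁻¹ := by group
      rw [hxα', hxq, hxα] at e
      calc c * α = q⁻¹ * ((q * c) * α * (q * c)⁻¹) * q * c := by group
        _ = q⁻¹ * (q * α * q⁻¹) * q * c := by rw [← e]
        _ = α * c := by group
    have hqq : x * (q * q) * x⁻¹ = q * q := by
      rcases extra_sq Q z hzz hQC hcomm hcen q hq with h | h
      · rw [h]
        group
      · rw [h, hxz]
        group
    have hsqc : (q * c) * (q * c) = q * q := by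
      calc (q * c) * (q * c) = (x * q * x⁻¹) * (x * q * x⁻¹) := by rw [hxq]
        _ = x * (q * q) * x⁻¹ := by group
        _ = q * q := hqq
    have hcqc : c * q * c = q := by
      calc c * q * c = q⁻¹ * ((q * c) * (q * c)) := by group
        _ = q⁻¹ * (q * q) := by rw [hsqc]
        _ = q := by group
    have hnota : a * q * a ≠ q := by
      intro h
      apply hqa
      calc q * a = (a * q * a) * a := by rw [h]
        _ = a * q * (a * a) := by group
        _ = a * q := by rw [haa, mul_one]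
    rcases hCA c hcQ hcA with h | h | h | h
    · left
      rw [hxq, h, mul_one]
    · right
      rw [hxq, h]
    · exfalso
      rw [h] at hcqc
      exact hnota hcqc
    · exfalso
      rw [h] at hcqc
      apply hnota
      calc a * q * a = (z * z) * (a * q) * a := by rw [hzz, one_mul]
        _ = z * (z * (a * q)) * a := by group
        _ = z * ((a * q) * z) * a := by rw [hQC (a * q) (Q.mul_mem haQ hq)]
        _ = z * a * q * (z * a) := by group
        _ = q := hcqc
  by_cases hex : ∃ q₁ ∈ Q, q₁ * a ≠ a * q₁ ∧ x * q₁ * x⁻¹ = q₁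
  · obtain ⟨q₁, hq₁, hq₁a, hq₁x⟩ := hex
    have hc1 : x * q₁ = q₁ * x := by
      calc x * q₁ = (x * q₁ * x⁻¹) * x := by group
        _ = q₁ * x := by rw [hq₁x]
    rcases hself x (hcentral x hxA q₁ hq₁ hq₁a hc1) with h | h
    · exact Or.inl h
    · exact Or.inr (Or.inl h)
  · have hall : ∀ q ∈ Q, q * a ≠ a * q → x * q * x⁻¹ = q * z := by
      intro q hq hqa
      rcases hstep q hq hqa with h | h
      · exact absurd ⟨q, hq, hqa, h⟩ hex
      · exact h
    have hax : ∀ q ∈ Q, (a * x) * q = q * (a * x) := by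
      intro q hq
      by_cases hqa : q * a = a * q
      · have hxq := hxA q hq hqa
        calc a * x * q = a * (x * q) := by group
          _ = a * (q * x) := by rw [hxq]
          _ = (a * q) * x := by group
          _ = (q * a) * x := by rw [hqa]
          _ = q * (a * x) := by group
      · have hxq' := hall q hq hqa
        have e1 : q * a = z * a * q := by
          calc q * a = (q * a * q⁻¹) * q := by group
            _ = z * a * q := by rw [hcj q hq a haQ hqa]
        have haq : a * q = z * (q * a) := by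
          calc a * q = (z * z) * (a * q) := by rw [hzz, one_mul]
            _ = z * (z * a * q) := by group
            _ = z * (q * a) := by rw [← e1]
        calc a * x * q = a * ((x * q * x⁻¹) * x) := by group
          _ = a * (q * z * x) := by rw [hxq']
          _ = (a * q) * z * x := by group
          _ = (z * (q * a)) * z * x := by rw [haq]
          _ = z * q * (a * z) * x := by group
          _ = z * q * (z * a) * x := by rw [hQC a haQ]
          _ = z * (q * z) * a * x := by group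
          _ = z * (z * q) * a * x := by rw [hQC q hq]
          _ = (z * z) * q * (a * x) := by group
          _ = q * (a * x) := by rw [hzz, one_mul]
    rcases hself (a * x) hax with h | h
    · right
      right
      left
      calc x = (a * a) * x := by rw [haa, one_mul]
        _ = a * (a * x) := by group
        _ = a := by rw [h, mul_one]
    · right
      right
      right
      calc x = (a * a) * x := by rw [haa, one_mul]
        _ = a * (a * x) := by group
        _ = a * z := by rw [h]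
        _ = z * a := hQC a haQ

/-- Structure of the radical `R` attached to a large extraspecial pair. -/
theorem large_pair_struct {G : Type*} [Group G] [Finite G] (Q : Subgroup G)
    (hQ : Cfsg.IsLargeExtraspecial Q) (z : G)
    (hz : ((Subgroup.center ↥Q).map Q.subtype) = Subgroup.zpowers z) (hz2 : orderOf z = 2)
    (g : G) (hgH : g ∉ Subgroup.centralizer ({z} : Set G)) (hgQ : g * z * g⁻¹ ∈ Q)
    (V X R E : Subgroup G) (hV : V = Subgroup.closure ({z, g * z * g⁻¹} : Set G))
    (hX : X = Q ⊔ (Q).map (MulAut.conj g).toMonoidHom)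
    (hR : R = ((Q).map (MulAut.conj g).toMonoidHom ⊓ Subgroup.centralizer ({z} : Set G)) ⊔
      (Q ⊓ Subgroup.centralizer ({g * z * g⁻¹} : Set G)))
    (hE : E = Q ⊓ (Q).map (MulAut.conj g).toMonoidHom) :
    (Subgroup.center ↥R).map R.subtype = V ∧
    E ≤ (Subgroup.upperCentralSeries ↥R 2).map R.subtype ∧
    Subgroup.upperCentralSeries ↥R 3 = ⊤ ∧ Cfsg.IsElementaryAbelian 2 E ∧
    (∀ x ∈ R, ∀ y ∈ R, x * y * x⁻¹ * y⁻¹ ∈ E ∧ x ^ 2 ∈ E) ∧
    ((Q).map (MulAut.conj g).toMonoidHom ⊓ Subgroup.centralizer ({z} : Set G)) ⊓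
      (Q ⊓ Subgroup.centralizer ({g * z * g⁻¹} : Set G)) = E ∧ ⁅X, E⁆ ≤ V := by
  obtain ⟨hL1, hL2, hL3, -⟩ := hQ
  obtain ⟨z₀, hzQ, hzz, hz1, hQC, hQN, hcomm, hcen, hself, hZc⟩ :=
    large_extra_setup Q hL1 hL2 hL3
  have hzne : z ≠ 1 := by
    intro h
    rw [h, orderOf_one] at hz2
    exact absurd hz2 (by norm_num)
  have hz0 : z₀ = z := by
    have h1 : z ∈ (Subgroup.center ↥Q).map Q.subtype := by
      rw [hz]
      exact Subgroup.mem_zpowers z
    rcases (hZc z).mp h1 with h | h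
    · exact absurd h hzne
    · exact h.symm
  rw [hz0] at hzQ hzz hz1 hQC hQN hcomm hcen hself hZc
  obtain ⟨a, ha⟩ : ∃ a : G, a = g * z * g⁻¹ := ⟨_, rfl⟩
  rw [← ha] at hgQ hV hR ⊢
  have hne : a ≠ z := by
    intro h
    apply hgH
    rw [Subgroup.mem_centralizer_singleton_iff]
    calc g * z = (g * z * g⁻¹) * g := by group
      _ = z * g := by rw [← ha, h]
  have haa : a * a = 1 := by
    rw [ha]
    calc g * z * g⁻¹ * (g * z * g⁻¹) = g * (z * z) * g⁻¹ := by group
      _ = 1 := by rw [hzz]; group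
  have ha1 : a ≠ 1 := by
    intro h
    apply hz1
    calc z = g⁻¹ * (g * z * g⁻¹) * g := by group
      _ = 1 := by rw [← ha, h]; group
  have hself' : ∀ c : G, (∀ q ∈ Q, c * q = q * c) → c ∈ Q := by
    intro c hc
    rcases hself c hc with h | h
    · rw [h]; exact Q.one_mem
    · rw [h]; exact hzQ
  obtain ⟨hzmap, -⟩ := symp_main Q z hzQ hzz hz1 hL1.1.1 hQC hQN hcomm
    (fun ζ hζ h _ => hcen ζ hζ h) hself' g a ha hgQ hne
  obtain ⟨Qg, hQg⟩ : ∃ Qg : Subgroup G, Qg = Q.map (MulAut.conj g).toMonoidHom := ⟨_, rfl⟩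
  rw [← hQg] at hX hR hE hzmap ⊢
  have hQgm : ∀ y : G, y ∈ Qg ↔ g⁻¹ * y * g ∈ Q := by
    intro y
    rw [hQg]
    constructor
    · intro hy
      obtain ⟨q, hq, hqy⟩ := Subgroup.mem_map.mp hy
      have e : g * q * g⁻¹ = y := hqy
      rw [← e]
      have e2 : g⁻¹ * (g * q * g⁻¹) * g = q := by group
      rw [e2]
      exact hq
    · intro hy
      refine Subgroup.mem_map.mpr ⟨g⁻¹ * y * g, hy, ?_⟩
      show g * (g⁻¹ * y * g) * g⁻¹ = y
      group
  have hgag : g⁻¹ * a * g = z := by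
    rw [ha]
    group
  have haQg : a ∈ Qg := by
    rw [hQgm, hgag]
    exact hzQ
  have hzQg : z ∈ Qg := hzmap
  have hQgC : ∀ y ∈ Qg, y * a = a * y := by
    intro y hy
    have h1 := hQC _ ((hQgm y).mp hy)
    rw [ha]
    calc y * (g * z * g⁻¹) = g * ((g⁻¹ * y * g) * z) * g⁻¹ := by group
      _ = g * (z * (g⁻¹ * y * g)) * g⁻¹ := by rw [h1]
      _ = g * z * g⁻¹ * y := by group
  have hcommg : ∀ p ∈ Qg, ∀ q ∈ Qg, p * q * p⁻¹ * q⁻¹ = 1 ∨ p * q * p⁻¹ * q⁻¹ = a := by
    intro p hp q hq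
    have e : p * q * p⁻¹ * q⁻¹ =
        g * ((g⁻¹ * p * g) * (g⁻¹ * q * g) * (g⁻¹ * p * g)⁻¹ * (g⁻¹ * q * g)⁻¹) * g⁻¹ := by
      group
    rcases hcomm _ ((hQgm p).mp hp) _ ((hQgm q).mp hq) with h | h
    · left
      rw [e, h]
      group
    · right
      rw [e, h, ha]
  have hsq : ∀ q ∈ Q, q * q = 1 ∨ q * q = z :=
    fun q hq => extra_sq Q z hzz hQC hcomm hcen q hq
  have hsqg : ∀ y ∈ Qg, y * y = 1 ∨ y * y = a := by
    intro y hy
    have e : y * y = g * ((g⁻¹ * y * g) * (g⁻¹ * y * g)) * g⁻¹ := by group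
    rcases hsq _ ((hQgm y).mp hy) with h | h
    · left
      rw [e, h]
      group
    · right
      rw [e, h, ha]
  have hQgN : ∀ c : G, c * a = a * c → ∀ y ∈ Qg, c * y * c⁻¹ ∈ Qg := by
    intro c hc y hy
    rw [hQgm]
    have hc' : (g⁻¹ * c * g) * z = z * (g⁻¹ * c * g) := by
      calc g⁻¹ * c * g * z = g⁻¹ * (c * (g * z * g⁻¹)) * g := by group
        _ = g⁻¹ * ((g * z * g⁻¹) * c) * g := by rw [← ha, hc]
        _ = z * (g⁻¹ * c * g) := by group
    have h1 := hQN _ hc' _ ((hQgm y).mp hy)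
    have e : g⁻¹ * (c * y * c⁻¹) * g =
        (g⁻¹ * c * g) * (g⁻¹ * y * g) * (g⁻¹ * c * g)⁻¹ := by group
    rw [e]
    exact h1
  obtain ⟨A, hA⟩ : ∃ A : Subgroup G, A = Q ⊓ Subgroup.centralizer ({a} : Set G) := ⟨_, rfl⟩
  obtain ⟨B, hB⟩ : ∃ B : Subgroup G, B = Qg ⊓ Subgroup.centralizer ({z} : Set G) := ⟨_, rfl⟩
  rw [← hA, ← hB] at hR ⊢
  have hAm : ∀ x : G, x ∈ A ↔ x ∈ Q ∧ x * a = a * x := by
    intro x
    rw [hA, Subgroup.mem_inf, Subgroup.mem_centralizer_singleton_iff]
  have hBm : ∀ x : G, x ∈ B ↔ x ∈ Qg ∧ x * z = z * x := by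
    intro x
    rw [hB, Subgroup.mem_inf, Subgroup.mem_centralizer_singleton_iff]
  have hEm : ∀ x : G, x ∈ E ↔ x ∈ Q ∧ x ∈ Qg := by
    intro x
    rw [hE, Subgroup.mem_inf]
  have hzE : z ∈ E := (hEm z).mpr ⟨hzQ, hzQg⟩
  have haE : a ∈ E := (hEm a).mpr ⟨hgQ, haQg⟩
  have hEA : E ≤ A := fun x hx =>
    (hAm x).mpr ⟨((hEm x).mp hx).1, hQgC x ((hEm x).mp hx).2⟩
  have hEB : E ≤ B := fun x hx =>
    (hBm x).mpr ⟨((hEm x).mp hx).2, hQC x ((hEm x).mp hx).1⟩
  have hAR : A ≤ R := by
    rw [hR]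
    exact le_sup_right
  have hBR : B ≤ R := by
    rw [hR]
    exact le_sup_left
  have hER : E ≤ R := hEA.trans hAR
  have h6 : B ⊓ A = E := by
    apply le_antisymm
    · intro x hx
      obtain ⟨hxB, hxA⟩ := Subgroup.mem_inf.mp hx
      exact (hEm x).mpr ⟨((hAm x).mp hxA).1, ((hBm x).mp hxB).1⟩
    · exact le_inf hEB hEA
  have hEsq : ∀ e ∈ E, e * e = 1 := by
    intro e he
    obtain ⟨heQ, heQg⟩ := (hEm e).mp he
    rcases hsq e heQ with h | h
    · exact h
    · rcases hsqg e heQg with h' | h'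
      · exact h'
      · exact absurd (h'.symm.trans h) hne
  have hEcomm : ∀ u ∈ E, ∀ v ∈ E, u * v * u⁻¹ * v⁻¹ = 1 := by
    intro u hu v hv
    obtain ⟨huQ, huQg⟩ := (hEm u).mp hu
    obtain ⟨hvQ, hvQg⟩ := (hEm v).mp hv
    rcases hcomm u huQ v hvQ with h | h
    · exact h
    · rcases hcommg u huQg v hvQg with h' | h'
      · exact h'
      · exact absurd (h'.symm.trans h) hne
  have h4 : Cfsg.IsElementaryAbelian 2 E := by
    refine And.intro ⟨⟨fun u v => Subtype.ext ?_⟩⟩ (fun e he => ?_)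
    · have h := hEcomm u.1 u.2 v.1 v.2
      show (u : G) * (v : G) = (v : G) * (u : G)
      calc (u : G) * (v : G)
          = ((u : G) * (v : G) * (u : G)⁻¹ * (v : G)⁻¹) * ((v : G) * (u : G)) := by group
        _ = (v : G) * (u : G) := by rw [h, one_mul]
    · rw [pow_two]
      exact hEsq e he
  obtain ⟨S, hS⟩ : ∃ S : Set G, S = (B : Set G) ∪ (A : Set G) := ⟨_, rfl⟩
  have hRS : R = Subgroup.closure S := by
    rw [hR, hS, Subgroup.closure_union, Subgroup.closure_eq, Subgroup.closure_eq]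
  have hSm : ∀ s : G, s ∈ S ↔ s ∈ B ∨ s ∈ A := by
    intro s
    rw [hS]
    exact Iff.rfl
  have hAnE : ∀ s ∈ A, ∀ e ∈ E, s * e * s⁻¹ ∈ E := by
    intro s hs e he
    obtain ⟨hsQ, hsa⟩ := (hAm s).mp hs
    obtain ⟨heQ, heQg⟩ := (hEm e).mp he
    exact (hEm _).mpr ⟨Q.mul_mem (Q.mul_mem hsQ heQ) (Q.inv_mem hsQ), hQgN s hsa e heQg⟩
  have hBnE : ∀ s ∈ B, ∀ e ∈ E, s * e * s⁻¹ ∈ E := by
    intro s hs e he
    obtain ⟨hsQg, hsz⟩ := (hBm s).mp hs
    obtain ⟨heQ, heQg⟩ := (hEm e).mp he
    exact (hEm _).mpr ⟨hQN s hsz e heQ, Qg.mul_mem (Qg.mul_mem hsQg heQg) (Qg.inv_mem hsQg)⟩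
  have hSnE : ∀ s ∈ S, s ∈ Subgroup.normalizer (E : Set G) := by
    intro s hs
    rcases (hSm s).mp hs with h | h
    · exact mem_normalizer_of_conj_le E s (hBnE s h)
    · exact mem_normalizer_of_conj_le E s (hAnE s h)
  have hABc : ∀ s ∈ A, ∀ t ∈ B, ⁅s, t⁆ ∈ E := by
    intro s hs t ht
    obtain ⟨hsQ, hsa⟩ := (hAm s).mp hs
    obtain ⟨htQg, htz⟩ := (hBm t).mp ht
    rw [commutatorElement_def]
    refine (hEm _).mpr ⟨?_, ?_⟩
    · have h1 : t * s⁻¹ * t⁻¹ ∈ Q := hQN t htz s⁻¹ (Q.inv_mem hsQ)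
      have e : s * t * s⁻¹ * t⁻¹ = s * (t * s⁻¹ * t⁻¹) := by group
      rw [e]
      exact Q.mul_mem hsQ h1
    · have h1 : s * t * s⁻¹ ∈ Qg := hQgN s hsa t htQg
      exact Qg.mul_mem h1 (Qg.inv_mem htQg)
  have hSc : ∀ s ∈ S, ∀ t ∈ S, ⁅s, t⁆ ∈ E := by
    intro s hs t ht
    rcases (hSm s).mp hs with h | h
    · rcases (hSm t).mp ht with h' | h'
      · rw [commutatorElement_def]
        rcases hcommg s ((hBm s).mp h).1 t ((hBm t).mp h').1 with h'' | h''
        · rw [h'']
          exact E.one_mem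
        · rw [h'']
          exact haE
      · rw [← commutatorElement_inv t s]
        exact E.inv_mem (hABc t h' s h)
    · rcases (hSm t).mp ht with h' | h'
      · exact hABc s h t h'
      · rw [commutatorElement_def]
        rcases hcomm s ((hAm s).mp h).1 t ((hAm t).mp h').1 with h'' | h''
        · rw [h'']
          exact E.one_mem
        · rw [h'']
          exact hzE
  have hSsq : ∀ s ∈ S, s ^ 2 ∈ E := by
    intro s hs
    rw [pow_two]
    rcases (hSm s).mp hs with h | h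
    · rcases hsqg s ((hBm s).mp h).1 with h' | h'
      · rw [h']
        exact E.one_mem
      · rw [h']
        exact haE
    · rcases hsq s ((hAm s).mp h).1 with h' | h'
      · rw [h']
        exact E.one_mem
      · rw [h']
        exact hzE
  have hRcomm' : ∀ x ∈ Subgroup.closure S, ∀ y ∈ Subgroup.closure S, ⁅x, y⁆ ∈ E :=
    comm_gens_mem_both E S hSnE hSc
  have hRsq' : ∀ x ∈ Subgroup.closure S, x ^ 2 ∈ E := sq_mem_of_gens E S hRcomm' hSsq
  rw [← hRS] at hRcomm' hRsq'
  have h5 : ∀ x ∈ R, ∀ y ∈ R, x * y * x⁻¹ * y⁻¹ ∈ E ∧ x ^ 2 ∈ E := by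
    intro x hx y hy
    have h := hRcomm' x hx y hy
    rw [commutatorElement_def] at h
    exact ⟨h, hRsq' x hx⟩
  have hVz : z ∈ V := by
    rw [hV]
    exact Subgroup.subset_closure (Set.mem_insert _ _)
  have hVa : a ∈ V := by
    rw [hV]
    exact Subgroup.subset_closure (Set.mem_insert_of_mem _ (Set.mem_singleton _))
  have hQV : ∀ q ∈ Q, ∀ v ∈ V, q * v * q⁻¹ ∈ V := by
    intro q hq
    apply conj_closure_pair_mem z a q V hV
    · have e : q * z * q⁻¹ = z := by
        rw [hQC q hq]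
        group
      rw [e]
      exact hVz
    · have e : q * a * q⁻¹ = (q * a * q⁻¹ * a⁻¹) * a := by group
      rw [e]
      rcases hcomm q hq a hgQ with h | h
      · rw [h, one_mul]
        exact hVa
      · rw [h]
        exact V.mul_mem hVz hVa
  have hQgV : ∀ y ∈ Qg, ∀ v ∈ V, y * v * y⁻¹ ∈ V := by
    intro y hy
    apply conj_closure_pair_mem z a y V hV
    · have e : y * z * y⁻¹ = (y * z * y⁻¹ * z⁻¹) * z := by group
      rw [e]
      rcases hcommg y hy z hzQg with h | h
      · rw [h, one_mul]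
        exact hVz
      · rw [h]
        exact V.mul_mem hVa hVz
    · have e : y * a * y⁻¹ = a := by
        rw [hQgC y hy]
        group
      rw [e]
      exact hVa
  obtain ⟨SX, hSX⟩ : ∃ SX : Set G, SX = (Q : Set G) ∪ (Qg : Set G) := ⟨_, rfl⟩
  have hXS : X = Subgroup.closure SX := by
    rw [hX, hSX, Subgroup.closure_union, Subgroup.closure_eq, Subgroup.closure_eq]
  have hSXm : ∀ s : G, s ∈ SX ↔ s ∈ Q ∨ s ∈ Qg := by
    intro s
    rw [hSX]
    exact Iff.rfl
  have hSXn : ∀ s ∈ SX, s ∈ Subgroup.normalizer (V : Set G) := by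
    intro s hs
    rcases (hSXm s).mp hs with h | h
    · exact mem_normalizer_of_conj_le V s (hQV s h)
    · exact mem_normalizer_of_conj_le V s (hQgV s h)
  have hSXc : ∀ s ∈ SX, ∀ e ∈ (E : Set G), ⁅s, e⁆ ∈ V := by
    intro s hs e he
    have he' : e ∈ E := he
    obtain ⟨heQ, heQg⟩ := (hEm e).mp he'
    rw [commutatorElement_def]
    rcases (hSXm s).mp hs with h | h
    · rcases hcomm s h e heQ with h' | h'
      · rw [h']
        exact V.one_mem
      · rw [h']
        exact hVz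
    · rcases hcommg s h e heQg with h' | h'
      · rw [h']
        exact V.one_mem
      · rw [h']
        exact hVa
  have hXE : ∀ x ∈ X, ∀ e ∈ E, ⁅x, e⁆ ∈ V := by
    intro x hx e he
    rw [hXS] at hx
    exact comm_gens_mem V SX (E : Set G) hSXn hSXc x hx e he
  have h7 : ⁅X, E⁆ ≤ V := Subgroup.commutator_le.mpr hXE
  have hRX : R ≤ X := by
    rw [hR, hX]
    exact sup_le (fun x hx => Subgroup.mem_sup_right ((hBm x).mp hx).1)
      (fun x hx => Subgroup.mem_sup_left ((hAm x).mp hx).1)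
  have hRz : ∀ x ∈ R, x * z = z * x := by
    have h : R ≤ Subgroup.centralizer ({z} : Set G) := by
      rw [hR]
      apply sup_le
      · intro x hx
        rw [Subgroup.mem_centralizer_singleton_iff]
        exact ((hBm x).mp hx).2
      · intro x hx
        rw [Subgroup.mem_centralizer_singleton_iff]
        exact hQC x ((hAm x).mp hx).1
    intro x hx
    exact Subgroup.mem_centralizer_singleton_iff.mp (h hx)
  have hRa : ∀ x ∈ R, x * a = a * x := by
    have h : R ≤ Subgroup.centralizer ({a} : Set G) := by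
      rw [hR]
      apply sup_le
      · intro x hx
        rw [Subgroup.mem_centralizer_singleton_iff]
        exact hQgC x ((hBm x).mp hx).1
      · intro x hx
        rw [Subgroup.mem_centralizer_singleton_iff]
        exact ((hAm x).mp hx).2
    intro x hx
    exact Subgroup.mem_centralizer_singleton_iff.mp (h hx)
  have hVc : ∀ v ∈ V, ∀ x ∈ R, x * v = v * x := by
    have h : V ≤ Subgroup.centralizer (R : Set G) := by
      rw [hV, Subgroup.closure_le]
      intro s hs
      rcases hs with hs | hs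
      · rw [hs]
        exact Subgroup.mem_centralizer_iff.mpr (fun x hx => hRz x hx)
      · rw [Set.mem_singleton_iff.mp hs]
        exact Subgroup.mem_centralizer_iff.mpr (fun x hx => hRa x hx)
    intro v hv x hx
    exact Subgroup.mem_centralizer_iff.mp (h hv) x hx
  have hVE : V ≤ E := by
    rw [hV, Subgroup.closure_le]
    intro s hs
    rcases hs with hs | hs
    · rw [hs]
      exact hzE
    · rw [Set.mem_singleton_iff.mp hs]
      exact haE
  have h1 : (Subgroup.center ↥R).map R.subtype = V := by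
    apply le_antisymm
    · intro x hx
      obtain ⟨c, hc, hcx⟩ := Subgroup.mem_map.mp hx
      have hcx' : (c : G) = x := hcx
      have hxR : x ∈ R := by
        rw [← hcx']
        exact c.2
      have hcen' : ∀ r ∈ R, r * x = x * r := by
        intro r hr
        have h := Subgroup.mem_center_iff.mp hc ⟨r, hr⟩
        have h' := congrArg Subtype.val h
        rw [← hcx']
        exact h'
      rcases large_pair_center Q z a hzz hQC hcomm hcen hself hgQ haa ha1 hne x
        (hQN x (hRz x hxR)) (hRz x hxR)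
        (fun α hα hαa => (hcen' α (hAR ((hAm α).mpr ⟨hα, hαa⟩))).symm) with h | h | h | h
      · rw [h]
        exact V.one_mem
      · rw [h]
        exact hVz
      · rw [h]
        exact hVa
      · rw [h]
        exact V.mul_mem hVz hVa
    · intro v hv
      have hvR : v ∈ R := hER (hVE hv)
      refine Subgroup.mem_map.mpr ⟨⟨v, hvR⟩, ?_, rfl⟩
      rw [Subgroup.mem_center_iff]
      intro r
      exact Subtype.ext (hVc v hv r.1 r.2)
  have hVcen : ∀ c : ↥R, (c : G) ∈ V → c ∈ Subgroup.center ↥R := by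
    intro c hc
    rw [Subgroup.mem_center_iff]
    intro r
    exact Subtype.ext (hVc c.1 hc r.1 r.2)
  have hZ2 : ∀ c : ↥R, (c : G) ∈ E → c ∈ Subgroup.upperCentralSeries ↥R 2 := by
    intro c hc
    apply (Subgroup.mem_upperCentralSeries_succ_iff (n := 1)).mpr
    intro y
    rw [Subgroup.upperCentralSeries_one]
    apply hVcen
    have h := hXE y.1 (hRX y.2) c.1 hc
    have h' := V.inv_mem h
    rw [commutatorElement_inv] at h'
    exact h'
  have h2 : E ≤ (Subgroup.upperCentralSeries ↥R 2).map R.subtype := by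
    intro e he
    exact Subgroup.mem_map.mpr ⟨⟨e, hER he⟩, hZ2 ⟨e, hER he⟩ he, rfl⟩
  have h3 : Subgroup.upperCentralSeries ↥R 3 = ⊤ := by
    rw [eq_top_iff]
    intro c _
    apply (Subgroup.mem_upperCentralSeries_succ_iff (n := 2)).mpr
    intro y
    apply hZ2
    exact hRcomm' c.1 c.2 y.1 y.2
  exact ⟨h1, h2, h3, h4, h5, h6, h7⟩

end Cfsg.Agent.Helper11
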