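import Mathlib
import Cfsg.Agent.Helper11.LargePair

set_option autoImplicit false

namespace Cfsg.Agent.Helper11

open scoped commutatorElement

/-- Conjugation by `c` preserves `closure S` as soon as it maps `S` into it. -/
theorem conj_closure_mem {G : Type*} [Group G] (S : Set G) (c : G) (W : Subgroup G)
    (hW : W = Subgroup.closure S) (h : ∀ s ∈ S, c * s * c⁻¹ ∈ W) :
    ∀ x ∈ W, c * x * c⁻¹ ∈ W := by
  intro x hx
  rw [hW] at hx
  induction hx using Subgroup.closure_induction with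
  | mem s hs => exact h s hs
  | one =>
    rw [mul_one, mul_inv_cancel]
    exact W.one_mem
  | mul u v hu hv ihu ihv =>
    have e : c * (u * v) * c⁻¹ = (c * u * c⁻¹) * (c * v * c⁻¹) := by group
    rw [e]
    exact W.mul_mem ihu ihv
  | inv u hu ihu =>
    have e : c * u⁻¹ * c⁻¹ = (c * u * c⁻¹)⁻¹ := by group
    rw [e]
    exact W.inv_mem ihu

theorem eq_one_of_two_pow_of_cube {D : Type*} [Group D] (x : D) (k : ℕ) (h2 : x ^ 2 ^ k = 1)
    (h3 : x ^ 3 = 1) : x = 1 := by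
  have d2 : orderOf x ∣ 2 ^ k := orderOf_dvd_of_pow_eq_one h2
  have d3 : orderOf x ∣ 3 := orderOf_dvd_of_pow_eq_one h3
  have hc : Nat.Coprime (2 ^ k) 3 := Nat.Coprime.pow_left k (by decide)
  have h1 : orderOf x ∣ 1 := by
    have h := Nat.dvd_gcd d2 d3
    rw [hc.gcd_eq_one] at h
    exact h
  exact orderOf_eq_one_iff.mp (Nat.dvd_one.mp h1)

/-- Two permutations of a three-point set agreeing at two points are equal. -/
theorem perm_eq_of_three {Ω : Type*} (p₁ p₂ p₃ : Ω) (hall : ∀ x : Ω, x = p₁ ∨ x = p₂ ∨ x = p₃)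
    (σ τ : Equiv.Perm Ω) (h1 : σ p₁ = τ p₁) (h2 : σ p₂ = τ p₂) : σ = τ := by
  have h3 : σ p₃ = τ p₃ := by
    by_cases h13 : p₃ = p₁
    · rw [h13]
      exact h1
    by_cases h23 : p₃ = p₂
    · rw [h23]
      exact h2
    rcases hall (τ.symm (σ p₃)) with h | h | h
    · exfalso
      have e := congrArg τ h
      rw [Equiv.apply_symm_apply] at e
      rw [← h1] at e
      exact h13 (σ.injective e)
    · exfalso
      have e := congrArg τ h
      rw [Equiv.apply_symm_apply] at e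
      rw [← h2] at e
      exact h23 (σ.injective e)
    · have e := congrArg τ h
      rw [Equiv.apply_symm_apply] at e
      exact e
  apply Equiv.ext
  intro x
  rcases hall x with h | h | h
  · rw [h]
    exact h1
  · rw [h]
    exact h2
  · rw [h]
    exact h3

set_option maxRecDepth 100000 in
/-- `S₃` has no non-trivial normal `2`-subgroup (element form). -/
theorem perm3_normal_two (τ : Equiv.Perm (Fin 3)) (hτ : τ ≠ 1) :
    ∃ σ : Equiv.Perm (Fin 3), τ * (σ * τ * σ⁻¹) ≠ 1 ∧ (τ * (σ * τ * σ⁻¹)) ^ 3 = 1 := by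
  revert τ
  decide

/-- The six candidate elements of a group generated by two involutions with a braid relation. -/
def sixP {D : Type*} [Group D] (s t d : D) : Prop :=
  d = 1 ∨ d = s ∨ d = t ∨ d = s * t ∨ d = t * s ∨ d = s * t * s

/-- The elements whose left translations (and those of their inverses) preserve `sixP`. -/
def sixSub {D : Type*} [Group D] (s t : D) : Subgroup D where
  carrier := {k | ∀ d, sixP s t d → sixP s t (k * d) ∧ sixP s t (k⁻¹ * d)}
  mul_mem' := by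
    intro x y hx hy d hd
    constructor
    · rw [mul_assoc]
      exact (hx _ (hy d hd).1).1
    · rw [mul_inv_rev, mul_assoc]
      exact (hy _ (hx d hd).2).2
  one_mem' := by
    intro d hd
    rw [one_mul, inv_one, one_mul]
    exact ⟨hd, hd⟩
  inv_mem' := by
    intro x hx d hd
    rw [inv_inv]
    exact ⟨(hx d hd).2, (hx d hd).1⟩

theorem mem_sixSub {D : Type*} [Group D] (s t k : D) :
    k ∈ sixSub s t ↔ ∀ d, sixP s t d → sixP s t (k * d) ∧ sixP s t (k⁻¹ * d) := Iff.rfl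

theorem sixP_all {D : Type*} [Group D] (s t : D) (hs : s * s = 1) (ht : t * t = 1)
    (hb : s * t * s = t * s * t) (hgen : ∀ K : Subgroup D, s ∈ K → t ∈ K → K = ⊤) :
    ∀ d : D, sixP s t d := by
  have hsi : s⁻¹ = s := inv_eq_of_mul_eq_one_left hs
  have hti : t⁻¹ = t := inv_eq_of_mul_eq_one_left ht
  have hsT : ∀ d, sixP s t d → sixP s t (s * d) := by
    intro d hd
    rcases hd with h | h | h | h | h | h
    · rw [h, mul_one]
      exact Or.inr (Or.inl rfl)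
    · rw [h, hs]
      exact Or.inl rfl
    · rw [h]
      exact Or.inr (Or.inr (Or.inr (Or.inl rfl)))
    · rw [h, ← mul_assoc, hs, one_mul]
      exact Or.inr (Or.inr (Or.inl rfl))
    · rw [h, ← mul_assoc]
      exact Or.inr (Or.inr (Or.inr (Or.inr (Or.inr rfl))))
    · rw [h, mul_assoc s t s, ← mul_assoc s s, hs, one_mul]
      exact Or.inr (Or.inr (Or.inr (Or.inr (Or.inl rfl))))
  have htT : ∀ d, sixP s t d → sixP s t (t * d) := by
    intro d hd
    rcases hd with h | h | h | h | h | h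
    · rw [h, mul_one]
      exact Or.inr (Or.inr (Or.inl rfl))
    · rw [h]
      exact Or.inr (Or.inr (Or.inr (Or.inr (Or.inl rfl))))
    · rw [h, ht]
      exact Or.inl rfl
    · rw [h, ← mul_assoc, ← hb]
      exact Or.inr (Or.inr (Or.inr (Or.inr (Or.inr rfl))))
    · rw [h, ← mul_assoc, ht, one_mul]
      exact Or.inr (Or.inl rfl)
    · rw [h, hb, mul_assoc t s t, ← mul_assoc t t, ht, one_mul]
      exact Or.inr (Or.inr (Or.inr (Or.inl rfl)))
  have hsK : s ∈ sixSub s t := by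
    rw [mem_sixSub]
    intro d hd
    rw [hsi]
    exact ⟨hsT d hd, hsT d hd⟩
  have htK : t ∈ sixSub s t := by
    rw [mem_sixSub]
    intro d hd
    rw [hti]
    exact ⟨htT d hd, htT d hd⟩
  have hK := hgen (sixSub s t) hsK htK
  intro d
  have hd : d ∈ sixSub s t := by
    rw [hK]
    exact Subgroup.mem_top d
  have h := ((mem_sixSub s t d).mp hd 1 (Or.inl rfl)).1
  rw [mul_one] at h
  exact h

theorem card_le_six_of_sixP {D : Type*} [Group D] (s t : D) (hall : ∀ d : D, sixP s t d) :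
    Nat.card D ≤ 6 := by
  have hsurj : Function.Surjective (![1, s, t, s * t, t * s, s * t * s] : Fin 6 → D) := by
    intro d
    rcases hall d with h | h | h | h | h | h
    · exact ⟨0, h.symm⟩
    · exact ⟨1, h.symm⟩
    · exact ⟨2, h.symm⟩
    · exact ⟨3, h.symm⟩
    · exact ⟨4, h.symm⟩
    · exact ⟨5, h.symm⟩
  have h := Nat.card_le_card_of_surjective _ hsurj
  rw [Nat.card_fin] at h
  exact h

/-- A subgroup permuting three distinct elements `z, a, z * a` by conjugation, inducing every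
permutation, maps onto `S₃` with the centralizer of `z` and `a` in the kernel. -/
theorem exists_perm3_hom {G : Type*} [Group G] [Finite G] (X : Subgroup G) (z a : G)
    (hza : z ≠ a) (hz1 : z ≠ 1) (ha1 : a ≠ 1)
    (hpres : ∀ x ∈ X, ∀ v : G, v ∈ ({z, a, z * a} : Set G) →
      x * v * x⁻¹ ∈ ({z, a, z * a} : Set G))
    (hfull : ∀ u ∈ ({z, a, z * a} : Set G), ∀ v ∈ ({z, a, z * a} : Set G), u ≠ v →
      ∃ w ∈ X, w * z * w⁻¹ = u ∧ w * a * w⁻¹ = v) :
    ∃ Φ : ↥X →* Equiv.Perm (Fin 3), Function.Surjective Φ ∧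
      ∀ x : ↥X, (x : G) * z = z * (x : G) → (x : G) * a = a * (x : G) → Φ x = 1 := by
  classical
  obtain ⟨Ω, hΩ⟩ : ∃ Ω : Set G, Ω = {z, a, z * a} := ⟨_, rfl⟩
  rw [← hΩ] at hpres hfull
  have hzΩ : z ∈ Ω := by
    rw [hΩ]
    exact Set.mem_insert _ _
  have haΩ : a ∈ Ω := by
    rw [hΩ]
    exact Set.mem_insert_of_mem _ (Set.mem_insert _ _)
  have hzaΩ : z * a ∈ Ω := by
    rw [hΩ]
    exact Set.mem_insert_of_mem _ (Set.mem_insert_of_mem _ (Set.mem_singleton _))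
  have hΩm : ∀ v ∈ Ω, v = z ∨ v = a ∨ v = z * a := by
    intro v hv
    rw [hΩ] at hv
    rcases hv with h | h | h
    · exact Or.inl h
    · exact Or.inr (Or.inl h)
    · exact Or.inr (Or.inr (Set.mem_singleton_iff.mp h))
  have hz_za : z ≠ z * a := by
    intro h
    apply ha1
    have h' : z * 1 = z * a := by
      rw [mul_one]
      exact h
    exact (mul_left_cancel h').symm
  have ha_za : a ≠ z * a := by
    intro h
    apply hz1
    have h' : 1 * a = z * a := by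
      rw [one_mul]
      exact h
    exact (mul_right_cancel h').symm
  have hcard : Nat.card ↥Ω = 3 := by
    rw [Nat.card_coe_set_eq, hΩ]
    exact Set.ncard_eq_three.mpr ⟨z, a, z * a, hza, hz_za, ha_za, rfl⟩
  letI act : MulAction ↥X ↥Ω :=
    { smul := fun x v => ⟨(x : G) * (v : G) * (x : G)⁻¹, hpres x.1 x.2 v.1 v.2⟩
      one_smul := fun v => Subtype.ext (by
        show (1 : G) * (v : G) * (1 : G)⁻¹ = (v : G)
        group)
      mul_smul := fun x y v => Subtype.ext (by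
        show ((x : G) * (y : G)) * (v : G) * ((x : G) * (y : G))⁻¹ =
          (x : G) * ((y : G) * (v : G) * (y : G)⁻¹) * (x : G)⁻¹
        group) }
  have hsmul : ∀ (x : ↥X) (v : ↥Ω),
      ((MulAction.toPermHom ↥X ↥Ω x) v : G) = (x : G) * (v : G) * (x : G)⁻¹ :=
    fun x v => rfl
  obtain ⟨pz, hpz⟩ : ∃ p : ↥Ω, (p : G) = z := ⟨⟨z, hzΩ⟩, rfl⟩
  obtain ⟨pa, hpa⟩ : ∃ p : ↥Ω, (p : G) = a := ⟨⟨a, haΩ⟩, rfl⟩
  obtain ⟨pza, hpza⟩ : ∃ p : ↥Ω, (p : G) = z * a := ⟨⟨z * a, hzaΩ⟩, rfl⟩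
  have hall : ∀ v : ↥Ω, v = pz ∨ v = pa ∨ v = pza := by
    intro v
    rcases hΩm v.1 v.2 with h | h | h
    · exact Or.inl (Subtype.ext (h.trans hpz.symm))
    · exact Or.inr (Or.inl (Subtype.ext (h.trans hpa.symm)))
    · exact Or.inr (Or.inr (Subtype.ext (h.trans hpza.symm)))
  have hφsurj : Function.Surjective (MulAction.toPermHom ↥X ↥Ω) := by
    intro σ
    have hne : ((σ pz : ↥Ω) : G) ≠ ((σ pa : ↥Ω) : G) := by
      intro h
      have h' : σ pz = σ pa := Subtype.ext h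
      have h'' : pz = pa := σ.injective h'
      apply hza
      rw [← hpz, ← hpa, h'']
    obtain ⟨w, hwX, hwz, hwa⟩ := hfull _ (σ pz).2 _ (σ pa).2 hne
    refine ⟨⟨w, hwX⟩, ?_⟩
    apply perm_eq_of_three pz pa pza hall
    · apply Subtype.ext
      rw [hsmul, hpz]
      exact hwz
    · apply Subtype.ext
      rw [hsmul, hpa]
      exact hwa
  haveI : Fintype ↥Ω := Fintype.ofFinite _
  have hcard' : Fintype.card ↥Ω = 3 := by
    rw [← Nat.card_eq_fintype_card]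
    exact hcard
  obtain ⟨e⟩ : Nonempty (↥Ω ≃ Fin 3) := ⟨Fintype.equivFinOfCardEq hcard'⟩
  refine ⟨(e.permCongrHom.toMonoidHom).comp (MulAction.toPermHom ↥X ↥Ω), ?_, ?_⟩
  · intro σ
    obtain ⟨τ, hτ⟩ := e.permCongrHom.surjective σ
    obtain ⟨x, hx⟩ := hφsurj τ
    refine ⟨x, ?_⟩
    show e.permCongrHom (MulAction.toPermHom ↥X ↥Ω x) = σ
    rw [hx, hτ]
  · intro x hxz hxa
    have h1 : MulAction.toPermHom ↥X ↥Ω x = 1 := by
      apply Equiv.ext
      intro v
      apply Subtype.ext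
      rw [hsmul]
      show (x : G) * (v : G) * (x : G)⁻¹ = (v : G)
      rcases hΩm v.1 v.2 with h | h | h
      · rw [h, hxz]
        group
      · rw [h, hxa]
        group
      · rw [h]
        calc (x : G) * (z * a) * (x : G)⁻¹ = ((x : G) * z) * a * (x : G)⁻¹ := by group
          _ = z * ((x : G) * a) * (x : G)⁻¹ := by rw [hxz]; group
          _ = z * (a * (x : G)) * (x : G)⁻¹ := by rw [hxa]
          _ = z * a := by group
    show e.permCongrHom (MulAction.toPermHom ↥X ↥Ω x) = 1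
    rw [h1, map_one]

/-- For a large extraspecial pair, `X = ⟨Q, Q^g⟩` induces `S₃` on `V` with kernel `R`. -/
theorem large_pair_sym3 {G : Type*} [Group G] [Finite G] (Q : Subgroup G)
    (hQ : Cfsg.IsLargeExtraspecial Q) (z : G)
    (hz : ((Subgroup.center ↥Q).map Q.subtype) = Subgroup.zpowers z) (hz2 : orderOf z = 2)
    (g : G) (hgH : g ∉ Subgroup.centralizer ({z} : Set G)) (hgQ : g * z * g⁻¹ ∈ Q)
    (V X R E : Subgroup G) (hV : V = Subgroup.closure ({z, g * z * g⁻¹} : Set G))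
    (hX : X = Q ⊔ (Q).map (MulAut.conj g).toMonoidHom)
    (hR : R = ((Q).map (MulAut.conj g).toMonoidHom ⊓ Subgroup.centralizer ({z} : Set G)) ⊔
      (Q ⊓ Subgroup.centralizer ({g * z * g⁻¹} : Set G)))
    (hE : E = Q ⊓ (Q).map (MulAut.conj g).toMonoidHom) :
    R = X ⊓ Subgroup.centralizer (V : Set G) ∧ R = (Cfsg.pCore 2 ↥X).map X.subtype ∧
    (∃ h : (R.subgroupOf X).Normal, Nonempty (↥X ⧸ R.subgroupOf X ≃* Equiv.Perm (Fin 3))) ∧
    Subgroup.normalizer (V : Set G) =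
      X ⊔ (Subgroup.centralizer ({z} : Set G) ⊓ Subgroup.centralizer (V : Set G)) ∧
    (∀ y ∈ Subgroup.normalizer (V : Set G), ∀ x ∈ X, y * x * y⁻¹ ∈ X) ∧
    R ≤ Subgroup.centralizer ({z} : Set G) ⊓ Subgroup.centralizer (V : Set G) ∧
    (∀ x ∈ X, ∀ c ∈ Subgroup.centralizer ({z} : Set G) ⊓ Subgroup.centralizer (V : Set G),
      x * c * x⁻¹ * c⁻¹ ∈ R) ∧
    X ⊓ (Subgroup.centralizer ({z} : Set G) ⊓ Subgroup.centralizer (V : Set G)) = R := by
  obtain ⟨-, -, -, hEea, hRE, -, -⟩ :=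
    large_pair_struct Q hQ z hz hz2 g hgH hgQ V X R E hV hX hR hE
  obtain ⟨hL1, hL2, hL3, -⟩ := hQ
  obtain ⟨z₀, hzQ, hzz, hz1, hQC, hQN, hcomm, hcen, hself, hZc⟩ :=
    large_extra_setup Q hL1 hL2 hL3
  have hzne : z ≠ 1 := by
    intro h
    rw [h, orderOf_one] at hz2
    exact absurd hz2 (by norm_num)
  have hz0 : z₀ = z := by
    have h1 : z ∈ (Subgroup.center ↥Q).map Q.subtype := by
      rw [hz]
      exact Subgroup.mem_zpowers z
    rcases (hZc z).mp h1 with h | h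
    · exact absurd h hzne
    · exact h.symm
  rw [hz0] at hzQ hzz hz1 hQC hQN hcomm hcen hself hZc
  obtain ⟨a, ha⟩ : ∃ a : G, a = g * z * g⁻¹ := ⟨_, rfl⟩
  rw [← ha] at hgQ hV hR
  have hne : a ≠ z := by
    intro h
    apply hgH
    rw [Subgroup.mem_centralizer_singleton_iff]
    calc g * z = (g * z * g⁻¹) * g := by group
      _ = z * g := by rw [← ha, h]
  have haa : a * a = 1 := by
    rw [ha]
    calc g * z * g⁻¹ * (g * z * g⁻¹) = g * (z * z) * g⁻¹ := by group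
      _ = 1 := by rw [hzz]; group
  have ha1 : a ≠ 1 := by
    intro h
    apply hz1
    calc z = g⁻¹ * (g * z * g⁻¹) * g := by group
      _ = 1 := by rw [← ha, h]; group
  have hself' : ∀ c : G, (∀ q ∈ Q, c * q = q * c) → c ∈ Q := by
    intro c hc
    rcases hself c hc with h | h
    · rw [h]; exact Q.one_mem
    · rw [h]; exact hzQ
  obtain ⟨hzmap, hfull⟩ := symp_main Q z hzQ hzz hz1 hL1.1.1 hQC hQN hcomm
    (fun ζ hζ h _ => hcen ζ hζ h) hself' g a ha hgQ hne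
  obtain ⟨Qg, hQg⟩ : ∃ Qg : Subgroup G, Qg = Q.map (MulAut.conj g).toMonoidHom := ⟨_, rfl⟩
  rw [← hQg] at hX hR hzmap hfull
  rw [← hX, ← hV] at hfull
  have hQgm : ∀ y : G, y ∈ Qg ↔ g⁻¹ * y * g ∈ Q := by
    intro y
    rw [hQg]
    constructor
    · intro hy
      obtain ⟨q, hq, hqy⟩ := Subgroup.mem_map.mp hy
      have e : g * q * g⁻¹ = y := hqy
      rw [← e]
      have e2 : g⁻¹ * (g * q * g⁻¹) * g = q := by group
      rw [e2]
      exact hq
    · intro hy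
      refine Subgroup.mem_map.mpr ⟨g⁻¹ * y * g, hy, ?_⟩
      show g * (g⁻¹ * y * g) * g⁻¹ = y
      group
  have hgag : g⁻¹ * a * g = z := by
    rw [ha]
    group
  have haQg : a ∈ Qg := by
    rw [hQgm, hgag]
    exact hzQ
  have hzQg : z ∈ Qg := hzmap
  have hQgC : ∀ y ∈ Qg, y * a = a * y := by
    intro y hy
    have h1 := hQC _ ((hQgm y).mp hy)
    rw [ha]
    calc y * (g * z * g⁻¹) = g * ((g⁻¹ * y * g) * z) * g⁻¹ := by group
      _ = g * (z * (g⁻¹ * y * g)) * g⁻¹ := by rw [h1]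
      _ = g * z * g⁻¹ * y := by group
  have hcommg : ∀ p ∈ Qg, ∀ q ∈ Qg, p * q * p⁻¹ * q⁻¹ = 1 ∨ p * q * p⁻¹ * q⁻¹ = a := by
    intro p hp q hq
    have e : p * q * p⁻¹ * q⁻¹ =
        g * ((g⁻¹ * p * g) * (g⁻¹ * q * g) * (g⁻¹ * p * g)⁻¹ * (g⁻¹ * q * g)⁻¹) * g⁻¹ := by
      group
    rcases hcomm _ ((hQgm p).mp hp) _ ((hQgm q).mp hq) with h | h
    · left
      rw [e, h]
      group
    · right
      rw [e, h, ha]
  have hsq : ∀ q ∈ Q, q * q = 1 ∨ q * q = z :=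
    fun q hq => extra_sq Q z hzz hQC hcomm hcen q hq
  have hsqg : ∀ y ∈ Qg, y * y = 1 ∨ y * y = a := by
    intro y hy
    have e : y * y = g * ((g⁻¹ * y * g) * (g⁻¹ * y * g)) * g⁻¹ := by group
    rcases hsq _ ((hQgm y).mp hy) with h | h
    · left
      rw [e, h]
      group
    · right
      rw [e, h, ha]
  have hQgN : ∀ c : G, c * a = a * c → ∀ y ∈ Qg, c * y * c⁻¹ ∈ Qg := by
    intro c hc y hy
    rw [hQgm]
    have hc' : (g⁻¹ * c * g) * z = z * (g⁻¹ * c * g) := by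
      calc g⁻¹ * c * g * z = g⁻¹ * (c * (g * z * g⁻¹)) * g := by group
        _ = g⁻¹ * ((g * z * g⁻¹) * c) * g := by rw [← ha, hc]
        _ = z * (g⁻¹ * c * g) := by group
    have h1 := hQN _ hc' _ ((hQgm y).mp hy)
    have e : g⁻¹ * (c * y * c⁻¹) * g =
        (g⁻¹ * c * g) * (g⁻¹ * y * g) * (g⁻¹ * c * g)⁻¹ := by group
    rw [e]
    exact h1
  obtain ⟨A, hA⟩ : ∃ A : Subgroup G, A = Q ⊓ Subgroup.centralizer ({a} : Set G) := ⟨_, rfl⟩
  obtain ⟨B, hB⟩ : ∃ B : Subgroup G, B = Qg ⊓ Subgroup.centralizer ({z} : Set G) := ⟨_, rfl⟩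
  rw [← hA, ← hB] at hR
  have hAm : ∀ x : G, x ∈ A ↔ x ∈ Q ∧ x * a = a * x := by
    intro x
    rw [hA, Subgroup.mem_inf, Subgroup.mem_centralizer_singleton_iff]
  have hBm : ∀ x : G, x ∈ B ↔ x ∈ Qg ∧ x * z = z * x := by
    intro x
    rw [hB, Subgroup.mem_inf, Subgroup.mem_centralizer_singleton_iff]
  have hAR : A ≤ R := by
    rw [hR]
    exact le_sup_right
  have hBR : B ≤ R := by
    rw [hR]
    exact le_sup_left
  obtain ⟨S, hS⟩ : ∃ S : Set G, S = (B : Set G) ∪ (A : Set G) := ⟨_, rfl⟩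
  have hRS : R = Subgroup.closure S := by
    rw [hR, hS, Subgroup.closure_union, Subgroup.closure_eq, Subgroup.closure_eq]
  have hSm : ∀ s : G, s ∈ S ↔ s ∈ B ∨ s ∈ A := by
    intro s
    rw [hS]
    exact Iff.rfl
  have hVz : z ∈ V := by
    rw [hV]
    exact Subgroup.subset_closure (Set.mem_insert _ _)
  have hVa : a ∈ V := by
    rw [hV]
    exact Subgroup.subset_closure (Set.mem_insert_of_mem _ (Set.mem_singleton _))
  have hQV : ∀ q ∈ Q, ∀ v ∈ V, q * v * q⁻¹ ∈ V := by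
    intro q hq
    apply conj_closure_pair_mem z a q V hV
    · have e : q * z * q⁻¹ = z := by
        rw [hQC q hq]
        group
      rw [e]
      exact hVz
    · have e : q * a * q⁻¹ = (q * a * q⁻¹ * a⁻¹) * a := by group
      rw [e]
      rcases hcomm q hq a hgQ with h | h
      · rw [h, one_mul]
        exact hVa
      · rw [h]
        exact V.mul_mem hVz hVa
  have hQgV : ∀ y ∈ Qg, ∀ v ∈ V, y * v * y⁻¹ ∈ V := by
    intro y hy
    apply conj_closure_pair_mem z a y V hV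
    · have e : y * z * y⁻¹ = (y * z * y⁻¹ * z⁻¹) * z := by group
      rw [e]
      rcases hcommg y hy z hzQg with h | h
      · rw [h, one_mul]
        exact hVz
      · rw [h]
        exact V.mul_mem hVa hVz
    · have e : y * a * y⁻¹ = a := by
        rw [hQgC y hy]
        group
      rw [e]
      exact hVa
  obtain ⟨SX, hSX⟩ : ∃ SX : Set G, SX = (Q : Set G) ∪ (Qg : Set G) := ⟨_, rfl⟩
  have hXS : X = Subgroup.closure SX := by
    rw [hX, hSX, Subgroup.closure_union, Subgroup.closure_eq, Subgroup.closure_eq]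
  have hSXm : ∀ s : G, s ∈ SX ↔ s ∈ Q ∨ s ∈ Qg := by
    intro s
    rw [hSX]
    exact Iff.rfl
  have hSXn : ∀ s ∈ SX, s ∈ Subgroup.normalizer (V : Set G) := by
    intro s hs
    rcases (hSXm s).mp hs with h | h
    · exact mem_normalizer_of_conj_le V s (hQV s h)
    · exact mem_normalizer_of_conj_le V s (hQgV s h)
  have hRX : R ≤ X := by
    rw [hR, hX]
    exact sup_le (fun x hx => Subgroup.mem_sup_right ((hBm x).mp hx).1)
      (fun x hx => Subgroup.mem_sup_left ((hAm x).mp hx).1)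
  have hRz : ∀ x ∈ R, x * z = z * x := by
    have h : R ≤ Subgroup.centralizer ({z} : Set G) := by
      rw [hR]
      apply sup_le
      · intro x hx
        rw [Subgroup.mem_centralizer_singleton_iff]
        exact ((hBm x).mp hx).2
      · intro x hx
        rw [Subgroup.mem_centralizer_singleton_iff]
        exact hQC x ((hAm x).mp hx).1
    intro x hx
    exact Subgroup.mem_centralizer_singleton_iff.mp (h hx)
  have hRa : ∀ x ∈ R, x * a = a * x := by
    have h : R ≤ Subgroup.centralizer ({a} : Set G) := by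
      rw [hR]
      apply sup_le
      · intro x hx
        rw [Subgroup.mem_centralizer_singleton_iff]
        exact hQgC x ((hBm x).mp hx).1
      · intro x hx
        rw [Subgroup.mem_centralizer_singleton_iff]
        exact ((hAm x).mp hx).2
    intro x hx
    exact Subgroup.mem_centralizer_singleton_iff.mp (h hx)
  -- new material
  have haz : a * z = z * a := hQC a hgQ
  have hV4 : ∀ v ∈ V, v = 1 ∨ v = z ∨ v = a ∨ v = z * a := by
    intro v hv
    rw [hV] at hv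
    exact four_closure z a hzz haa haz v hv
  have hzinv : z⁻¹ = z := inv_eq_of_mul_eq_one_left hzz
  have hza1 : z * a ≠ 1 := by
    intro h
    apply hne
    calc a = z⁻¹ * (z * a) := by group
      _ = z := by rw [h, mul_one, hzinv]
  have hCV : ∀ c : G, c * z = z * c → c * a = a * c → ∀ v ∈ V, c * v = v * c := by
    intro c hcz hca v hv
    rcases hV4 v hv with h | h | h | h
    · rw [h, mul_one, one_mul]
    · rw [h]
      exact hcz
    · rw [h]
      exact hca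
    · rw [h]
      calc c * (z * a) = (c * z) * a := by group
        _ = (z * c) * a := by rw [hcz]
        _ = z * (c * a) := by group
        _ = z * (a * c) := by rw [hca]
        _ = z * a * c := by group
  have hVcent : ∀ c : G, c ∈ Subgroup.centralizer (V : Set G) ↔
      c * z = z * c ∧ c * a = a * c := by
    intro c
    rw [Subgroup.mem_centralizer_iff]
    constructor
    · intro h
      exact ⟨(h z hVz).symm, (h a hVa).symm⟩
    · rintro ⟨h1, h2⟩
      exact fun v hv => (hCV c h1 h2 v hv).symm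
  have hCVmem : ∀ c : G,
      c ∈ Subgroup.centralizer ({z} : Set G) ⊓ Subgroup.centralizer (V : Set G) ↔
      c * z = z * c ∧ c * a = a * c := by
    intro c
    rw [Subgroup.mem_inf, hVcent]
    constructor
    · rintro ⟨-, h⟩
      exact h
    · intro h
      exact ⟨Subgroup.mem_centralizer_singleton_iff.mpr h.1, h⟩
  have hQc : ∀ q ∈ Q, ∀ c : G, c * z = z * c → c * a = a * c → ⁅q, c⁆ ∈ A := by
    intro q hq c hcz hca
    rw [commutatorElement_def]
    have h1 : c * q⁻¹ * c⁻¹ ∈ Q := hQN c hcz q⁻¹ (Q.inv_mem hq)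
    have hmem : q * c * q⁻¹ * c⁻¹ ∈ Q := by
      have e : q * c * q⁻¹ * c⁻¹ = q * (c * q⁻¹ * c⁻¹) := by group
      rw [e]
      exact Q.mul_mem hq h1
    refine (hAm _).mpr ⟨hmem, ?_⟩
    have h2 : q⁻¹ * a * q ∈ V := by
      have h := hQV q⁻¹ (Q.inv_mem hq) a hVa
      rw [inv_inv] at h
      exact h
    have h3 : c * (q⁻¹ * a * q) = (q⁻¹ * a * q) * c := hCV c hcz hca _ h2
    have hci : c⁻¹ * a = a * c⁻¹ := by
      calc c⁻¹ * a = c⁻¹ * (a * c) * c⁻¹ := by group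
        _ = c⁻¹ * (c * a) * c⁻¹ := by rw [hca]
        _ = a * c⁻¹ := by group
    calc q * c * q⁻¹ * c⁻¹ * a = q * c * q⁻¹ * (c⁻¹ * a) := by group
      _ = q * c * q⁻¹ * (a * c⁻¹) := by rw [hci]
      _ = q * (c * (q⁻¹ * a * q)) * q⁻¹ * c⁻¹ := by group
      _ = q * ((q⁻¹ * a * q) * c) * q⁻¹ * c⁻¹ := by rw [h3]
      _ = a * (q * c * q⁻¹ * c⁻¹) := by group
  have hQgc : ∀ y ∈ Qg, ∀ c : G, c * z = z * c → c * a = a * c → ⁅y, c⁆ ∈ B := by
    intro y hy c hcz hca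
    rw [commutatorElement_def]
    have h1 : c * y⁻¹ * c⁻¹ ∈ Qg := hQgN c hca y⁻¹ (Qg.inv_mem hy)
    have hmem : y * c * y⁻¹ * c⁻¹ ∈ Qg := by
      have e : y * c * y⁻¹ * c⁻¹ = y * (c * y⁻¹ * c⁻¹) := by group
      rw [e]
      exact Qg.mul_mem hy h1
    refine (hBm _).mpr ⟨hmem, ?_⟩
    have h2 : y⁻¹ * z * y ∈ V := by
      have h := hQgV y⁻¹ (Qg.inv_mem hy) z hVz
      rw [inv_inv] at h
      exact h
    have h3 : c * (y⁻¹ * z * y) = (y⁻¹ * z * y) * c := hCV c hcz hca _ h2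
    have hci : c⁻¹ * z = z * c⁻¹ := by
      calc c⁻¹ * z = c⁻¹ * (z * c) * c⁻¹ := by group
        _ = c⁻¹ * (c * z) * c⁻¹ := by rw [hcz]
        _ = z * c⁻¹ := by group
    calc y * c * y⁻¹ * c⁻¹ * z = y * c * y⁻¹ * (c⁻¹ * z) := by group
      _ = y * c * y⁻¹ * (z * c⁻¹) := by rw [hci]
      _ = y * (c * (y⁻¹ * z * y)) * y⁻¹ * c⁻¹ := by group
      _ = y * ((y⁻¹ * z * y) * c) * y⁻¹ * c⁻¹ := by rw [h3]
      _ = z * (y * c * y⁻¹ * c⁻¹) := by group
  have hScent : ∀ r ∈ S, r * z = z * r ∧ r * a = a * r := by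
    intro r hr
    rcases (hSm r).mp hr with h | h
    · exact ⟨((hBm r).mp h).2, hQgC r ((hBm r).mp h).1⟩
    · exact ⟨hQC r ((hAm r).mp h).1, ((hAm r).mp h).2⟩
  have hSR : ∀ r ∈ S, r ∈ R := by
    intro r hr
    rcases (hSm r).mp hr with h | h
    · exact hBR h
    · exact hAR h
  have hSXnR : ∀ s ∈ SX, s ∈ Subgroup.normalizer (R : Set G) := by
    intro s hs
    apply mem_normalizer_of_conj_le R s
    apply conj_closure_mem S s R hRS
    intro r hr
    obtain ⟨hrz, hra⟩ := hScent r hr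
    have e : s * r * s⁻¹ = ⁅s, r⁆ * r := by
      rw [commutatorElement_def]
      group
    rw [e]
    rcases (hSXm s).mp hs with h | h
    · exact R.mul_mem (hAR (hQc s h r hrz hra)) (hSR r hr)
    · exact R.mul_mem (hBR (hQgc s h r hrz hra)) (hSR r hr)
  have hXnR : X ≤ Subgroup.normalizer (R : Set G) := by
    rw [hXS, Subgroup.closure_le]
    exact hSXnR
  have hRn : ∀ x ∈ X, ∀ r ∈ R, x * r * x⁻¹ ∈ R := by
    intro x hx r hr
    exact (Subgroup.mem_normalizer_iff.mp (hXnR hx) r).mp hr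
  have hXnV : X ≤ Subgroup.normalizer (V : Set G) := by
    rw [hXS, Subgroup.closure_le]
    exact hSXn
  have hXV : ∀ x ∈ X, ∀ v ∈ V, x * v * x⁻¹ ∈ V := by
    intro x hx v hv
    exact (Subgroup.mem_normalizer_iff.mp (hXnV hx) v).mp hv
  obtain ⟨q₀, hq₀, hq₀a⟩ : ∃ q₀ ∈ Q, q₀ * a ≠ a * q₀ := by
    by_contra hcon
    push_neg at hcon
    rcases hcen a hgQ hcon with h | h
    · exact ha1 h
    · exact hne h
  obtain ⟨y₀, hy₀, hy₀z⟩ : ∃ y₀ ∈ Qg, y₀ * z ≠ z * y₀ := by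
    by_contra hcon
    push_neg at hcon
    have hmem : g⁻¹ * z * g ∈ Q := (hQgm z).mp hzQg
    have hc : ∀ q ∈ Q, q * (g⁻¹ * z * g) = (g⁻¹ * z * g) * q := by
      intro q hq
      have hq' : g * q * g⁻¹ ∈ Qg := by
        rw [hQgm]
        have e : g⁻¹ * (g * q * g⁻¹) * g = q := by group
        rw [e]
        exact hq
      have h := hcon _ hq'
      calc q * (g⁻¹ * z * g) = g⁻¹ * ((g * q * g⁻¹) * z) * g := by group
        _ = g⁻¹ * (z * (g * q * g⁻¹)) * g := by rw [h]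
        _ = (g⁻¹ * z * g) * q := by group
    rcases hcen _ hmem hc with h | h
    · apply hz1
      calc z = g * (g⁻¹ * z * g) * g⁻¹ := by group
        _ = 1 := by rw [h]; group
    · apply hne
      rw [ha]
      calc g * z * g⁻¹ = g * (g⁻¹ * z * g) * g⁻¹ := by rw [h]
        _ = z := by group
  have hcjQ : ∀ q ∈ Q, q * a ≠ a * q → q * a * q⁻¹ = z * a := by
    intro q hq hqa
    rcases hcomm q hq a hgQ with h | h
    · exfalso
      apply hqa
      calc q * a = (q * a * q⁻¹ * a⁻¹) * (a * q) := by group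
        _ = a * q := by rw [h, one_mul]
    · calc q * a * q⁻¹ = (q * a * q⁻¹ * a⁻¹) * a := by group
        _ = z * a := by rw [h]
  have hcjQg : ∀ y ∈ Qg, y * z ≠ z * y → y * z * y⁻¹ = a * z := by
    intro y hy hyz
    rcases hcommg y hy z hzQg with h | h
    · exfalso
      apply hyz
      calc y * z = (y * z * y⁻¹ * z⁻¹) * (z * y) := by group
        _ = z * y := by rw [h, one_mul]
    · calc y * z * y⁻¹ = (y * z * y⁻¹ * z⁻¹) * z := by group
        _ = a * z := by rw [h]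
  have hcosA : ∀ q ∈ Q, q * a ≠ a * q → q₀⁻¹ * q ∈ A := by
    intro q hq hqa
    refine (hAm _).mpr ⟨Q.mul_mem (Q.inv_mem hq₀) hq, ?_⟩
    have e1 := hcjQ q hq hqa
    have e2 := hcjQ q₀ hq₀ hq₀a
    calc q₀⁻¹ * q * a = q₀⁻¹ * (q * a * q⁻¹) * q := by group
      _ = q₀⁻¹ * (q₀ * a * q₀⁻¹) * q := by rw [e1, e2]
      _ = a * (q₀⁻¹ * q) := by group
  have hcosB : ∀ y ∈ Qg, y * z ≠ z * y → y₀⁻¹ * y ∈ B := by
    intro y hy hyz
    refine (hBm _).mpr ⟨Qg.mul_mem (Qg.inv_mem hy₀) hy, ?_⟩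
    have e1 := hcjQg y hy hyz
    have e2 := hcjQg y₀ hy₀ hy₀z
    calc y₀⁻¹ * y * z = y₀⁻¹ * (y * z * y⁻¹) * y := by group
      _ = y₀⁻¹ * (y₀ * z * y₀⁻¹) * y := by rw [e1, e2]
      _ = z * (y₀⁻¹ * y) := by group
  obtain ⟨w, hw⟩ : ∃ w : G, w = q₀ * y₀ * q₀ := ⟨_, rfl⟩
  have hq₀z : q₀ * z * q₀⁻¹ = z := by
    rw [hQC q₀ hq₀]
    group
  have hy₀a : y₀ * a * y₀⁻¹ = a := by
    rw [hQgC y₀ hy₀]
    group
  have hwz : w * z * w⁻¹ = a := by
    rw [hw]
    calc q₀ * y₀ * q₀ * z * (q₀ * y₀ * q₀)⁻¹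
        = q₀ * (y₀ * (q₀ * z * q₀⁻¹) * y₀⁻¹) * q₀⁻¹ := by group
      _ = q₀ * (y₀ * z * y₀⁻¹) * q₀⁻¹ := by rw [hq₀z]
      _ = q₀ * (a * z) * q₀⁻¹ := by rw [hcjQg y₀ hy₀ hy₀z]
      _ = (q₀ * a * q₀⁻¹) * (q₀ * z * q₀⁻¹) := by group
      _ = (z * a) * z := by rw [hcjQ q₀ hq₀ hq₀a, hq₀z]
      _ = z * (a * z) := by group
      _ = z * (z * a) := by rw [haz]
      _ = (z * z) * a := by group
      _ = a := by rw [hzz, one_mul]
  have hwa : w * a * w⁻¹ = z := by
    rw [hw]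
    calc q₀ * y₀ * q₀ * a * (q₀ * y₀ * q₀)⁻¹
        = q₀ * (y₀ * (q₀ * a * q₀⁻¹) * y₀⁻¹) * q₀⁻¹ := by group
      _ = q₀ * (y₀ * (z * a) * y₀⁻¹) * q₀⁻¹ := by rw [hcjQ q₀ hq₀ hq₀a]
      _ = q₀ * ((y₀ * z * y₀⁻¹) * (y₀ * a * y₀⁻¹)) * q₀⁻¹ := by group
      _ = q₀ * ((a * z) * a) * q₀⁻¹ := by rw [hcjQg y₀ hy₀ hy₀z, hy₀a]
      _ = q₀ * ((z * a) * a) * q₀⁻¹ := by rw [haz]
      _ = q₀ * (z * (a * a)) * q₀⁻¹ := by group
      _ = q₀ * z * q₀⁻¹ := by rw [haa, mul_one]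
      _ = z := hq₀z
  have hcQg : w * q₀ * w⁻¹ ∈ Qg := by
    rw [hQgm]
    have hc' : (g⁻¹ * w) * z = z * (g⁻¹ * w) := by
      calc g⁻¹ * w * z = g⁻¹ * (w * z * w⁻¹) * w := by group
        _ = g⁻¹ * (g * z * g⁻¹) * w := by rw [hwz, ha]
        _ = z * (g⁻¹ * w) := by group
    have h1 := hQN _ hc' q₀ hq₀
    have e : g⁻¹ * (w * q₀ * w⁻¹) * g = (g⁻¹ * w) * q₀ * (g⁻¹ * w)⁻¹ := by group
    rw [e]
    exact h1
  have hcz : (w * q₀ * w⁻¹) * z ≠ z * (w * q₀ * w⁻¹) := by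
    intro h
    apply hq₀a
    have hwia : w⁻¹ * z * w = a := by
      calc w⁻¹ * z * w = w⁻¹ * (w * a * w⁻¹) * w := by rw [hwa]
        _ = a := by group
    calc q₀ * a = q₀ * (w⁻¹ * z * w) := by rw [hwia]
      _ = w⁻¹ * ((w * q₀ * w⁻¹) * z) * w := by group
      _ = w⁻¹ * (z * (w * q₀ * w⁻¹)) * w := by rw [h]
      _ = (w⁻¹ * z * w) * q₀ := by group
      _ = a * q₀ := by rw [hwia]
  -- the quotient
  have hRn' : (R.subgroupOf X).Normal := by
    refine ⟨fun n hn x => ?_⟩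
    rw [Subgroup.mem_subgroupOf] at hn ⊢
    exact hRn x.1 x.2 n.1 hn
  haveI := hRn'
  obtain ⟨π, hπ⟩ : ∃ π : ↥X →* ↥X ⧸ R.subgroupOf X, π = QuotientGroup.mk' (R.subgroupOf X) :=
    ⟨_, rfl⟩
  have hπ1 : ∀ x : ↥X, (x : G) ∈ R → π x = 1 := by
    intro x hx
    rw [hπ]
    exact (QuotientGroup.eq_one_iff x).mpr (Subgroup.mem_subgroupOf.mpr hx)
  have hπ1' : ∀ x : ↥X, π x = 1 → (x : G) ∈ R := by
    intro x hx
    rw [hπ] at hx
    exact Subgroup.mem_subgroupOf.mp ((QuotientGroup.eq_one_iff x).mp hx)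
  have hQX : Q ≤ X := by
    rw [hX]
    exact le_sup_left
  have hQgX : Qg ≤ X := by
    rw [hX]
    exact le_sup_right
  obtain ⟨x₀, hx₀⟩ : ∃ x₀ : ↥X, (x₀ : G) = q₀ := ⟨⟨q₀, hQX hq₀⟩, rfl⟩
  obtain ⟨x₁, hx₁⟩ : ∃ x₁ : ↥X, (x₁ : G) = y₀ := ⟨⟨y₀, hQgX hy₀⟩, rfl⟩
  obtain ⟨s, hsd⟩ : ∃ s : ↥X ⧸ R.subgroupOf X, s = π x₀ := ⟨_, rfl⟩
  obtain ⟨t, htd⟩ : ∃ t : ↥X ⧸ R.subgroupOf X, t = π x₁ := ⟨_, rfl⟩
  have hzA : z ∈ A := (hAm z).mpr ⟨hzQ, haz.symm⟩
  have haB : a ∈ B := (hBm a).mpr ⟨haQg, haz⟩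
  have hss : s * s = 1 := by
    rw [hsd, ← map_mul]
    apply hπ1
    show (x₀ : G) * (x₀ : G) ∈ R
    rw [hx₀]
    rcases hsq q₀ hq₀ with h | h
    · rw [h]
      exact R.one_mem
    · rw [h]
      exact hAR hzA
  have htt : t * t = 1 := by
    rw [htd, ← map_mul]
    apply hπ1
    show (x₁ : G) * (x₁ : G) ∈ R
    rw [hx₁]
    rcases hsqg y₀ hy₀ with h | h
    · rw [h]
      exact R.one_mem
    · rw [h]
      exact hBR haB
  have hbraid : s * t * s = t * s * t := by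
    have h1 : π (x₁⁻¹ * (x₀ * x₁ * x₀ * x₀ * (x₀ * x₁ * x₀)⁻¹)) = 1 := by
      apply hπ1
      show (x₁ : G)⁻¹ * ((x₀ : G) * (x₁ : G) * (x₀ : G) * (x₀ : G) *
        ((x₀ : G) * (x₁ : G) * (x₀ : G))⁻¹) ∈ R
      rw [hx₀, hx₁, ← hw]
      exact hBR (hcosB _ hcQg hcz)
    have h2 : π (x₁⁻¹ * (x₀ * x₁ * x₀ * x₀ * (x₀ * x₁ * x₀)⁻¹)) =
        t⁻¹ * (s * t * s * s * (s * t * s)⁻¹) := by
      rw [hsd, htd]
      simp only [map_mul, map_inv]
    have h1' : t⁻¹ * (s * t * s * s * (s * t * s)⁻¹) = 1 := h2.symm.trans h1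
    have h3 : s * t * s * s * (s * t * s)⁻¹ = t := by
      calc s * t * s * s * (s * t * s)⁻¹
          = t * (t⁻¹ * (s * t * s * s * (s * t * s)⁻¹)) := by group
        _ = t := by rw [h1', mul_one]
    have h4 : s * t * s * s = t * (s * t * s) := by
      calc s * t * s * s = (s * t * s * s * (s * t * s)⁻¹) * (s * t * s) := by group
        _ = t * (s * t * s) := by rw [h3]
    have h5 : s * t = t * (s * t * s) := by
      calc s * t = s * t * (s * s) := by rw [hss, mul_one]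
        _ = s * t * s * s := by group
        _ = t * (s * t * s) := h4
    calc s * t * s = (t * (s * t * s)) * s := by rw [← h5]
      _ = t * s * t * (s * s) := by group
      _ = t * s * t := by rw [hss, mul_one]
  have hπQ : ∀ q (hq : q ∈ Q), π ⟨q, hQX hq⟩ = 1 ∨ π ⟨q, hQX hq⟩ = s := by
    intro q hq
    by_cases hqa : q * a = a * q
    · left
      exact hπ1 _ (hAR ((hAm q).mpr ⟨hq, hqa⟩))
    · right
      have hα : q₀⁻¹ * q ∈ A := hcosA q hq hqa
      have e : (⟨q, hQX hq⟩ : ↥X) = x₀ * ⟨q₀⁻¹ * q, hRX (hAR hα)⟩ := by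
        apply Subtype.ext
        show q = (x₀ : G) * (q₀⁻¹ * q)
        rw [hx₀]
        group
      rw [e, map_mul, hπ1 ⟨q₀⁻¹ * q, hRX (hAR hα)⟩ (hAR hα), mul_one, hsd]
  have hπQg : ∀ y (hy : y ∈ Qg), π ⟨y, hQgX hy⟩ = 1 ∨ π ⟨y, hQgX hy⟩ = t := by
    intro y hy
    by_cases hyz : y * z = z * y
    · left
      exact hπ1 _ (hBR ((hBm y).mpr ⟨hy, hyz⟩))
    · right
      have hβ : y₀⁻¹ * y ∈ B := hcosB y hy hyz
      have e : (⟨y, hQgX hy⟩ : ↥X) = x₁ * ⟨y₀⁻¹ * y, hRX (hBR hβ)⟩ := by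
        apply Subtype.ext
        show y = (x₁ : G) * (y₀⁻¹ * y)
        rw [hx₁]
        group
      rw [e, map_mul, hπ1 ⟨y₀⁻¹ * y, hRX (hBR hβ)⟩ (hBR hβ), mul_one, htd]
  have hgen : ∀ K : Subgroup (↥X ⧸ R.subgroupOf X), s ∈ K → t ∈ K → K = ⊤ := by
    intro K hsK htK
    have hQM : Q ≤ (K.comap π).map X.subtype := by
      intro q hq
      refine Subgroup.mem_map.mpr ⟨⟨q, hQX hq⟩, Subgroup.mem_comap.mpr ?_, rfl⟩
      rcases hπQ q hq with h | h
      · rw [h]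
        exact K.one_mem
      · rw [h]
        exact hsK
    have hQgM : Qg ≤ (K.comap π).map X.subtype := by
      intro y hy
      refine Subgroup.mem_map.mpr ⟨⟨y, hQgX hy⟩, Subgroup.mem_comap.mpr ?_, rfl⟩
      rcases hπQg y hy with h | h
      · rw [h]
        exact K.one_mem
      · rw [h]
        exact htK
    have hXM : X ≤ (K.comap π).map X.subtype := by
      have h := sup_le hQM hQgM
      rw [← hX] at h
      exact h
    rw [eq_top_iff]
    intro d _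
    obtain ⟨x, hx⟩ : ∃ x : ↥X, π x = d := by
      rw [hπ]
      exact QuotientGroup.mk'_surjective (R.subgroupOf X) d
    obtain ⟨x', hx', e⟩ := Subgroup.mem_map.mp (hXM x.2)
    have e' : x' = x := Subtype.ext e
    rw [← hx, ← e']
    exact Subgroup.mem_comap.mp hx'
  have hall := sixP_all s t hss htt hbraid hgen
  have hcard6 : Nat.card (↥X ⧸ R.subgroupOf X) ≤ 6 := card_le_six_of_sixP s t hall
  -- the action on `{z, a, z * a}`
  have hmemΩ : ∀ u ∈ ({z, a, z * a} : Set G), u ∈ V ∧ u ≠ 1 := by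
    intro u hu
    rcases hu with h | h | h
    · rw [h]
      exact ⟨hVz, hz1⟩
    · rw [h]
      exact ⟨hVa, ha1⟩
    · rw [Set.mem_singleton_iff.mp h]
      exact ⟨V.mul_mem hVz hVa, hza1⟩
  have hΩpres : ∀ x ∈ X, ∀ v : G, v ∈ ({z, a, z * a} : Set G) →
      x * v * x⁻¹ ∈ ({z, a, z * a} : Set G) := by
    intro x hx v hv
    obtain ⟨hvV, hv1⟩ := hmemΩ v hv
    rcases hV4 _ (hXV x hx v hvV) with h | h | h | h
    · exfalso
      apply hv1
      calc v = x⁻¹ * (x * v * x⁻¹) * x := by group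
        _ = 1 := by rw [h]; group
    · rw [h]
      exact Set.mem_insert _ _
    · rw [h]
      exact Set.mem_insert_of_mem _ (Set.mem_insert _ _)
    · rw [h]
      exact Set.mem_insert_of_mem _ (Set.mem_insert_of_mem _ (Set.mem_singleton _))
  have hΩfull : ∀ u ∈ ({z, a, z * a} : Set G), ∀ v ∈ ({z, a, z * a} : Set G), u ≠ v →
      ∃ w' ∈ X, w' * z * w'⁻¹ = u ∧ w' * a * w'⁻¹ = v := by
    intro u hu v hv huv
    exact hfull u (hmemΩ u hu).1 v (hmemΩ v hv).1 (hmemΩ u hu).2 (hmemΩ v hv).2 huv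
  obtain ⟨Φ, hΦsurj, hΦ1⟩ :=
    exists_perm3_hom X z a (fun h => hne h.symm) hz1 ha1 hΩpres hΩfull
  have hker : R.subgroupOf X ≤ Φ.ker := by
    intro x hx
    rw [MonoidHom.mem_ker]
    have hxR : (x : G) ∈ R := Subgroup.mem_subgroupOf.mp hx
    exact hΦ1 x (hRz _ hxR) (hRa _ hxR)
  obtain ⟨Φb, hΦb⟩ : ∃ Φb : ↥X ⧸ R.subgroupOf X →* Equiv.Perm (Fin 3),
      Φb = QuotientGroup.lift (R.subgroupOf X) Φ hker := ⟨_, rfl⟩
  have hΦbπ : ∀ x : ↥X, Φb (π x) = Φ x := by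
    intro x
    rw [hΦb, hπ]
    exact QuotientGroup.lift_mk (R.subgroupOf X) hker x
  have hΦbsurj : Function.Surjective Φb := by
    intro σ
    obtain ⟨x, hx⟩ := hΦsurj σ
    exact ⟨π x, by rw [hΦbπ, hx]⟩
  have hcardP : Nat.card (Equiv.Perm (Fin 3)) = 6 := by
    rw [Nat.card_eq_fintype_card, Fintype.card_perm, Fintype.card_fin]
    rfl
  have hΦbbij : Function.Bijective Φb :=
    hΦbsurj.bijective_of_nat_card_le (by rw [hcardP]; exact hcard6)
  have hΦR : ∀ x : ↥X, Φ x = 1 → (x : G) ∈ R := by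
    intro x hx
    apply hπ1'
    apply hΦbbij.1
    rw [hΦbπ, hx, map_one]
  have h1 : R = X ⊓ Subgroup.centralizer (V : Set G) := by
    apply le_antisymm
    · intro r hr
      exact Subgroup.mem_inf.mpr ⟨hRX hr, (hVcent r).mpr ⟨hRz r hr, hRa r hr⟩⟩
    · intro x hx
      obtain ⟨hxX, hxV⟩ := Subgroup.mem_inf.mp hx
      obtain ⟨hxz, hxa⟩ := (hVcent x).mp hxV
      exact hΦR ⟨x, hxX⟩ (hΦ1 ⟨x, hxX⟩ hxz hxa)
  have h3 : ∃ h : (R.subgroupOf X).Normal,
      Nonempty (↥X ⧸ R.subgroupOf X ≃* Equiv.Perm (Fin 3)) :=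
    ⟨hRn', ⟨MulEquiv.ofBijective Φb hΦbbij⟩⟩
  have h2R : IsPGroup 2 ↥R := by
    intro x
    refine ⟨2, ?_⟩
    apply Subtype.ext
    show (x : G) ^ 2 ^ 2 = 1
    have h := (hRE x.1 x.2 x.1 x.2).2
    have h' := hEea.2 _ h
    have e4 : (2 : ℕ) ^ 2 = 2 * 2 := by norm_num
    rw [e4, pow_mul]
    exact h'
  have h2 : R = (Cfsg.pCore 2 ↥X).map X.subtype := by
    have hcore : Cfsg.pCore 2 ↥X = R.subgroupOf X := by
      unfold Cfsg.pCore
      apply le_antisymm
      · apply sSup_le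
        rintro N ⟨hNn, hN2⟩
        intro n hn
        rw [Subgroup.mem_subgroupOf]
        by_contra hnR
        have hτ : Φ n ≠ 1 := fun h => hnR (hΦR n h)
        obtain ⟨σ, hσ1, hσ3⟩ := perm3_normal_two (Φ n) hτ
        obtain ⟨x, hx⟩ := hΦsurj σ
        have hm : n * (x * n * x⁻¹) ∈ N := N.mul_mem hn (hNn.conj_mem n hn x)
        obtain ⟨k, hk⟩ := hN2 ⟨n * (x * n * x⁻¹), hm⟩
        have hk' : (n * (x * n * x⁻¹)) ^ 2 ^ k = 1 := by
          have h := congrArg Subtype.val hk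
          exact h
        have hΦm : Φ (n * (x * n * x⁻¹)) = Φ n * (σ * Φ n * σ⁻¹) := by
          simp only [map_mul, map_inv, hx]
        have hρ : (Φ n * (σ * Φ n * σ⁻¹)) ^ 2 ^ k = 1 := by
          rw [← hΦm, ← map_pow, hk', map_one]
        exact hσ1 (eq_one_of_two_pow_of_cube _ k hρ hσ3)
      · apply le_sSup
        exact ⟨hRn', h2R.comap_of_injective X.subtype X.subtype_injective⟩
    rw [hcore]
    exact (Subgroup.map_subgroupOf_eq_of_le hRX).symm
  have hdecomp : ∀ y ∈ Subgroup.normalizer (V : Set G), ∃ w' ∈ X, ∃ c : G,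
      c * z = z * c ∧ c * a = a * c ∧ y = w' * c := by
    intro y hy
    have hyV : ∀ v ∈ V, y * v * y⁻¹ ∈ V :=
      fun v hv => (Subgroup.mem_normalizer_iff.mp hy v).mp hv
    have hu1 : y * z * y⁻¹ ≠ 1 := by
      intro h
      apply hz1
      calc z = y⁻¹ * (y * z * y⁻¹) * y := by group
        _ = 1 := by rw [h]; group
    have hv1 : y * a * y⁻¹ ≠ 1 := by
      intro h
      apply ha1
      calc a = y⁻¹ * (y * a * y⁻¹) * y := by group
        _ = 1 := by rw [h]; group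
    have huv : y * z * y⁻¹ ≠ y * a * y⁻¹ := by
      intro h
      apply hne
      calc a = y⁻¹ * (y * a * y⁻¹) * y := by group
        _ = y⁻¹ * (y * z * y⁻¹) * y := by rw [h]
        _ = z := by group
    obtain ⟨w', hw'X, hw'z, hw'a⟩ := hfull _ (hyV z hVz) _ (hyV a hVa) hu1 hv1 huv
    refine ⟨w', hw'X, w'⁻¹ * y, ?_, ?_, by group⟩
    · calc w'⁻¹ * y * z = w'⁻¹ * (y * z * y⁻¹) * y := by group
        _ = w'⁻¹ * (w' * z * w'⁻¹) * y := by rw [hw'z]
        _ = z * (w'⁻¹ * y) := by group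
    · calc w'⁻¹ * y * a = w'⁻¹ * (y * a * y⁻¹) * y := by group
        _ = w'⁻¹ * (w' * a * w'⁻¹) * y := by rw [hw'a]
        _ = a * (w'⁻¹ * y) := by group
  have h4 : Subgroup.normalizer (V : Set G) =
      X ⊔ (Subgroup.centralizer ({z} : Set G) ⊓ Subgroup.centralizer (V : Set G)) := by
    apply le_antisymm
    · intro y hy
      obtain ⟨w', hw'X, c, hcz', hca', hyw⟩ := hdecomp y hy
      rw [hyw]
      exact Subgroup.mul_mem_sup hw'X ((hCVmem c).mpr ⟨hcz', hca'⟩)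
    · apply sup_le hXnV
      exact inf_le_right.trans (Subgroup.centralizer_le_normalizer _)
  have h5 : ∀ y ∈ Subgroup.normalizer (V : Set G), ∀ x ∈ X, y * x * y⁻¹ ∈ X := by
    intro y hy x hx
    obtain ⟨w', hw'X, c, hcz', hca', hyw⟩ := hdecomp y hy
    have hcX : c * x * c⁻¹ ∈ X := by
      refine conj_closure_mem SX c X hXS ?_ x hx
      intro s hs
      rcases (hSXm s).mp hs with h | h
      · exact hQX (hQN c hcz' s h)
      · exact hQgX (hQgN c hca' s h)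
    have e : y * x * y⁻¹ = w' * (c * x * c⁻¹) * w'⁻¹ := by
      rw [hyw]
      group
    rw [e]
    exact X.mul_mem (X.mul_mem hw'X hcX) (X.inv_mem hw'X)
  have h6 : R ≤ Subgroup.centralizer ({z} : Set G) ⊓ Subgroup.centralizer (V : Set G) :=
    fun r hr => (hCVmem r).mpr ⟨hRz r hr, hRa r hr⟩
  have h7 : ∀ x ∈ X,
      ∀ c ∈ Subgroup.centralizer ({z} : Set G) ⊓ Subgroup.centralizer (V : Set G),
      x * c * x⁻¹ * c⁻¹ ∈ R := by
    intro x hx c hc
    obtain ⟨hcz', hca'⟩ := (hCVmem c).mp hc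
    have key := comm_gens_mem R SX {c' : G | c' * z = z * c' ∧ c' * a = a * c'} hSXnR
      (fun s hs c' hc' => by
        rcases (hSXm s).mp hs with h | h
        · exact hAR (hQc s h c' hc'.1 hc'.2)
        · exact hBR (hQgc s h c' hc'.1 hc'.2))
    have h := key x (by rw [← hXS]; exact hx) c ⟨hcz', hca'⟩
    rw [commutatorElement_def] at h
    exact h
  have h8 : X ⊓ (Subgroup.centralizer ({z} : Set G) ⊓ Subgroup.centralizer (V : Set G)) = R := by
    apply le_antisymm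
    · intro x hx
      obtain ⟨hxX, hxC⟩ := Subgroup.mem_inf.mp hx
      obtain ⟨hxz, hxa⟩ := (hCVmem x).mp hxC
      exact hΦR ⟨x, hxX⟩ (hΦ1 ⟨x, hxX⟩ hxz hxa)
    · exact le_inf hRX h6
  exact ⟨h1, h2, h3, h4, h5, h6, h7, h8⟩

end Cfsg.Agent.Helper11
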