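import Mathlib
import Cfsg.Prelude
import Cfsg.Agent.Helper11.Meta
import Cfsg.Agent.Helper11.StableNC
import Cfsg.Agent.Helper1.Coprime
import Cfsg.Agent.Helper1.PUnique
import Cfsg.Agent.Helper10.HallComm
import Cfsg.Agent.Helper24.Class2
import Cfsg.Agent.Helper24.NormalCenter

set_option autoImplicit false

namespace Cfsg.Agent.Helper11

open scoped commutatorElement

universe u

/-- A proper inclusion of subgroups of a `p`-group has index at least `p`. -/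
theorem ma_card_ge {G : Type*} [Group G] [Finite G] {p : ℕ} [Fact p.Prime] (U W : Subgroup G)
    (hW : IsPGroup p W) (hUW : U ≤ W) (hne : ¬ W ≤ U) : p * Nat.card U ≤ Nat.card W := by
  have hp : p.Prime := Fact.out
  have h1 := Subgroup.card_mul_index (U.subgroupOf W)
  have h2 : Nat.card (U.subgroupOf W) = Nat.card U :=
    Nat.card_congr (Subgroup.subgroupOfEquivOfLe hUW).toEquiv
  rw [h2] at h1
  obtain ⟨j, hj⟩ := IsPGroup.iff_card.1 hW
  have h3 : (U.subgroupOf W).index ∣ p ^ j := by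
    rw [← hj]; exact Dvd.intro_left _ h1
  obtain ⟨i, -, hi2⟩ := (Nat.dvd_prime_pow hp).1 h3
  have hi0 : i ≠ 0 := by
    intro h0
    rw [h0, pow_zero] at hi2
    exact hne (Subgroup.subgroupOf_eq_top.1 (Subgroup.index_eq_one.1 hi2))
  have h4 : p ∣ (U.subgroupOf W).index := by
    rw [hi2]; exact dvd_pow_self p hi0
  obtain ⟨t, ht⟩ := h4
  have ht0 : 0 < t := by
    rcases Nat.eq_zero_or_pos t with h | h
    · exfalso
      rw [h, mul_zero] at ht
      rw [ht, mul_zero] at h1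
      have h5 : 0 < Nat.card W := Nat.card_pos
      omega
    · exact h
  rw [← h1, ht]
  calc p * Nat.card U = Nat.card U * (p * 1) := by ring
    _ ≤ Nat.card U * (p * t) := Nat.mul_le_mul_left _ (Nat.mul_le_mul_left _ ht0)

/-- Surjective images of metacyclic groups are metacyclic. -/
theorem ma_meta_surj {R S : Type*} [Group R] [Group S] (h : Cfsg.IsMetacyclic R) (f : R →* S)
    (hf : Function.Surjective f) : Cfsg.IsMetacyclic S := by
  obtain ⟨N, hN, hcN, hcQ⟩ := h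
  haveI := hN
  haveI := hcN
  haveI := hcQ
  haveI hN' : (N.map f).Normal := Subgroup.Normal.map hN f hf
  refine ⟨N.map f, hN', ?_, ?_⟩
  · exact isCyclic_of_surjective (f.subgroupMap N) (f.subgroupMap_surjective N)
  · refine isCyclic_of_surjective (QuotientGroup.map N (N.map f) f (Subgroup.le_comap_map _ N)) ?_
    intro v
    obtain ⟨s, rfl⟩ := QuotientGroup.mk_surjective v
    obtain ⟨r, rfl⟩ := hf s
    exact ⟨(r : R ⧸ N), rfl⟩

/-- Subgroups of metacyclic groups are metacyclic. -/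
theorem ma_meta_sub {R : Type*} [Group R] (h : Cfsg.IsMetacyclic R) (H : Subgroup R) :
    Cfsg.IsMetacyclic ↥H := by
  obtain ⟨N, hN, hcN, hcQ⟩ := h
  haveI := hN
  haveI := hcN
  haveI := hcQ
  refine ⟨N.subgroupOf H, inferInstance, ?_, ?_⟩
  · refine isCyclic_of_injective
      ((H.subtype.comp (N.subgroupOf H).subtype).codRestrict N
        (fun x => Subgroup.mem_subgroupOf.1 x.2)) ?_
    intro x y hxy
    have h0 := congrArg Subtype.val hxy
    have h1 : ((x : ↥H) : R) = ((y : ↥H) : R) := h0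
    exact Subtype.ext (Subtype.ext h1)
  · refine isCyclic_of_injective
      (QuotientGroup.map (N.subgroupOf H) N H.subtype (le_refl _)) ?_
    rw [injective_iff_map_eq_one]
    intro q hq
    obtain ⟨x, rfl⟩ := QuotientGroup.mk_surjective q
    have h1 : ((x : R) : R ⧸ N) = 1 := hq
    have h2 : (x : R) ∈ N := (QuotientGroup.eq_one_iff _).1 h1
    exact (QuotientGroup.eq_one_iff x).2 (Subgroup.mem_subgroupOf.2 h2)

/-- The commutator subgroup of a metacyclic group is cyclic. -/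
theorem ma_comm_cyclic {Γ : Type*} [Group Γ] (R : Subgroup Γ) (hm : Cfsg.IsMetacyclic R) :
    IsCyclic ↥(commutator ↥R) ∧ (commutator ↥R).map R.subtype = ⁅R, R⁆ := by
  obtain ⟨N, hN, hcN, hcQ⟩ := hm
  haveI := hN
  haveI := hcN
  haveI := hcQ
  constructor
  · have hle : commutator ↥R ≤ N := by
      rw [commutator_def, Subgroup.commutator_le]
      intro x _ y _
      apply (QuotientGroup.eq_one_iff _).1
      show QuotientGroup.mk' N ⁅x, y⁆ = 1
      rw [map_commutatorElement, commutatorElement_eq_one_iff_commute]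
      obtain ⟨g, hg⟩ := IsCyclic.exists_generator (α := ↥R ⧸ N)
      obtain ⟨i, hi⟩ := Subgroup.mem_zpowers_iff.1 (hg (QuotientGroup.mk' N x))
      obtain ⟨j, hj⟩ := Subgroup.mem_zpowers_iff.1 (hg (QuotientGroup.mk' N y))
      rw [← hi, ← hj]
      exact (Commute.refl g).zpow_zpow i j
    exact Subgroup.isCyclic_of_le hle
  · rw [commutator_def, Subgroup.map_commutator, ← MonoidHom.range_eq_map, Subgroup.range_subtype]

/-- The class two case: a metacyclic `p`-group `R` (`p` odd), normal in `Γ`, with `R'` of exponent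
`p` and `[R, A] = R` for a `p'`-group `A`, is abelian. -/
theorem ma_c2 {Γ : Type u} [Group Γ] [Finite Γ] {p : ℕ} [Fact p.Prime] (hp2 : p ≠ 2)
    (R A : Subgroup Γ) [hRn : R.Normal] (hR : IsPGroup p R) (hm : Cfsg.IsMetacyclic R)
    (hcop : (Nat.card A).Coprime p) (hRA : ⁅R, A⁆ = R)
    (hexp : ∀ z ∈ ⁅R, R⁆, z ^ p = 1) :
    ∀ x ∈ R, ∀ y ∈ R, x * y = y * x := by
  classical
  have hp : p.Prime := Fact.out
  by_contra hna
  obtain ⟨n, hn⟩ := IsPGroup.iff_card.1 hR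
  have hcopR : (Nat.card R).Coprime (Nat.card A) := by
    rw [hn]; exact (Nat.Coprime.pow_right n hcop).symm
  haveI hnil : Group.IsNilpotent ↥R := hR.isNilpotent
  have hsolvR : Group.IsSolvable ↥R := inferInstance
  have hAR : A ≤ Subgroup.normalizer (R : Set Γ) := by
    intro g _
    rw [Subgroup.mem_normalizer_iff]
    intro h
    constructor
    · intro hh; exact hRn.conj_mem h hh g
    · intro hh
      have h1 := hRn.conj_mem _ hh g⁻¹
      have e : g⁻¹ * (g * h * g⁻¹) * g⁻¹⁻¹ = h := by group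
      rwa [e] at h1
  haveI hR'n : (⁅R, R⁆ : Subgroup Γ).Normal := inferInstance
  have hR'R : ⁅R, R⁆ ≤ R := Subgroup.commutator_le_left R R
  obtain ⟨hcyc, hmapc⟩ := ma_comm_cyclic R hm
  -- generators
  obtain ⟨N, hN, hcN, hcQ⟩ := hm
  haveI := hN
  haveI := hcN
  haveI := hcQ
  obtain ⟨b', hb'⟩ := IsCyclic.exists_generator (α := ↥N)
  obtain ⟨abar, habar⟩ := IsCyclic.exists_generator (α := ↥R ⧸ N)
  obtain ⟨a', rfl⟩ := QuotientGroup.mk_surjective abar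
  obtain ⟨a, ha⟩ : ∃ a : Γ, a = ((a' : ↥R) : Γ) := ⟨_, rfl⟩
  obtain ⟨b, hb⟩ : ∃ b : Γ, b = (((b' : ↥N) : ↥R) : Γ) := ⟨_, rfl⟩
  have haR : a ∈ R := by rw [ha]; exact a'.2
  have hbR : b ∈ R := by rw [hb]; exact (b' : ↥R).2
  have hgen : ∀ x ∈ R, ∃ i j : ℕ, x = a ^ i * b ^ j := by
    intro x hx
    have h1 := habar (QuotientGroup.mk (⟨x, hx⟩ : ↥R))
    rw [← mem_powers_iff_mem_zpowers] at h1
    obtain ⟨i, hi⟩ := (Submonoid.mem_powers_iff _ _).1 h1
    have h2 : ((a' ^ i : ↥R) : ↥R ⧸ N) = ((⟨x, hx⟩ : ↥R) : ↥R ⧸ N) := by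
      rw [QuotientGroup.mk_pow]; exact hi
    have h3 : (a' ^ i)⁻¹ * (⟨x, hx⟩ : ↥R) ∈ N := QuotientGroup.eq.1 h2
    have h4 := hb' ⟨_, h3⟩
    rw [← mem_powers_iff_mem_zpowers] at h4
    obtain ⟨j, hj⟩ := (Submonoid.mem_powers_iff _ _).1 h4
    refine ⟨i, j, ?_⟩
    have h5 : ((b' : ↥R) ^ j : ↥R) = (a' ^ i)⁻¹ * (⟨x, hx⟩ : ↥R) := by
      have h := congrArg Subtype.val hj
      simpa using h
    have h6 : (⟨x, hx⟩ : ↥R) = a' ^ i * (b' : ↥R) ^ j := by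
      rw [h5]; group
    have h7 := congrArg Subtype.val h6
    rw [ha, hb]
    simpa using h7
  have hab : ¬ Commute a b := by
    intro h
    apply hna
    intro x hx y hy
    obtain ⟨i, j, rfl⟩ := hgen x hx
    obtain ⟨i', j', rfl⟩ := hgen y hy
    have h1 : Commute (a ^ i * b ^ j) (a ^ i' * b ^ j') := by
      apply Commute.mul_left
      · apply Commute.mul_right
        · exact (Commute.refl a).pow_pow i i'
        · exact h.pow_pow i j'
      · apply Commute.mul_right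
        · exact (h.symm).pow_pow j i'
        · exact (Commute.refl b).pow_pow j j'
    exact h1.eq
  have hcm : ∀ x ∈ R, ∀ y ∈ R, ⁅x, y⁆ ∈ ⁅R, R⁆ := fun x hx y hy =>
    Subgroup.commutator_mem_commutator hx hy
  have hR'ne : (⁅R, R⁆ : Subgroup Γ) ≠ ⊥ := by
    intro h
    apply hab
    have h1 := hcm a haR b hbR
    rw [h, Subgroup.mem_bot] at h1
    exact commutatorElement_eq_one_iff_commute.1 h1
  have hN0 : commutator ↥R ≠ ⊥ := by
    intro h
    apply hR'ne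
    rw [← hmapc, h, Subgroup.map_bot]
  haveI hN0n : (commutator ↥R).Normal := inferInstance
  obtain ⟨w, hwN, hw1, hwc⟩ :=
    Cfsg.Agent.Helper24.exists_mem_center_of_normal (commutator ↥R) hN0
  obtain ⟨c, hc⟩ : ∃ c : Γ, c = (w : Γ) := ⟨_, rfl⟩
  have hcR : c ∈ R := by rw [hc]; exact w.2
  have hcR' : c ∈ ⁅R, R⁆ := by
    rw [← hmapc, hc]
    exact Subgroup.mem_map_of_mem R.subtype hwN
  have hc1 : c ≠ 1 := by
    intro h
    apply hw1
    apply Subtype.ext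
    rw [← hc, h]; rfl
  have hccen : ∀ r ∈ R, Commute c r := by
    intro r hr
    have h1 := (Subgroup.mem_center_iff.1 hwc) ⟨r, hr⟩
    have h2 := congrArg Subtype.val h1
    rw [hc]
    exact h2.symm
  have hcp : c ^ p = 1 := hexp c hcR'
  have hco : orderOf c = p := orderOf_eq_prime hcp hc1
  have hR'card : Nat.card (⁅R, R⁆ : Subgroup Γ) ≤ p := by
    rw [← hmapc, Subgroup.card_map_of_injective R.subtype_injective]
    haveI := hcyc
    apply cyc_exp_card_le hp.pos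
    intro z
    apply Subtype.ext
    apply Subtype.ext
    have h1 : (((z : ↥R) : Γ)) ∈ ⁅R, R⁆ := by
      rw [← hmapc]
      exact Subgroup.mem_map_of_mem R.subtype z.2
    have h2 := hexp _ h1
    simpa using h2
  have hR'eq : Subgroup.zpowers c = ⁅R, R⁆ := by
    apply Subgroup.eq_of_le_of_card_ge (Subgroup.zpowers_le.2 hcR')
    rw [Nat.card_zpowers, hco]
    exact hR'card
  have hR'pow : ∀ z ∈ ⁅R, R⁆, ∃ m : ℕ, c ^ m = z := by
    intro z hz
    rw [← hR'eq, ← mem_powers_iff_mem_zpowers] at hz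
    exact (Submonoid.mem_powers_iff _ _).1 hz
  have hR'cen : ∀ z ∈ ⁅R, R⁆, ∀ r ∈ R, Commute z r := by
    intro z hz r hr
    obtain ⟨m, rfl⟩ := hR'pow z hz
    exact (hccen r hr).pow_left m
  -- the `p`-th power map is multiplicative on `R`
  have hchoose : p ∣ p.choose 2 := hp.dvd_choose_self (by norm_num) (by
    have := hp.two_le; omega)
  have hpw : ∀ x ∈ R, ∀ y ∈ R, (x * y) ^ p = x ^ p * y ^ p := by
    intro x hx y hy
    have hz := hcm y hy x hx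
    rw [Cfsg.Agent.Helper24.mul_pow_of_commutator_central x y (hR'cen _ hz x hx)
      (hR'cen _ hz y hy) p]
    obtain ⟨t, ht⟩ := hchoose
    rw [ht, pow_mul, hexp _ hz, one_pow, mul_one]
  have hpwk : ∀ k : ℕ, ∀ x ∈ R, ∀ y ∈ R,
      (x * y) ^ (p ^ k) = x ^ (p ^ k) * y ^ (p ^ k) := by
    intro k
    induction k with
    | zero => intro x _ y _; simp
    | succ k ih =>
      intro x hx y hy
      rw [pow_succ, pow_mul, pow_mul, pow_mul, ih x hx y hy]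
      exact hpw _ (R.pow_mem hx _) _ (R.pow_mem hy _)
  have hcpow : ∀ x ∈ R, ∀ y ∈ R, ∀ m : ℕ, ⁅x ^ m, y⁆ = ⁅x, y⁆ ^ m := by
    intro x hx y hy m
    exact Cfsg.Agent.Helper24.commutator_pow_left x y (hR'cen _ (hcm x hx y hy) x hx) m
  have hpcen : ∀ x ∈ R, ∀ y ∈ R, Commute (x ^ p) y := by
    intro x hx y hy
    rw [← commutatorElement_eq_one_iff_commute, hcpow x hx y hy p]
    exact hexp _ (hcm x hx y hy)
  -- central elements are `p`-th powers
  have hd1 : ⁅a, b⁆ ≠ 1 := fun h => hab (commutatorElement_eq_one_iff_commute.1 h)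
  have hdo : orderOf ⁅a, b⁆ = p := orderOf_eq_prime (hexp _ (hcm a haR b hbR)) hd1
  have hd1' : ⁅b, a⁆ ≠ 1 := fun h => hab (commutatorElement_eq_one_iff_commute.1 h).symm
  have hdo' : orderOf ⁅b, a⁆ = p := orderOf_eq_prime (hexp _ (hcm b hbR a haR)) hd1'
  have hZ : ∀ z ∈ R, (∀ r ∈ R, Commute z r) → ∃ w ∈ R, z = w ^ p := by
    intro z hz hzc
    obtain ⟨i, j, rfl⟩ := hgen z hz
    have h1 : Commute (a ^ i) b := by
      have h2 := (hzc b hbR).mul_left (((Commute.refl b).pow_left j).inv_left)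
      rwa [mul_inv_cancel_right] at h2
    have h5 : Commute (b ^ j) a := by
      have h2 := (((Commute.refl a).pow_left i).inv_left).mul_left (hzc a haR)
      rwa [inv_mul_cancel_left] at h2
    have hpi : p ∣ i := by
      have h7 : ⁅a, b⁆ ^ i = 1 := by
        rw [← hcpow a haR b hbR i]; exact commutatorElement_eq_one_iff_commute.2 h1
      rw [← hdo]; exact orderOf_dvd_of_pow_eq_one h7
    have hpj : p ∣ j := by
      have h7 : ⁅b, a⁆ ^ j = 1 := by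
        rw [← hcpow b hbR a haR j]; exact commutatorElement_eq_one_iff_commute.2 h5
      rw [← hdo']; exact orderOf_dvd_of_pow_eq_one h7
    obtain ⟨i', rfl⟩ := hpi
    obtain ⟨j', rfl⟩ := hpj
    refine ⟨a ^ i' * b ^ j', R.mul_mem (R.pow_mem haR _) (R.pow_mem hbR _), ?_⟩
    rw [hpw _ (R.pow_mem haR _) _ (R.pow_mem hbR _), ← pow_mul, ← pow_mul, mul_comm i' p,
      mul_comm j' p]
  -- the maximal `k`
  have hexk : ∃ k : ℕ, ¬ ∃ x ∈ R, x ^ (p ^ (k + 1)) = c := by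
    refine ⟨n, ?_⟩
    rintro ⟨x, hx, hxc⟩
    apply hc1
    rw [← hxc, pow_succ, pow_mul]
    have h1 : (⟨x, hx⟩ : ↥R) ^ (p ^ n) = 1 := by
      rw [← hn]; exact pow_card_eq_one'
    have h2 : x ^ (p ^ n) = 1 := by
      have h := congrArg Subtype.val h1
      simpa using h
    rw [h2, one_pow]
  obtain ⟨k, hkmax, hkmin⟩ : ∃ k : ℕ, (¬ ∃ x ∈ R, x ^ (p ^ (k + 1)) = c) ∧
      ∃ x ∈ R, x ^ (p ^ k) = c := by
    refine ⟨Nat.find hexk, Nat.find_spec hexk, ?_⟩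
    rcases Nat.eq_zero_or_pos (Nat.find hexk) with h0 | hpos
    · rw [h0]; exact ⟨c, hcR, by simp⟩
    · have h1 := not_not.1 (Nat.find_min hexk (Nat.sub_one_lt (Nat.pos_iff_ne_zero.1 hpos)))
      have e : Nat.find hexk - 1 + 1 = Nat.find hexk := Nat.sub_add_cancel hpos
      rw [e] at h1
      exact h1
  obtain ⟨x₀, hx₀R, hx₀⟩ := hkmin
  obtain ⟨q, hq⟩ : ∃ q : ℕ, q = p ^ k := ⟨_, rfl⟩
  rw [← hq] at hx₀
  have hqk : ∀ w : Γ, w ^ (p ^ (k + 1)) = (w ^ p) ^ q := by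
    intro w; rw [hq, pow_succ', pow_mul]
  have hpwq : ∀ x ∈ R, ∀ y ∈ R, (x * y) ^ q = x ^ q * y ^ q := by
    rw [hq]; exact hpwk k
  have hx₀nc : ¬ ∀ r ∈ R, Commute x₀ r := by
    intro h
    obtain ⟨w', hw', hw2⟩ := hZ x₀ hx₀R h
    apply hkmax
    refine ⟨w', hw', ?_⟩
    rw [hqk, ← hw2]; exact hx₀
  -- action of `A` on `c` and on `x₀`
  have hAc : ∀ g ∈ A, ∃ m : ℕ, ¬ p ∣ m ∧ g * c * g⁻¹ = c ^ m := by
    intro g _
    have h1 : g * c * g⁻¹ ∈ ⁅R, R⁆ := hR'n.conj_mem c hcR' g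
    obtain ⟨m, hmm⟩ := hR'pow _ h1
    refine ⟨m, ?_, hmm.symm⟩
    rintro ⟨t, rfl⟩
    rw [pow_mul, hcp, one_pow] at hmm
    apply hc1
    have h2 : c = g⁻¹ * (g * c * g⁻¹) * g := by group
    rw [h2, ← hmm]; group
  have hAx : ∀ g ∈ A, ∃ m : ℕ, ¬ p ∣ m ∧ g * c * g⁻¹ = c ^ m ∧
      ∃ e ∈ R, e ^ q = 1 ∧ g * x₀ * g⁻¹ = e * x₀ ^ m := by
    intro g hg
    obtain ⟨m, hm1, hm2⟩ := hAc g hg
    refine ⟨m, hm1, hm2, g * x₀ * g⁻¹ * (x₀ ^ m)⁻¹, ?_, ?_, by group⟩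
    · exact R.mul_mem (hRn.conj_mem _ hx₀R g) (R.inv_mem (R.pow_mem hx₀R m))
    · rw [hpwq _ (hRn.conj_mem _ hx₀R g) _ (R.inv_mem (R.pow_mem hx₀R m)), conj_pow, hx₀, hm2,
        inv_pow, ← pow_mul, mul_comm m q, pow_mul, hx₀, mul_inv_cancel]
  obtain ⟨Eset, hEset⟩ : ∃ Eset : Set Γ, Eset = {e | e ∈ R ∧ e ^ q = 1} := ⟨_, rfl⟩
  have hEmem : ∀ e : Γ, e ∈ Eset ↔ (e ∈ R ∧ e ^ q = 1) := by
    intro e; rw [hEset]; exact Iff.rfl
  have hEconj : ∀ g ∈ A, ∀ e ∈ Eset, g * e * g⁻¹ ∈ Eset := by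
    intro g _ e he
    rw [hEmem] at he ⊢
    exact ⟨hRn.conj_mem _ he.1 g, by rw [conj_pow, he.2, mul_one, mul_inv_cancel]⟩
  have hCEconj : ∀ g ∈ A, ∀ r : Γ, (∀ e ∈ Eset, Commute r e) →
      ∀ e ∈ Eset, Commute (g * r * g⁻¹) e := by
    intro g hg r hr e he
    have h1 := hr _ (hEconj g⁻¹ (A.inv_mem hg) e he)
    rw [inv_inv] at h1
    have h2 : g * r * g⁻¹ * e = g * (r * (g⁻¹ * e * g)) * g⁻¹ := by group
    have h3 : e * (g * r * g⁻¹) = g * ((g⁻¹ * e * g) * r) * g⁻¹ := by group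
    show g * r * g⁻¹ * e = e * (g * r * g⁻¹)
    rw [h2, h3, h1.eq]
  obtain ⟨Dsub, hDsub⟩ : ∃ Dsub : Subgroup Γ,
      Dsub = R ⊓ Subgroup.centralizer (Eset ∪ {x₀}) := ⟨_, rfl⟩
  have hDmem : ∀ r : Γ, r ∈ Dsub ↔ (r ∈ R ∧ (∀ e ∈ Eset, Commute r e) ∧ Commute r x₀) := by
    intro r
    rw [hDsub, Subgroup.mem_inf, Subgroup.mem_centralizer_iff]
    constructor
    · rintro ⟨h1, h2⟩
      exact ⟨h1, fun e he => (h2 e (Or.inl he)).symm, (h2 x₀ (Or.inr rfl)).symm⟩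
    · rintro ⟨h1, h2, h3⟩
      refine ⟨h1, ?_⟩
      rintro h (hh | hh)
      · exact (h2 h hh).eq.symm
      · rw [Set.mem_singleton_iff] at hh
        rw [hh]; exact h3.eq.symm
  have hDconj : ∀ g ∈ A, ∀ r ∈ Dsub, g * r * g⁻¹ ∈ Dsub := by
    intro g hg r hr
    rw [hDmem] at hr ⊢
    obtain ⟨h1, h2, h3⟩ := hr
    refine ⟨hRn.conj_mem r h1 g, hCEconj g hg r h2, ?_⟩
    obtain ⟨m, -, -, e, heR, heq1, hex⟩ := hAx g⁻¹ (A.inv_mem hg)
    rw [inv_inv] at hex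
    have heE : e ∈ Eset := (hEmem e).2 ⟨heR, heq1⟩
    have h4 : Commute r (g⁻¹ * x₀ * g) := by
      rw [hex]; exact (h2 e heE).mul_right (h3.pow_right m)
    have h5 : g * r * g⁻¹ * x₀ = g * (r * (g⁻¹ * x₀ * g)) * g⁻¹ := by group
    have h6 : x₀ * (g * r * g⁻¹) = g * ((g⁻¹ * x₀ * g) * r) * g⁻¹ := by group
    show g * r * g⁻¹ * x₀ = x₀ * (g * r * g⁻¹)
    rw [h5, h6, h4.eq]
  have hAD : A ≤ Subgroup.normalizer (Dsub : Set Γ) := by
    intro g hg
    rw [Subgroup.mem_normalizer_iff]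
    intro h
    constructor
    · exact hDconj g hg h
    · intro hh
      have h1 := hDconj g⁻¹ (A.inv_mem hg) _ hh
      have e : g⁻¹ * (g * h * g⁻¹) * g⁻¹⁻¹ = h := by group
      rwa [e] at h1
  have hDR : Dsub ≤ R := fun r hr => ((hDmem r).1 hr).1
  have hB' : R ⊓ Subgroup.centralizer (A : Set Γ) ≤ ⁅R, R⁆ :=
    Cfsg.Agent.Helper10.inf_centralizer_le_commutator R A hcopR (le_of_eq hRA.symm)
  -- the key step: whatever centralizes `E` centralizes `x₀`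
  have hDkey : ∀ r ∈ R, (∀ e ∈ Eset, Commute r e) → Commute r x₀ := by
    intro r hr hrE
    have h1 : ∀ g ∈ A, r⁻¹⁻¹ * g * r⁻¹ * g⁻¹ ∈ Dsub := by
      intro g hg
      obtain ⟨m, hm1, hm2, e, heR, heq1, hex⟩ := hAx g hg
      have heE : e ∈ Eset := (hEmem e).2 ⟨heR, heq1⟩
      obtain ⟨r', hr'⟩ : ∃ r' : Γ, r' = g * r * g⁻¹ := ⟨_, rfl⟩
      have hr'R : r' ∈ R := by rw [hr']; exact hRn.conj_mem r hr g
      have hr'E : ∀ e ∈ Eset, Commute r' e := by rw [hr']; exact hCEconj g hg r hrE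
      have hg1 : ⁅x₀, r'⁆ ∈ ⁅R, R⁆ := hcm x₀ hx₀R r' hr'R
      have hg2 : ⁅x₀, r⁆ ∈ ⁅R, R⁆ := hcm x₀ hx₀R r hr
      have hconj : g * ⁅x₀, r⁆ * g⁻¹ = ⁅x₀, r'⁆ ^ m := by
        have e1 : g * ⁅x₀, r⁆ * g⁻¹ = ⁅g * x₀ * g⁻¹, r'⁆ := by
          rw [hr', commutatorElement_def, commutatorElement_def]; group
        rw [e1, hex]
        have e2 : ⁅e * x₀ ^ m, r'⁆ = ⁅x₀ ^ m, r'⁆ := by
          have hcc1 : Commute ⁅x₀ ^ m, r'⁆ e :=
            hR'cen _ (hcm _ (R.pow_mem hx₀R m) r' hr'R) e heR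
          have hcc2 : Commute r' e := hr'E e heE
          have hcc3 : r' * e⁻¹ = e⁻¹ * r' := (hcc2.inv_right).eq
          calc ⁅e * x₀ ^ m, r'⁆ = e * ⁅x₀ ^ m, r'⁆ * (r' * e⁻¹) * r'⁻¹ := by
                rw [commutatorElement_def, commutatorElement_def]; group
            _ = e * ⁅x₀ ^ m, r'⁆ * (e⁻¹ * r') * r'⁻¹ := by rw [hcc3]
            _ = (e * ⁅x₀ ^ m, r'⁆) * e⁻¹ := by group
            _ = (⁅x₀ ^ m, r'⁆ * e) * e⁻¹ := by rw [hcc1.eq]
            _ = ⁅x₀ ^ m, r'⁆ := by group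
        rw [e2, hcpow x₀ hx₀R r' hr'R m]
      have hconj2 : g * ⁅x₀, r⁆ * g⁻¹ = ⁅x₀, r⁆ ^ m := by
        obtain ⟨i, hi⟩ := hR'pow _ hg2
        rw [← hi, ← conj_pow, hm2, ← pow_mul, ← pow_mul, mul_comm]
      have heq2 : ⁅x₀, r'⁆ = ⁅x₀, r⁆ := by
        have h3 : ⁅x₀, r'⁆ ^ m = ⁅x₀, r⁆ ^ m := by rw [← hconj, hconj2]
        have hcomm : Commute ⁅x₀, r'⁆ ⁅x₀, r⁆ := hR'cen _ hg1 _ (hR'R hg2)
        have h4 : (⁅x₀, r'⁆ * ⁅x₀, r⁆⁻¹) ^ m = 1 := by
          rw [(hcomm.inv_right).mul_pow, h3, inv_pow, mul_inv_cancel]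
        have h5 : (⁅x₀, r'⁆ * ⁅x₀, r⁆⁻¹) ^ p = 1 :=
          hexp _ (Subgroup.mul_mem _ hg1 (Subgroup.inv_mem _ hg2))
        have h6 : orderOf (⁅x₀, r'⁆ * ⁅x₀, r⁆⁻¹) ∣ Nat.gcd m p :=
          Nat.dvd_gcd (orderOf_dvd_of_pow_eq_one h4) (orderOf_dvd_of_pow_eq_one h5)
        have h7 : Nat.gcd m p = 1 := by
          rw [Nat.gcd_comm]; exact (Nat.Prime.coprime_iff_not_dvd hp).2 hm1
        rw [h7, Nat.dvd_one, orderOf_eq_one_iff] at h6
        exact mul_inv_eq_one.1 h6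
      have h8 : Commute (r' * r⁻¹) x₀ := by
        have hz : Commute ⁅x₀, r⁆ (r' * r⁻¹) :=
          hR'cen _ hg2 _ (R.mul_mem hr'R (R.inv_mem hr))
        have e3 : x₀ * r' = ⁅x₀, r⁆ * r' * x₀ := by
          rw [← heq2, commutatorElement_def]; group
        have e4 : x₀ * r⁻¹ = r⁻¹ * ⁅x₀, r⁆⁻¹ * x₀ := by
          rw [commutatorElement_def]; group
        show r' * r⁻¹ * x₀ = x₀ * (r' * r⁻¹)
        calc r' * r⁻¹ * x₀ = (⁅x₀, r⁆ * (r' * r⁻¹)) * ⁅x₀, r⁆⁻¹ * x₀ := by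
              rw [hz.eq]; group
          _ = ⁅x₀, r⁆ * r' * (r⁻¹ * ⁅x₀, r⁆⁻¹ * x₀) := by group
          _ = ⁅x₀, r⁆ * r' * (x₀ * r⁻¹) := by rw [e4]
          _ = (⁅x₀, r⁆ * r' * x₀) * r⁻¹ := by group
          _ = x₀ * r' * r⁻¹ := by rw [← e3]
          _ = x₀ * (r' * r⁻¹) := by group
      have h9 : r' * r⁻¹ ∈ Dsub := by
        rw [hDmem]
        refine ⟨R.mul_mem hr'R (R.inv_mem hr), ?_, h8⟩
        intro e' he'
        exact (hr'E e' he').mul_left ((hrE e' he').inv_left)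
      have e5 : r⁻¹⁻¹ * g * r⁻¹ * g⁻¹ = (r' * r⁻¹)⁻¹ := by rw [hr']; group
      rw [e5]
      exact Dsub.inv_mem h9
    obtain ⟨d, hd, hdc⟩ := Cfsg.Agent.Helper1.coprime_coset_fixed A R Dsub hAR hAD hDR
      hcopR.symm (Or.inr hsolvR) r⁻¹ (R.inv_mem hr) h1
    have hz : r⁻¹ * d ∈ ⁅R, R⁆ :=
      hB' (Subgroup.mem_inf.2 ⟨R.mul_mem (R.inv_mem hr) (hDR hd), hdc⟩)
    have hdx : Commute d x₀ := ((hDmem d).1 hd).2.2
    have hzx : Commute (r⁻¹ * d) x₀ := hR'cen _ hz x₀ hx₀R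
    have e6 : r = d * (r⁻¹ * d)⁻¹ := by group
    rw [e6]
    exact hdx.mul_left hzx.inv_left
  by_cases hcase : ∀ e ∈ Eset, ∀ r ∈ R, Commute r e
  · apply hx₀nc
    intro r hr
    exact (hDkey r hr (fun e he => hcase e he r hr)).symm
  · push Not at hcase
    obtain ⟨y, hyE, r₀, hr₀R, hyr₀⟩ := hcase
    have hyR : y ∈ R := ((hEmem y).1 hyE).1
    have hyq : y ^ q = 1 := ((hEmem y).1 hyE).2
    obtain ⟨F, hF⟩ : ∃ F : Subgroup Γ,
        ∀ x : Γ, x ∈ F ↔ (x ∈ R ∧ ∃ w ∈ R, x ^ q = (w ^ p) ^ q) := by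
      refine ⟨{ carrier := {x | x ∈ R ∧ ∃ w ∈ R, x ^ q = (w ^ p) ^ q}
                mul_mem' := ?_
                one_mem' := ?_
                inv_mem' := ?_ }, fun x => Iff.rfl⟩
      · rintro x x' ⟨hx, w₁, hw₁, hxw⟩ ⟨hx', w₂, hw₂, hxw'⟩
        refine ⟨R.mul_mem hx hx', w₁ * w₂, R.mul_mem hw₁ hw₂, ?_⟩
        rw [hpwq x hx x' hx', hxw, hxw', hpw w₁ hw₁ w₂ hw₂,
          hpwq _ (R.pow_mem hw₁ p) _ (R.pow_mem hw₂ p)]
      · exact ⟨R.one_mem, 1, R.one_mem, by simp⟩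
      · rintro x ⟨hx, w₁, hw₁, hxw⟩
        refine ⟨R.inv_mem hx, w₁⁻¹, R.inv_mem hw₁, ?_⟩
        simp only [inv_pow, hxw]
    have hx₀F : x₀ ∉ F := by
      intro h
      obtain ⟨-, w₁, hw₁, hxw⟩ := (hF x₀).1 h
      apply hkmax
      exact ⟨w₁, hw₁, by rw [hqk, ← hxw, hx₀]⟩
    have hFR : F ≤ R := fun x hx => ((hF x).1 hx).1
    have hEF : ∀ e ∈ Eset, e ∈ F := by
      intro e he
      rw [hEmem] at he
      exact (hF e).2 ⟨he.1, 1, R.one_mem, by rw [he.2]; simp⟩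
    obtain ⟨Zc, hZc⟩ : ∃ Zc : Subgroup Γ, Zc = R ⊓ Subgroup.centralizer (R : Set Γ) :=
      ⟨_, rfl⟩
    have hZmem : ∀ z : Γ, z ∈ Zc ↔ (z ∈ R ∧ ∀ r ∈ R, Commute z r) := by
      intro z
      rw [hZc, Subgroup.mem_inf, Subgroup.mem_centralizer_iff]
      constructor
      · rintro ⟨h1, h2⟩
        exact ⟨h1, fun r hr => (h2 r hr).symm⟩
      · rintro ⟨h1, h2⟩
        exact ⟨h1, fun r hr => (h2 r hr).eq.symm⟩
    have hZF : Zc ≤ F := by
      intro z hz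
      obtain ⟨hzR, hzc⟩ := (hZmem z).1 hz
      obtain ⟨w₁, hw₁, hzw⟩ := hZ z hzR hzc
      exact (hF z).2 ⟨hzR, w₁, hw₁, by rw [hzw]⟩
    obtain ⟨Cy, hCy⟩ : ∃ Cy : Subgroup Γ, Cy = R ⊓ Subgroup.centralizer ({y} : Set Γ) :=
      ⟨_, rfl⟩
    have hCymem : ∀ z : Γ, z ∈ Cy ↔ (z ∈ R ∧ Commute z y) := by
      intro z
      rw [hCy, Subgroup.mem_inf, Subgroup.mem_centralizer_iff]
      constructor
      · rintro ⟨h1, h2⟩
        exact ⟨h1, (h2 y rfl).symm⟩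
      · rintro ⟨h1, h2⟩
        refine ⟨h1, ?_⟩
        intro h hh
        rw [Set.mem_singleton_iff] at hh
        rw [hh]; exact h2.eq.symm
    have hCyR : Cy ≤ R := fun x hx => ((hCymem x).1 hx).1
    have hZCy : Zc ≤ Cy := by
      intro z hz
      obtain ⟨hzR, hzc⟩ := (hZmem z).1 hz
      exact (hCymem z).2 ⟨hzR, hzc y hyR⟩
    have hyCy : y ∈ Cy := (hCymem y).2 ⟨hyR, Commute.refl y⟩
    have hyF : y ∈ F := hEF y hyE
    have hyZ : y ∉ Zc := by
      intro h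
      exact hyr₀ (((hZmem y).1 h).2 r₀ hr₀R).symm
    have hr₀Cy : r₀ ∉ Cy := fun h => hyr₀ ((hCymem r₀).1 h).2
    have hLcard : Nat.card R ≤ p * p * Nat.card Zc := by
      have hapc : ∀ r ∈ R, Commute (a ^ p) r := hpcen a haR
      have hbpc : ∀ r ∈ R, Commute (b ^ p) r := hpcen b hbR
      have hzmem : ∀ s t : ℕ, (a ^ p) ^ s * (b ^ p) ^ t ∈ Zc := by
        intro s t
        rw [hZmem]
        refine ⟨R.mul_mem (R.pow_mem (R.pow_mem haR p) s) (R.pow_mem (R.pow_mem hbR p) t), ?_⟩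
        intro r hr
        exact ((hapc r hr).pow_left s).mul_left ((hbpc r hr).pow_left t)
      obtain ⟨f, hf⟩ : ∃ f : Fin p × Fin p × ↥Zc → ↥R, ∀ t : Fin p × Fin p × ↥Zc,
          ((f t : ↥R) : Γ) = a ^ (t.1 : ℕ) * b ^ (t.2.1 : ℕ) * (t.2.2 : Γ) :=
        ⟨fun t => ⟨a ^ (t.1 : ℕ) * b ^ (t.2.1 : ℕ) * (t.2.2 : Γ),
          R.mul_mem (R.mul_mem (R.pow_mem haR _) (R.pow_mem hbR _))
            (((hZmem _).1 t.2.2.2).1)⟩, fun t => rfl⟩
      have hfs : Function.Surjective f := by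
        rintro ⟨x, hx⟩
        obtain ⟨i, j, rfl⟩ := hgen x hx
        refine ⟨(⟨i % p, Nat.mod_lt _ hp.pos⟩, ⟨j % p, Nat.mod_lt _ hp.pos⟩,
          ⟨(a ^ p) ^ (i / p) * (b ^ p) ^ (j / p), hzmem _ _⟩), ?_⟩
        apply Subtype.ext
        rw [hf]
        show a ^ (i % p) * b ^ (j % p) * ((a ^ p) ^ (i / p) * (b ^ p) ^ (j / p)) = a ^ i * b ^ j
        have e1 : a ^ i = a ^ (i % p) * (a ^ p) ^ (i / p) := by
          rw [← pow_mul, ← pow_add, Nat.mod_add_div]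
        have e2 : b ^ j = b ^ (j % p) * (b ^ p) ^ (j / p) := by
          rw [← pow_mul, ← pow_add, Nat.mod_add_div]
        have e3 : Commute ((a ^ p) ^ (i / p)) (b ^ (j % p)) :=
          (hapc _ (R.pow_mem hbR _)).pow_left _
        rw [e1, e2]
        calc a ^ (i % p) * b ^ (j % p) * ((a ^ p) ^ (i / p) * (b ^ p) ^ (j / p))
            = a ^ (i % p) * (b ^ (j % p) * (a ^ p) ^ (i / p)) * (b ^ p) ^ (j / p) := by
              simp only [mul_assoc]
          _ = a ^ (i % p) * ((a ^ p) ^ (i / p) * b ^ (j % p)) * (b ^ p) ^ (j / p) := by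
              rw [e3.eq]
          _ = a ^ (i % p) * (a ^ p) ^ (i / p) * (b ^ (j % p) * (b ^ p) ^ (j / p)) := by
              simp only [mul_assoc]
      have h1 := Nat.card_le_card_of_surjective f hfs
      rw [Nat.card_prod, Nat.card_prod, Nat.card_fin] at h1
      calc Nat.card R ≤ p * (p * Nat.card Zc) := h1
        _ = p * p * Nat.card Zc := by ring
    obtain ⟨H₁, hH₁⟩ : ∃ H₁ : Subgroup Γ, H₁ = Cy ⊓ F := ⟨_, rfl⟩
    have hH₁Cy : H₁ ≤ Cy := by rw [hH₁]; exact inf_le_left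
    have hH₁F : H₁ ≤ F := by rw [hH₁]; exact inf_le_right
    have hZH₁ : Zc ≤ H₁ := by rw [hH₁]; exact le_inf hZCy hZF
    have hH₁nZ : ¬ H₁ ≤ Zc := by
      intro h
      apply hyZ
      apply h
      rw [hH₁]; exact Subgroup.mem_inf.2 ⟨hyCy, hyF⟩
    have hcd1 := ma_card_ge Zc H₁ (hR.to_le (hH₁Cy.trans hCyR)) hZH₁ hH₁nZ
    have hcd2 := ma_card_ge Cy R hR hCyR (fun h => hr₀Cy (h hr₀R))
    have hcd3 := ma_card_ge F R hR hFR (fun h => hx₀F (h hx₀R))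
    have hCyeq : H₁ = Cy := by
      apply Subgroup.eq_of_le_of_card_ge hH₁Cy
      have h1 : p * Nat.card Cy ≤ p * (p * Nat.card Zc) := by
        calc p * Nat.card Cy ≤ Nat.card R := hcd2
          _ ≤ p * p * Nat.card Zc := hLcard
          _ = p * (p * Nat.card Zc) := by ring
      exact (Nat.le_of_mul_le_mul_left h1 hp.pos).trans hcd1
    have hFeq : H₁ = F := by
      apply Subgroup.eq_of_le_of_card_ge hH₁F
      have h1 : p * Nat.card F ≤ p * (p * Nat.card Zc) := by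
        calc p * Nat.card F ≤ Nat.card R := hcd3
          _ ≤ p * p * Nat.card Zc := hLcard
          _ = p * (p * Nat.card Zc) := by ring
      exact (Nat.le_of_mul_le_mul_left h1 hp.pos).trans hcd1
    have hyx₀ : Commute y x₀ := by
      apply hDkey y hyR
      intro e he
      have h1 : e ∈ Cy := by rw [← hCyeq, hFeq]; exact hEF e he
      exact ((hCymem e).1 h1).2.symm
    apply hx₀F
    rw [← hFeq, hCyeq]
    exact (hCymem x₀).2 ⟨hx₀R, hyx₀.symm⟩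

/-- A metacyclic `p`-group `R` (`p` odd), normal in `Γ`, with `[R, A] = R` for a `p'`-group `A`,
is abelian. -/
theorem ma_norm {Γ : Type u} [Group Γ] [Finite Γ] {p : ℕ} [Fact p.Prime] (hp2 : p ≠ 2)
    (R A : Subgroup Γ) [hRn : R.Normal] (hR : IsPGroup p R) (hm : Cfsg.IsMetacyclic R)
    (hcop : (Nat.card A).Coprime p) (hRA : ⁅R, A⁆ = R) :
    ∀ x ∈ R, ∀ y ∈ R, x * y = y * x := by
  classical
  have hp : p.Prime := Fact.out
  obtain ⟨T, hT⟩ : ∃ T : Subgroup Γ,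
      T = Subgroup.closure {g : Γ | ∃ w ∈ ⁅R, R⁆, g = w ^ p} := ⟨_, rfl⟩
  haveI hR'n : (⁅R, R⁆ : Subgroup Γ).Normal := inferInstance
  have hR'R : ⁅R, R⁆ ≤ R := Subgroup.commutator_le_left R R
  haveI hTn : T.Normal := by
    rw [hT]
    apply closure_normal_of_conj
    rintro _ ⟨w, hw, rfl⟩ g
    exact ⟨g * w * g⁻¹, hR'n.conj_mem w hw g, by rw [conj_pow]⟩
  obtain ⟨π, hπ⟩ : ∃ π : Γ →* Γ ⧸ T, π = QuotientGroup.mk' T := ⟨_, rfl⟩
  have hπs : Function.Surjective π := by rw [hπ]; exact QuotientGroup.mk'_surjective T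
  have hker : ∀ x : Γ, π x = 1 ↔ x ∈ T := by
    intro x; rw [hπ]; exact QuotientGroup.eq_one_iff x
  haveI hRbn : (R.map π).Normal := Subgroup.Normal.map hRn π hπs
  have h1 : ∀ x ∈ R.map π, ∀ y ∈ R.map π, x * y = y * x := by
    apply ma_c2 hp2 (R.map π) (A.map π) (hR.map π)
    · exact ma_meta_surj hm (π.subgroupMap R) (π.subgroupMap_surjective R)
    · exact Nat.Coprime.coprime_dvd_left (Subgroup.card_map_dvd A π) hcop
    · rw [← Subgroup.map_commutator, hRA]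
    · intro z hz
      rw [← Subgroup.map_commutator] at hz
      obtain ⟨w, hw, rfl⟩ := hz
      rw [← map_pow, hker, hT]
      exact Subgroup.subset_closure ⟨w, hw, rfl⟩
  have h2 : ⁅R, R⁆ ≤ T := by
    rw [Subgroup.commutator_le]
    intro x hx y hy
    rw [← hker, map_commutatorElement, commutatorElement_eq_one_iff_commute]
    exact h1 _ (Subgroup.mem_map_of_mem π hx) _ (Subgroup.mem_map_of_mem π hy)
  have hR'bot : (⁅R, R⁆ : Subgroup Γ) = ⊥ := by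
    obtain ⟨hcyc, hmapc⟩ := ma_comm_cyclic R hm
    haveI := hcyc
    obtain ⟨g, hg⟩ := IsCyclic.exists_generator (α := ↥(commutator ↥R))
    obtain ⟨v, hv⟩ : ∃ v : Γ, v = ((g : ↥R) : Γ) := ⟨_, rfl⟩
    have hvR' : v ∈ ⁅R, R⁆ := by
      rw [← hmapc, hv]; exact Subgroup.mem_map_of_mem R.subtype g.2
    have hgen : ∀ z ∈ ⁅R, R⁆, ∃ i : ℤ, v ^ i = z := by
      intro z hz
      rw [← hmapc] at hz
      obtain ⟨z', hz', rfl⟩ := hz
      obtain ⟨i, hi⟩ := Subgroup.mem_zpowers_iff.1 (hg ⟨z', hz'⟩)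
      refine ⟨i, ?_⟩
      have h3 := congrArg (fun t : ↥(commutator ↥R) => ((t : ↥R) : Γ)) hi
      rw [hv]
      simpa using h3
    have hTle : T ≤ Subgroup.zpowers (v ^ p) := by
      rw [hT, Subgroup.closure_le]
      rintro _ ⟨w, hw, rfl⟩
      obtain ⟨i, rfl⟩ := hgen w hw
      rw [SetLike.mem_coe, Subgroup.mem_zpowers_iff]
      refine ⟨i, ?_⟩
      rw [← zpow_natCast (v ^ i) p, ← zpow_mul, ← zpow_natCast v p, ← zpow_mul, mul_comm]
    have hv1 : v = 1 := by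
      have h3 : v ∈ Subgroup.zpowers (v ^ p) := hTle (h2 hvR')
      obtain ⟨j, hj⟩ := Subgroup.mem_zpowers_iff.1 h3
      have h4 : v ^ ((p : ℤ) * j - 1) = 1 := by
        rw [zpow_sub, zpow_mul, zpow_natCast, hj, zpow_one, mul_inv_cancel]
      have h5 : (orderOf v : ℤ) ∣ (p : ℤ) * j - 1 := orderOf_dvd_iff_zpow_eq_one.2 h4
      by_contra hne
      have h6 : p ∣ orderOf v := by
        obtain ⟨k, hk⟩ := hR ⟨v, hR'R hvR'⟩
        have hk' : v ^ (p ^ k) = 1 := by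
          have h := congrArg Subtype.val hk
          simpa using h
        obtain ⟨e, -, he⟩ := (Nat.dvd_prime_pow hp).1 (orderOf_dvd_of_pow_eq_one hk')
        have he0 : e ≠ 0 := by
          intro h0
          rw [h0, pow_zero, orderOf_eq_one_iff] at he
          exact hne he
        rw [he]; exact dvd_pow_self p he0
      have h7 : (p : ℤ) ∣ (p : ℤ) * j - 1 := (Int.natCast_dvd_natCast.2 h6).trans h5
      have h8 : (p : ℤ) ∣ 1 := by
        have h9 : (p : ℤ) ∣ (p : ℤ) * j := dvd_mul_right _ _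
        have h10 := dvd_sub h9 h7
        simpa using h10
      have h11 : p ∣ 1 := by
        have h12 : ((p : ℕ) : ℤ) ∣ ((1 : ℕ) : ℤ) := by simpa using h8
        exact Int.natCast_dvd_natCast.1 h12
      exact hp.one_lt.ne' (Nat.dvd_one.1 h11)
    rw [eq_bot_iff]
    intro z hz
    obtain ⟨i, rfl⟩ := hgen z hz
    rw [hv1, one_zpow]; exact Subgroup.one_mem _
  intro x hx y hy
  have h3 : ⁅x, y⁆ ∈ (⁅R, R⁆ : Subgroup Γ) := Subgroup.commutator_mem_commutator hx hy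
  rw [hR'bot, Subgroup.mem_bot] at h3
  exact (commutatorElement_eq_one_iff_commute.1 h3).eq

/-- A metacyclic `p`-group `K` (`p` odd) with `[K, A] = K` for a `p'`-group `A` normalizing it is
abelian, and `C_K(A) = 1`. -/
theorem ma_wrap {G : Type u} [Group G] [Finite G] {p : ℕ} [Fact p.Prime] (hp2 : p ≠ 2)
    (K A : Subgroup G) (hK : IsPGroup p K) (hm : Cfsg.IsMetacyclic K)
    (hA : A ≤ Subgroup.normalizer (K : Set G)) (hcop : (Nat.card A).Coprime p)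
    (hKA : ⁅K, A⁆ = K) :
    (∀ x ∈ K, ∀ y ∈ K, x * y = y * x) ∧ K ⊓ Subgroup.centralizer (A : Set G) = ⊥ := by
  obtain ⟨Γ, hΓ⟩ : ∃ Γ : Subgroup G, Γ = Subgroup.normalizer (K : Set G) := ⟨_, rfl⟩
  have hKΓ : K ≤ Γ := by rw [hΓ]; exact Subgroup.le_normalizer
  have hAΓ : A ≤ Γ := by rw [hΓ]; exact hA
  haveI hKn : (K.subgroupOf Γ).Normal := by
    rw [hΓ]; exact Subgroup.normal_in_normalizer
  have hKp : IsPGroup p ↥(K.subgroupOf Γ) :=
    hK.of_equiv (Subgroup.subgroupOfEquivOfLe hKΓ).symm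
  have hKm : Cfsg.IsMetacyclic ↥(K.subgroupOf Γ) :=
    ma_meta_surj hm (Subgroup.subgroupOfEquivOfLe hKΓ).symm.toMonoidHom
      (Subgroup.subgroupOfEquivOfLe hKΓ).symm.surjective
  have hAc : (Nat.card (A.subgroupOf Γ)).Coprime p := by
    rw [Nat.card_congr (Subgroup.subgroupOfEquivOfLe hAΓ).toEquiv]; exact hcop
  have hcomm : ⁅K.subgroupOf Γ, A.subgroupOf Γ⁆ = K.subgroupOf Γ := by
    apply Subgroup.map_injective Γ.subtype_injective
    rw [Subgroup.map_commutator, Subgroup.map_subgroupOf_eq_of_le hKΓ,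
      Subgroup.map_subgroupOf_eq_of_le hAΓ, hKA]
  have h1 := ma_norm hp2 (K.subgroupOf Γ) (A.subgroupOf Γ) hKp hKm hAc hcomm
  have hab : ∀ x ∈ K, ∀ y ∈ K, x * y = y * x := by
    intro x hx y hy
    have h2 := h1 ⟨x, hKΓ hx⟩ (Subgroup.mem_subgroupOf.2 hx) ⟨y, hKΓ hy⟩
      (Subgroup.mem_subgroupOf.2 hy)
    exact congrArg Subtype.val h2
  refine ⟨hab, ?_⟩
  have hcopK : (Nat.card (K.subgroupOf Γ)).Coprime (Nat.card (A.subgroupOf Γ)) := by
    obtain ⟨n, hn⟩ := IsPGroup.iff_card.1 hKp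
    rw [hn]; exact (Nat.Coprime.pow_right n hAc).symm
  have h3 := Cfsg.Agent.Helper10.inf_centralizer_le_commutator (K.subgroupOf Γ)
    (A.subgroupOf Γ) hcopK (le_of_eq hcomm.symm)
  rw [eq_bot_iff]
  intro x hx
  obtain ⟨hxK, hxC⟩ := Subgroup.mem_inf.1 hx
  have h4 : (⟨x, hKΓ hxK⟩ : ↥Γ) ∈ K.subgroupOf Γ ⊓
      Subgroup.centralizer ((A.subgroupOf Γ : Subgroup ↥Γ) : Set ↥Γ) := by
    refine Subgroup.mem_inf.2 ⟨Subgroup.mem_subgroupOf.2 hxK, ?_⟩
    rw [Subgroup.mem_centralizer_iff]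
    intro h hh
    apply Subtype.ext
    exact (Subgroup.mem_centralizer_iff.1 hxC) h.1 (Subgroup.mem_subgroupOf.1 hh)
  have h5 := h3 h4
  have h6 : ⁅K.subgroupOf Γ, K.subgroupOf Γ⁆ = ⊥ := by
    rw [eq_bot_iff, Subgroup.commutator_le]
    intro y hy z hz
    rw [Subgroup.mem_bot, commutatorElement_eq_one_iff_commute]
    exact h1 y hy z hz
  rw [h6, Subgroup.mem_bot] at h5
  rw [Subgroup.mem_bot]
  exact congrArg Subtype.val h5

/-- In a metacyclic `p`-group (`p` odd), if `X ∩ Y = 1` and `Y ≠ 1` then `X` is cyclic. -/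
theorem ma_cyc {G : Type u} [Group G] [Finite G] {p : ℕ} [Fact p.Prime] (hp2 : p ≠ 2)
    (R : Subgroup G) (hR : IsPGroup p R) (hm : Cfsg.IsMetacyclic R)
    (X Y : Subgroup G) (hXR : X ≤ R) (hYR : Y ≤ R) (hXY : X ⊓ Y = ⊥) (hY : Y ≠ ⊥) :
    IsCyclic ↥X := by
  have hp : p.Prime := Fact.out
  have hXp : IsPGroup p ↥X := hR.to_le hXR
  obtain ⟨Ω, hΩ⟩ : ∃ Ω : Subgroup ↥R, ∀ x : ↥R, x ∈ Ω ↔ x ^ p = 1 := by
    refine ⟨{ carrier := {x | x ^ p = 1}
              mul_mem' := ?_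
              one_mem' := ?_
              inv_mem' := ?_ }, fun x => Iff.rfl⟩
    · intro x y hx hy
      exact meta_closed p hp2 ↥R hR hm x y hx hy
    · exact one_pow p
    · intro x hx
      show x⁻¹ ^ p = 1
      rw [inv_pow, hx, inv_one]
  have hΩcard : Nat.card Ω ≤ p ^ 2 := by
    obtain ⟨N, hN, hcN, hcQ⟩ := hm
    haveI := hN
    haveI := hcN
    haveI := hcQ
    exact meta_exp_card_le hp.pos N Ω (fun h hh => (hΩ h).1 hh)
  obtain ⟨ΩG, hΩG⟩ : ∃ ΩG : Subgroup G, ΩG = Ω.map R.subtype := ⟨_, rfl⟩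
  have hΩGcard : Nat.card ΩG ≤ p ^ 2 := by
    rw [hΩG, Subgroup.card_map_of_injective R.subtype_injective]; exact hΩcard
  have hΩGmem : ∀ x : G, x ∈ R → x ^ p = 1 → x ∈ ΩG := by
    intro x hx hxp
    rw [hΩG]
    refine Subgroup.mem_map.2 ⟨⟨x, hx⟩, (hΩ _).2 ?_, rfl⟩
    apply Subtype.ext
    simpa using hxp
  have hYp : IsPGroup p ↥Y := hR.to_le hYR
  obtain ⟨y, hyY, hy1, hyp⟩ : ∃ y ∈ Y, y ≠ 1 ∧ y ^ p = 1 := by
    obtain ⟨k, hk⟩ := IsPGroup.iff_card.1 hYp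
    have hk0 : k ≠ 0 := by
      intro h0
      rw [h0, pow_zero] at hk
      exact hY (Subgroup.eq_bot_of_card_eq _ hk)
    obtain ⟨y', hy'⟩ := exists_prime_orderOf_dvd_card' (G := ↥Y) p
      (by rw [hk]; exact dvd_pow_self p hk0)
    refine ⟨(y' : G), y'.2, ?_, ?_⟩
    · intro h
      have h1 : y' = 1 := Subtype.ext h
      rw [h1, orderOf_one] at hy'
      exact hp.one_lt.ne hy'
    · have h1 : y' ^ p = 1 := by rw [← hy']; exact pow_orderOf_eq_one y'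
      have h := congrArg Subtype.val h1
      simpa using h
  apply Cfsg.Agent.Helper1.pgroup_unique_cyclic_odd p hp2 hXp
  intro H₁ H₂ hH₁ hH₂
  by_contra hne
  obtain ⟨U, hU⟩ : ∃ U : Subgroup G, U = H₁.map X.subtype ⊔ H₂.map X.subtype := ⟨_, rfl⟩
  have hU1 : H₁.map X.subtype ≤ U := by rw [hU]; exact le_sup_left
  have hU2 : H₂.map X.subtype ≤ U := by rw [hU]; exact le_sup_right
  have hUX : U ≤ X := by
    rw [hU]
    exact sup_le (Subgroup.map_subtype_le H₁) (Subgroup.map_subtype_le H₂)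
  have hc1 : Nat.card (H₁.map X.subtype) = p := by
    rw [Subgroup.card_map_of_injective X.subtype_injective]; exact hH₁
  have hc2 : Nat.card (H₂.map X.subtype) = p := by
    rw [Subgroup.card_map_of_injective X.subtype_injective]; exact hH₂
  have hexp : ∀ (H : Subgroup ↥X), Nat.card H = p → H.map X.subtype ≤ ΩG := by
    intro H hH
    rintro _ ⟨h, hh, rfl⟩
    apply hΩGmem _ (hXR h.2)
    have h1 : (⟨h, hh⟩ : ↥H) ^ p = 1 := by rw [← hH]; exact pow_card_eq_one'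
    have h2 := congrArg (fun t : ↥H => ((t : ↥X) : G)) h1
    simpa using h2
  have hUΩ : U ≤ ΩG := by
    rw [hU]; exact sup_le (hexp H₁ hH₁) (hexp H₂ hH₂)
  have hnle : ¬ U ≤ H₁.map X.subtype := by
    intro h
    apply hne
    have h3 : H₂.map X.subtype = H₁.map X.subtype :=
      Subgroup.eq_of_le_of_card_ge (hU2.trans h) (by rw [hc1, hc2])
    exact (Subgroup.map_injective X.subtype_injective h3).symm
  have hcU := ma_card_ge (H₁.map X.subtype) U (hR.to_le (hUX.trans hXR)) hU1 hnle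
  rw [hc1] at hcU
  have hUeq : U = ΩG := by
    apply Subgroup.eq_of_le_of_card_ge hUΩ
    calc Nat.card ΩG ≤ p ^ 2 := hΩGcard
      _ = p * p := by ring
      _ ≤ Nat.card U := hcU
  have hyX : y ∈ X := hUX (by rw [hUeq]; exact hΩGmem y (hYR hyY) hyp)
  have hy0 : y ∈ X ⊓ Y := Subgroup.mem_inf.2 ⟨hyX, hyY⟩
  rw [hXY, Subgroup.mem_bot] at hy0
  exact hy1 hy0

end Cfsg.Agent.Helper11
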