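import Mathlib
import Cfsg.Prelude
import Cfsg.Agent.Helper11.MetaAct
import Cfsg.Agent.Helper11.PPrime
import Cfsg.Agent.Helper24.Class3

set_option autoImplicit false

namespace Cfsg.Agent.Helper11

open scoped commutatorElement

universe u

/-- Elements of a subgroup of order `n` have `n`-th power one. -/
theorem oq_pow_card {G : Type*} [Group G] (H : Subgroup G) (n : ℕ) (h : Nat.card H = n) (x : G)
    (hx : x ∈ H) : x ^ n = 1 := by
  have h1 := pow_card_eq_one' (G := ↥H) (x := ⟨x, hx⟩)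
  rw [h] at h1
  exact congrArg Subtype.val h1

/-- `Ω₁` has the same order in isomorphic groups. -/
theorem oq_equiv {A B : Type*} [Group A] [Group B] (p : ℕ) (e : A ≃* B) :
    Nat.card ↥(Cfsg.omegaOne p (⊤ : Subgroup A)) =
      Nat.card ↥(Cfsg.omegaOne p (⊤ : Subgroup B)) := by
  have h : (Cfsg.omegaOne p (⊤ : Subgroup A)).map e.toMonoidHom =
      Cfsg.omegaOne p (⊤ : Subgroup B) := by
    show (Subgroup.closure {x : A | x ∈ (⊤ : Subgroup A) ∧ x ^ p = 1}).map e.toMonoidHom =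
      Subgroup.closure {x : B | x ∈ (⊤ : Subgroup B) ∧ x ^ p = 1}
    rw [MonoidHom.map_closure]
    congr 1
    ext y
    constructor
    · rintro ⟨x, ⟨-, hx⟩, rfl⟩
      refine ⟨Subgroup.mem_top _, ?_⟩
      show (e x) ^ p = 1
      rw [← map_pow, hx, map_one]
    · rintro ⟨-, hy⟩
      refine ⟨e.symm y, ⟨Subgroup.mem_top _, ?_⟩, ?_⟩
      · show (e.symm y) ^ p = 1
        rw [← map_pow, hy, map_one]
      · show e (e.symm y) = y
        exact e.apply_symm_apply y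
  have hinj : Function.Injective (e.toMonoidHom : A → B) := e.injective
  rw [← h]
  exact (Subgroup.card_map_of_injective hinj).symm

/-- A normal subgroup of order `p` of a `p`-group is central. -/
theorem oq_central {G : Type*} [Group G] [Finite G] {p : ℕ} [Fact p.Prime] (hG : IsPGroup p G)
    (N : Subgroup G) [N.Normal] (hN : Nat.card N = p) : N ≤ Subgroup.center G := by
  have hpr : p.Prime := Fact.out
  haveI : Group.IsNilpotent G := hG.isNilpotent
  have hNb : N ≠ ⊥ := by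
    intro h
    rw [h, Subgroup.card_bot] at hN
    exact hpr.one_lt.ne hN
  obtain ⟨w, hwN, hw1, hwc⟩ := Cfsg.Agent.Helper24.exists_mem_center_of_normal N hNb
  have hwp : w ^ p = 1 := oq_pow_card N p hN w hwN
  have hwo : orderOf w = p := orderOf_eq_prime hwp hw1
  have hle : Subgroup.zpowers w ≤ N := Subgroup.zpowers_le.2 hwN
  have heq : Subgroup.zpowers w = N :=
    Subgroup.eq_of_le_of_card_ge hle (le_of_eq (by rw [Nat.card_zpowers, hwo, hN]))
  rw [← heq]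
  exact Subgroup.zpowers_le.2 hwc

/-- In a `p`-group, an element normalizing a subgroup of order `p` centralizes it. -/
theorem oq_norm_cent {G : Type*} [Group G] [Finite G] {p : ℕ} [Fact p.Prime] (hG : IsPGroup p G)
    (a g : G) (hao : orderOf a = p) (h : g * a * g⁻¹ ∈ Subgroup.zpowers a) : Commute g a := by
  obtain ⟨m, hm⟩ : ∃ m : ℕ, a ^ m = g * a * g⁻¹ := by
    rw [← mem_powers_iff_mem_zpowers] at h
    exact (Submonoid.mem_powers_iff _ _).1 h
  have hiter : ∀ i : ℕ, g ^ i * a * (g ^ i)⁻¹ = a ^ (m ^ i) := by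
    intro i
    induction i with
    | zero => simp
    | succ i ih =>
      have h0 : g ^ (i + 1) * a * (g ^ (i + 1))⁻¹ = g * (g ^ i * a * (g ^ i)⁻¹) * g⁻¹ := by
        simp only [pow_succ', mul_inv_rev, mul_assoc]
      rw [h0, ih, ← conj_pow, ← hm, ← pow_mul, ← pow_succ']
  obtain ⟨n, hn⟩ := hG g
  have h1 := hiter (p ^ n)
  rw [hn, one_mul, inv_one, mul_one] at h1
  have h2 : a ^ (m ^ (p ^ n)) = a ^ 1 := by rw [pow_one]; exact h1.symm
  have h3 : m ^ (p ^ n) ≡ 1 [MOD p] := by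
    have h := pow_eq_pow_iff_modEq.1 h2
    rwa [hao] at h
  have h4 : ((m : ZMod p)) ^ (p ^ n) = (m : ZMod p) := ZMod.pow_card_pow (m : ZMod p)
  have h5 : ((m ^ (p ^ n) : ℕ) : ZMod p) = ((1 : ℕ) : ZMod p) :=
    (ZMod.natCast_eq_natCast_iff _ _ _).2 h3
  rw [Nat.cast_pow, h4] at h5
  have h6 : m ≡ 1 [MOD p] := (ZMod.natCast_eq_natCast_iff _ _ _).1 h5
  have h7 : a ^ m = a ^ 1 := by
    rw [pow_eq_pow_iff_modEq, hao]; exact h6
  rw [pow_one] at h7
  have h8 : g * a * g⁻¹ = a := by rw [← hm, h7]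
  show g * a = a * g
  calc g * a = g * a * g⁻¹ * g := by group
    _ = a * g := by rw [h8]

/-- If the `p`-th power map is multiplicative on `E` with values in `T`, `|T| = p`, then the
elements of `E` of order dividing `p` form a subgroup of index at most `p`. -/
theorem oq_powker {R : Type*} [Group R] [Finite R] {p : ℕ} (T E : Subgroup R)
    (hTcard : Nat.card T = p)
    (hmul : ∀ x ∈ E, ∀ y ∈ E, (x * y) ^ p = x ^ p * y ^ p)
    (hpow : ∀ x ∈ E, x ^ p ∈ T) :
    ∃ K : Subgroup R, K ≤ E ∧ (∀ x ∈ K, x ^ p = 1) ∧ Nat.card E ≤ p * Nat.card K := by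
  obtain ⟨φ, hφ⟩ : ∃ φ : ↥E →* ↥T, ∀ x : ↥E, ((φ x : ↥T) : R) = (x : R) ^ p :=
    ⟨MonoidHom.mk' (fun x => ⟨(x : R) ^ p, hpow x.1 x.2⟩) (by
      intro a b
      apply Subtype.ext
      show ((a * b : ↥E) : R) ^ p = (a : R) ^ p * (b : R) ^ p
      exact hmul a.1 a.2 b.1 b.2), fun x => rfl⟩
  have hker : ∀ x : ↥E, x ∈ φ.ker ↔ (x : R) ^ p = 1 := by
    intro x
    rw [MonoidHom.mem_ker]
    constructor
    · intro h
      have h0 := congrArg Subtype.val h
      rw [hφ x] at h0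
      exact h0
    · intro h
      apply Subtype.ext
      rw [hφ x]
      exact h
  refine ⟨φ.ker.map E.subtype, ?_, ?_, ?_⟩
  · rintro x ⟨y, _, rfl⟩
    exact y.2
  · rintro x ⟨y, hy, rfl⟩
    exact (hker y).1 hy
  · have h1 := Subgroup.card_mul_index φ.ker
    have h2 : φ.ker.index = Nat.card φ.range := Subgroup.index_ker φ
    have h3 : Nat.card φ.range ≤ p := by
      rw [← hTcard]
      exact Subgroup.card_le_card_group φ.range
    have h4 : Nat.card ↥(φ.ker.map E.subtype) = Nat.card ↥φ.ker :=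
      Subgroup.card_map_of_injective E.subtype_injective
    rw [h4, ← h1, h2]
    calc Nat.card ↥φ.ker * Nat.card ↥φ.range ≤ Nat.card ↥φ.ker * p := Nat.mul_le_mul_left _ h3
      _ = p * Nat.card ↥φ.ker := mul_comm _ _

/-- The configuration in `R` that contradicts `|Ω₁(R)| ≤ p²`. -/
theorem oq_R {R : Type*} [Group R] [Finite R] {p : ℕ} [Fact p.Prime] (hp : 3 < p)
    (hO : Nat.card ↥(Cfsg.omegaOne p (⊤ : Subgroup R)) ≤ p ^ 2)
    (T Z M₁ M₂ E : Subgroup R)
    (hTc : T ≤ Subgroup.center R) (hTcard : Nat.card T = p)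
    (hZcard : Nat.card Z ≤ p ^ 2)
    (hM : M₁ ⊓ M₂ ≤ Z)
    (hM₁E : M₁ ≤ E) (hM₂E : M₂ ≤ E)
    (hM₁c : ∀ x ∈ M₁, ∀ y ∈ M₁, ⁅x, y⁆ ∈ T) (hM₂c : ∀ x ∈ M₂, ∀ y ∈ M₂, ⁅x, y⁆ ∈ T)
    (hM₁card : p ^ 3 ≤ Nat.card M₁) (hM₂card : p ^ 3 ≤ Nat.card M₂)
    (hEp : ∀ x ∈ E, x ^ p ∈ T)
    (hEc : ∀ x ∈ E, ∀ y ∈ E, ⁅x, y⁆ ∈ Z)
    (hZc : ∀ x ∈ Z, ∀ g : R, ⁅x, g⁆ ∈ T)
    (hEcard : p ^ 4 ≤ Nat.card E) : False := by
  have hpr : p.Prime := Fact.out
  have hH : ∀ K : Subgroup R, (∀ x ∈ K, x ^ p = 1) → Nat.card K ≤ p ^ 2 := by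
    intro K hK
    refine le_trans (Subgroup.card_le_of_le ?_) hO
    intro x hx
    exact Subgroup.subset_closure ⟨Subgroup.mem_top x, hK x hx⟩
  have hTp : ∀ t ∈ T, t ^ p = 1 := fun t ht => oq_pow_card T p hTcard t ht
  have hMmul : ∀ M : Subgroup R, (∀ x ∈ M, ∀ y ∈ M, ⁅x, y⁆ ∈ T) →
      ∀ x ∈ M, ∀ y ∈ M, (x * y) ^ p = x ^ p * y ^ p := by
    intro M hMc x hx y hy
    have hc : ⁅y, x⁆ ∈ T := hMc y hy x hx
    have hcc : ∀ g : R, Commute ⁅y, x⁆ g :=
      fun g => ((Subgroup.mem_center_iff.1 (hTc hc)) g).symm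
    rw [Cfsg.Agent.Helper24.mul_pow_of_commutator_central x y (hcc x) (hcc y) p]
    obtain ⟨l, hl⟩ : p ∣ p.choose 2 := hpr.dvd_choose_self (by norm_num) (by omega)
    rw [hl, pow_mul, hTp _ hc, one_pow, mul_one]
  have hker : ∀ M : Subgroup R, M ≤ E → (∀ x ∈ M, ∀ y ∈ M, ⁅x, y⁆ ∈ T) →
      p ^ 3 ≤ Nat.card M →
      Cfsg.omegaOne p (⊤ : Subgroup R) ≤ M ∧
      (∀ x ∈ Cfsg.omegaOne p (⊤ : Subgroup R), x ^ p = 1) ∧
      p ^ 2 ≤ Nat.card ↥(Cfsg.omegaOne p (⊤ : Subgroup R)) := by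
    intro M hME hMc hMcard
    obtain ⟨K, hKM, hKp, hKcard⟩ :=
      oq_powker T M hTcard (hMmul M hMc) (fun x hx => hEp x (hME hx))
    have hK3 : p ^ 2 ≤ Nat.card K := by
      have h1 : p ^ 3 ≤ p * Nat.card K := le_trans hMcard hKcard
      have e : p * p ^ 2 = p ^ 3 := by ring
      rw [← e] at h1
      exact Nat.le_of_mul_le_mul_left h1 hpr.pos
    have hKO : K ≤ Cfsg.omegaOne p (⊤ : Subgroup R) := by
      intro x hx
      exact Subgroup.subset_closure ⟨Subgroup.mem_top x, hKp x hx⟩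
    have hKeq : K = Cfsg.omegaOne p (⊤ : Subgroup R) :=
      Subgroup.eq_of_le_of_card_ge hKO (le_trans hO hK3)
    rw [← hKeq]
    exact ⟨hKM, hKp, hK3⟩
  obtain ⟨hΩ1, hΩp, hΩcard⟩ := hker M₁ hM₁E hM₁c hM₁card
  obtain ⟨hΩ2, -, -⟩ := hker M₂ hM₂E hM₂c hM₂card
  have hΩZ : Cfsg.omegaOne p (⊤ : Subgroup R) ≤ Z := le_trans (le_inf hΩ1 hΩ2) hM
  have hΩeq : Cfsg.omegaOne p (⊤ : Subgroup R) = Z :=
    Subgroup.eq_of_le_of_card_ge hΩZ (le_trans hZcard hΩcard)
  have hZp : ∀ x ∈ Z, x ^ p = 1 := by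
    rw [← hΩeq]; exact hΩp
  have hcomm : ∀ a b : ↥E, ((⁅a, b⁆ : ↥E) : R) ∈ Z := by
    intro a b
    have h : ((⁅a, b⁆ : ↥E) : R) = ⁅(a : R), (b : R)⁆ := map_commutatorElement E.subtype a b
    rw [h]
    exact hEc a.1 a.2 b.1 b.2
  have hcl : ⁅⁅commutator ↥E, (⊤ : Subgroup ↥E)⁆, (⊤ : Subgroup ↥E)⁆ = ⊥ := by
    have h1 : commutator ↥E ≤ Z.subgroupOf E := by
      rw [commutator_def, Subgroup.commutator_le]
      intro a _ b _
      rw [Subgroup.mem_subgroupOf]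
      exact hcomm a b
    have h2 : ⁅Z.subgroupOf E, (⊤ : Subgroup ↥E)⁆ ≤ T.subgroupOf E := by
      rw [Subgroup.commutator_le]
      intro a ha b _
      rw [Subgroup.mem_subgroupOf] at ha ⊢
      have h : ((⁅a, b⁆ : ↥E) : R) = ⁅(a : R), (b : R)⁆ := map_commutatorElement E.subtype a b
      rw [h]
      exact hZc _ ha _
    have h3 : ⁅T.subgroupOf E, (⊤ : Subgroup ↥E)⁆ = ⊥ := by
      rw [eq_bot_iff, Subgroup.commutator_le]
      intro a ha b _
      rw [Subgroup.mem_subgroupOf] at ha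
      rw [Subgroup.mem_bot]
      apply Subtype.ext
      have h : ((⁅a, b⁆ : ↥E) : R) = ⁅(a : R), (b : R)⁆ := map_commutatorElement E.subtype a b
      rw [h]
      show ⁅(a : R), (b : R)⁆ = 1
      rw [commutatorElement_eq_one_iff_commute]
      exact ((Subgroup.mem_center_iff.1 (hTc ha)) b).symm
    rw [eq_bot_iff]
    calc ⁅⁅commutator ↥E, (⊤ : Subgroup ↥E)⁆, (⊤ : Subgroup ↥E)⁆
        ≤ ⁅⁅Z.subgroupOf E, (⊤ : Subgroup ↥E)⁆, (⊤ : Subgroup ↥E)⁆ :=
          Subgroup.commutator_mono (Subgroup.commutator_mono h1 le_rfl) le_rfl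
      _ ≤ ⁅T.subgroupOf E, (⊤ : Subgroup ↥E)⁆ := Subgroup.commutator_mono h2 le_rfl
      _ = ⊥ := h3
  have hEmul : ∀ x ∈ E, ∀ y ∈ E, (x * y) ^ p = x ^ p * y ^ p := by
    intro x hx y hy
    have hexp : ∀ a b : ↥E, (⁅a, b⁆ : ↥E) ^ p = 1 := by
      intro a b
      apply Subtype.ext
      show ((⁅a, b⁆ : ↥E) : R) ^ p = 1
      exact hZp _ (hcomm a b)
    have h := Cfsg.Agent.Helper24.mul_pow_prime_of_class_three hpr hp hcl (⟨x, hx⟩ : ↥E)
      ⟨y, hy⟩ (hexp _ _) (hexp _ _) (hexp _ _)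
    have h0 := congrArg Subtype.val h
    have h1 : (x * y) ^ p = x ^ p * y ^ p := h0
    exact h1
  obtain ⟨K, hKE, hKp, hKcard⟩ := oq_powker T E hTcard hEmul hEp
  have hK2 : Nat.card K ≤ p ^ 2 := hH K hKp
  have h1 : p ^ 4 ≤ p * p ^ 2 :=
    le_trans hEcard (le_trans hKcard (Nat.mul_le_mul_left _ hK2))
  have e : p * p ^ 2 = p ^ 3 := by ring
  rw [e] at h1
  have h2 : p ^ 3 < p ^ 4 := Nat.pow_lt_pow_right hpr.one_lt (by norm_num)
  exact absurd h1 (not_le.2 h2)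

/-- A `p`-group `Q` (`p` odd) with `|Ω₁(Q)| > p²` contains a subgroup of order at least `p³` and
exponent `p`, with a convenient filtration. -/
theorem oq_Q {Q : Type*} [Group Q] [Finite Q] {p : ℕ} [Fact p.Prime] (hp2 : 2 < p)
    (hQ : IsPGroup p Q) (hcon : p ^ 2 < Nat.card ↥(Cfsg.omegaOne p (⊤ : Subgroup Q))) :
    ∃ Z A B E : Subgroup Q, Z ≤ Subgroup.center Q ∧ Nat.card Z = p ∧ A ⊓ B ≤ Z ∧ A ≤ E ∧
      B ≤ E ∧ (∀ u ∈ A, ∀ v ∈ A, ⁅u, v⁆ = 1) ∧ (∀ u ∈ B, ∀ v ∈ B, ⁅u, v⁆ = 1) ∧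
      p ^ 2 ≤ Nat.card A ∧ p ^ 2 ≤ Nat.card B ∧ (∀ u ∈ E, u ^ p = 1) ∧
      (∀ u ∈ E, ∀ v ∈ E, ⁅u, v⁆ ∈ Z) ∧ p ^ 3 ≤ Nat.card E := by
  have hpr : p.Prime := Fact.out
  have hQcard : p ^ 2 < Nat.card Q := lt_of_lt_of_le hcon (Subgroup.card_le_card_group _)
  haveI : Nontrivial Q := by
    apply Finite.one_lt_card_iff_nontrivial.1
    exact lt_of_le_of_lt (Nat.one_le_pow _ _ hpr.pos) hQcard
  haveI : Nontrivial ↥(Subgroup.center Q) := hQ.center_nontrivial
  obtain ⟨k, hk⟩ := IsPGroup.iff_card.1 (hQ.to_subgroup (Subgroup.center Q))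
  have hk0 : k ≠ 0 := by
    intro h0
    rw [h0, pow_zero] at hk
    have h1 := Finite.one_lt_card (α := ↥(Subgroup.center Q))
    omega
  obtain ⟨z', hz'⟩ := exists_prime_orderOf_dvd_card' (G := ↥(Subgroup.center Q)) p
    (by rw [hk]; exact dvd_pow_self p hk0)
  obtain ⟨z, hz⟩ : ∃ z : Q, z = (z' : Q) := ⟨_, rfl⟩
  have hzo : orderOf z = p := by
    rw [hz, Subgroup.orderOf_coe]
    exact hz'
  have hzc : z ∈ Subgroup.center Q := by
    rw [hz]
    exact z'.2
  obtain ⟨Z, hZ⟩ : ∃ Z : Subgroup Q, Z = Subgroup.zpowers z := ⟨_, rfl⟩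
  have hZc : Z ≤ Subgroup.center Q := by rw [hZ]; exact Subgroup.zpowers_le.2 hzc
  haveI hZn : Z.Normal := by
    refine ⟨fun a ha g => ?_⟩
    have hac : a ∈ Subgroup.center Q := hZc ha
    have h1 : g * a * g⁻¹ = a := by
      rw [Subgroup.mem_center_iff] at hac
      rw [hac g, mul_inv_cancel_right]
    rw [h1]
    exact ha
  have hZcard : Nat.card ↥Z = p := by rw [hZ, Nat.card_zpowers, hzo]
  have hzZ : z ∈ Z := by rw [hZ]; exact Subgroup.mem_zpowers z
  have hzp : z ^ p = 1 := by rw [← hzo]; exact pow_orderOf_eq_one z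
  have hZp : ∀ c ∈ Z, c ^ p = 1 := fun c hc => oq_pow_card Z p hZcard c hc
  -- the first element of order `p` outside `Z`
  have hex1 : ∃ y : Q, y ^ p = 1 ∧ y ∉ Z := by
    by_contra hno
    have hno' : ∀ y : Q, y ^ p = 1 → y ∈ Z := by
      intro y h1
      by_contra h2
      exact hno ⟨y, h1, h2⟩
    have hle : Cfsg.omegaOne p (⊤ : Subgroup Q) ≤ Z := by
      show Subgroup.closure {x : Q | x ∈ (⊤ : Subgroup Q) ∧ x ^ p = 1} ≤ Z
      apply (Subgroup.closure_le _).2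
      rintro x ⟨-, hx⟩
      exact hno' x hx
    have h1 := Subgroup.card_le_of_le hle
    rw [hZcard] at h1
    have h2 : p ≤ p ^ 2 := Nat.le_self_pow (by norm_num) p
    omega
  obtain ⟨y1, hy1p, hy1Z⟩ := hex1
  obtain ⟨ψ, hψ⟩ : ∃ ψ : Q →* Q ⧸ Z, ψ = QuotientGroup.mk' Z := ⟨_, rfl⟩
  have hψker : ∀ x : Q, ψ x = 1 ↔ x ∈ Z := by
    intro x
    rw [hψ]
    exact QuotientGroup.eq_one_iff x
  have hcomap : ∀ D : Subgroup (Q ⧸ Z), Nat.card ↥(D.comap ψ) = Nat.card ↥D * p := by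
    intro D
    rw [hψ, card_comap_mk Z D, hZcard]
  have hψz : ψ z = 1 := (hψker z).2 hzZ
  obtain ⟨a, ha⟩ : ∃ a : Q ⧸ Z, a = ψ y1 := ⟨_, rfl⟩
  have ha1 : a ≠ 1 := by
    rw [ha]
    intro h
    exact hy1Z ((hψker y1).1 h)
  have hap : a ^ p = 1 := by rw [ha, ← map_pow, hy1p, map_one]
  have hao : orderOf a = p := orderOf_eq_prime hap ha1
  have hacard : Nat.card ↥(Subgroup.zpowers a) = p := by rw [Nat.card_zpowers, hao]
  -- the second element
  have hex2 : ∃ y : Q, y ^ p = 1 ∧ Commute (ψ y) a ∧ ψ y ∉ Subgroup.zpowers a := by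
    by_contra hno
    have hno' : ∀ y : Q, y ^ p = 1 → Commute (ψ y) a → ψ y ∈ Subgroup.zpowers a := by
      intro y h1 h2
      by_contra h3
      exact hno ⟨y, h1, h2, h3⟩
    obtain ⟨C, hC⟩ : ∃ C : Subgroup Q,
        C = (Subgroup.centralizer (Subgroup.zpowers a : Set (Q ⧸ Z))).comap ψ := ⟨_, rfl⟩
    have hCmem : ∀ g : Q, g ∈ C ↔ Commute (ψ g) a := by
      intro g
      rw [hC, Subgroup.mem_comap, Subgroup.mem_centralizer_iff]
      constructor
      · intro h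
        exact (h a (Subgroup.mem_zpowers a)).symm
      · intro h x hx
        obtain ⟨j, rfl⟩ := Subgroup.mem_zpowers_iff.1 hx
        exact (h.zpow_right j).eq.symm
    have hCtop : C = ⊤ := by
      by_contra hne
      have hlt : C < ⊤ := lt_top_iff_ne_top.2 hne
      haveI : Group.IsNilpotent Q := hQ.isNilpotent
      have hnc := Group.normalizerCondition_of_isNilpotent (G := Q) C hlt
      obtain ⟨g, hgN, hgC⟩ := SetLike.exists_of_lt hnc
      apply hgC
      have hy1C : y1 ∈ C := by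
        apply (hCmem y1).2
        show ψ y1 * a = a * ψ y1
        rw [← ha]
      have h1 : g * y1 * g⁻¹ ∈ C := (Subgroup.mem_normalizer_iff.1 hgN y1).1 hy1C
      have h2 : (g * y1 * g⁻¹) ^ p = 1 := by
        rw [conj_pow, hy1p, mul_one, mul_inv_cancel]
      have h3 := hno' _ h2 ((hCmem _).1 h1)
      have h4 : ψ (g * y1 * g⁻¹) = ψ g * a * (ψ g)⁻¹ := by
        rw [map_mul, map_mul, map_inv, ← ha]
      rw [h4] at h3
      rw [hCmem]
      exact oq_norm_cent (hQ.to_quotient Z) a (ψ g) hao h3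
    have hle : Cfsg.omegaOne p (⊤ : Subgroup Q) ≤ (Subgroup.zpowers a).comap ψ := by
      show Subgroup.closure {x : Q | x ∈ (⊤ : Subgroup Q) ∧ x ^ p = 1} ≤
        (Subgroup.zpowers a).comap ψ
      apply (Subgroup.closure_le _).2
      rintro x ⟨-, hx⟩
      have hxC : x ∈ C := by rw [hCtop]; exact Subgroup.mem_top x
      exact Subgroup.mem_comap.2 (hno' x hx ((hCmem x).1 hxC))
    have h1 := Subgroup.card_le_of_le hle
    rw [hcomap, hacard] at h1
    have e : p * p = p ^ 2 := by ring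
    rw [e] at h1
    omega
  obtain ⟨y2, hy2p, hy2c, hy2A⟩ := hex2
  obtain ⟨b, hb⟩ : ∃ b : Q ⧸ Z, b = ψ y2 := ⟨_, rfl⟩
  rw [← hb] at hy2c hy2A
  have hb1 : b ≠ 1 := by
    intro h
    apply hy2A
    rw [h]
    exact Subgroup.one_mem _
  have hbp : b ^ p = 1 := by rw [hb, ← map_pow, hy2p, map_one]
  have hbo : orderOf b = p := orderOf_eq_prime hbp hb1
  have hbcard : Nat.card ↥(Subgroup.zpowers b) = p := by rw [Nat.card_zpowers, hbo]
  have hab : Commute a b := hy2c.symm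
  obtain ⟨A, hA⟩ : ∃ A : Subgroup Q, A = (Subgroup.zpowers a).comap ψ := ⟨_, rfl⟩
  obtain ⟨B, hB⟩ : ∃ B : Subgroup Q, B = (Subgroup.zpowers b).comap ψ := ⟨_, rfl⟩
  obtain ⟨E, hE⟩ : ∃ E : Subgroup Q, E = Subgroup.closure ({z, y1, y2} : Set Q) := ⟨_, rfl⟩
  have hzE : z ∈ E := by rw [hE]; exact Subgroup.subset_closure (by simp)
  have hy1E : y1 ∈ E := by rw [hE]; exact Subgroup.subset_closure (by simp)
  have hy2E : y2 ∈ E := by rw [hE]; exact Subgroup.subset_closure (by simp)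
  have hZE : Z ≤ E := by rw [hZ]; exact Subgroup.zpowers_le.2 hzE
  have hdec : ∀ (y : Q) (c : Q ⧸ Z), c = ψ y → ∀ x : Q, ψ x ∈ Subgroup.zpowers c →
      ∃ k : ℤ, ∃ w ∈ Z, x = y ^ k * w := by
    intro y c hc x hx
    obtain ⟨k, hk⟩ := Subgroup.mem_zpowers_iff.1 hx
    refine ⟨k, (y ^ k)⁻¹ * x, ?_, by group⟩
    apply (hψker _).1
    rw [map_mul, map_inv, map_zpow, ← hc, hk, inv_mul_cancel]
  have hcomm_aux : ∀ (y : Q) (k l : ℤ) (w w' : Q), w ∈ Z → w' ∈ Z →
      Commute (y ^ k * w) (y ^ l * w') := by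
    intro y k l w w' hw hw'
    have hwc : ∀ g : Q, Commute w g :=
      fun g => ((Subgroup.mem_center_iff.1 (hZc hw)) g).symm
    have hwc' : ∀ g : Q, Commute w' g :=
      fun g => ((Subgroup.mem_center_iff.1 (hZc hw')) g).symm
    exact (((Commute.refl y).zpow_zpow k l).mul_right (hwc' _).symm).mul_left (hwc _)
  have habel : ∀ (y : Q) (c : Q ⧸ Z), c = ψ y → ∀ u ∈ (Subgroup.zpowers c).comap ψ,
      ∀ v ∈ (Subgroup.zpowers c).comap ψ, ⁅u, v⁆ = 1 := by
    intro y c hc u hu v hv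
    obtain ⟨k, w, hw, rfl⟩ := hdec y c hc u (Subgroup.mem_comap.1 hu)
    obtain ⟨l, w', hw', rfl⟩ := hdec y c hc v (Subgroup.mem_comap.1 hv)
    exact commutatorElement_eq_one_iff_commute.2 (hcomm_aux y k l w w' hw hw')
  have hAB : A ⊓ B ≤ Z := by
    intro x hx
    obtain ⟨hxa, hxb⟩ := Subgroup.mem_inf.1 hx
    rw [hA, Subgroup.mem_comap] at hxa
    rw [hB, Subgroup.mem_comap] at hxb
    by_contra hxZ
    have hx1 : ψ x ≠ 1 := fun h => hxZ ((hψker x).1 h)
    have hxp : (ψ x) ^ p = 1 := oq_pow_card (Subgroup.zpowers b) p hbcard _ hxb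
    have hxo : orderOf (ψ x) = p := orderOf_eq_prime hxp hx1
    have hle : Subgroup.zpowers (ψ x) ≤ Subgroup.zpowers b := Subgroup.zpowers_le.2 hxb
    have heq : Subgroup.zpowers (ψ x) = Subgroup.zpowers b :=
      Subgroup.eq_of_le_of_card_ge hle
        (le_of_eq (by rw [Nat.card_zpowers, Nat.card_zpowers, hxo, hbo]))
    have hb' : b ∈ Subgroup.zpowers (ψ x) := by rw [heq]; exact Subgroup.mem_zpowers b
    exact hy2A ((Subgroup.zpowers_le.2 hxa) hb')
  have hAE : A ≤ E := by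
    intro x hx
    rw [hA, Subgroup.mem_comap] at hx
    obtain ⟨k, w, hw, rfl⟩ := hdec y1 a ha x hx
    exact Subgroup.mul_mem _ (Subgroup.zpow_mem _ hy1E k) (hZE hw)
  have hBE : B ≤ E := by
    intro x hx
    rw [hB, Subgroup.mem_comap] at hx
    obtain ⟨k, w, hw, rfl⟩ := hdec y2 b hb x hx
    exact Subgroup.mul_mem _ (Subgroup.zpow_mem _ hy2E k) (hZE hw)
  have hAc : ∀ u ∈ A, ∀ v ∈ A, ⁅u, v⁆ = 1 := by
    rw [hA]; exact habel y1 a ha
  have hBc : ∀ u ∈ B, ∀ v ∈ B, ⁅u, v⁆ = 1 := by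
    rw [hB]; exact habel y2 b hb
  have hAcard : Nat.card ↥A = p * p := by rw [hA, hcomap, hacard]
  have hBcard : Nat.card ↥B = p * p := by rw [hB, hcomap, hbcard]
  have hE1 : ∀ u ∈ E, Commute (ψ u) a ∧ Commute (ψ u) b := by
    intro u hu
    rw [hE] at hu
    induction hu using Subgroup.closure_induction with
    | mem x hx =>
      rcases hx with rfl | rfl | rfl
      · rw [hψz]; exact ⟨Commute.one_left _, Commute.one_left _⟩
      · rw [← ha]; exact ⟨Commute.refl a, hab⟩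
      · rw [← hb]; exact ⟨hab.symm, Commute.refl b⟩
    | one => rw [map_one]; exact ⟨Commute.one_left _, Commute.one_left _⟩
    | mul x y _ _ hx hy => rw [map_mul]; exact ⟨hx.1.mul_left hy.1, hx.2.mul_left hy.2⟩
    | inv x _ hx => rw [map_inv]; exact ⟨hx.1.inv_left, hx.2.inv_left⟩
  have hE2 : ∀ u ∈ E, ∀ v ∈ E, Commute (ψ u) (ψ v) := by
    intro u hu v hv
    obtain ⟨h1, h2⟩ := hE1 u hu
    rw [hE] at hv
    induction hv using Subgroup.closure_induction with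
    | mem x hx =>
      rcases hx with rfl | rfl | rfl
      · rw [hψz]; exact Commute.one_right _
      · rw [← ha]; exact h1
      · rw [← hb]; exact h2
    | one => rw [map_one]; exact Commute.one_right _
    | mul x y _ _ hx hy => rw [map_mul]; exact hx.mul_right hy
    | inv x _ hx => rw [map_inv]; exact hx.inv_right
  have hEc : ∀ u ∈ E, ∀ v ∈ E, ⁅u, v⁆ ∈ Z := by
    intro u hu v hv
    apply (hψker _).1
    rw [map_commutatorElement]
    exact commutatorElement_eq_one_iff_commute.2 (hE2 u hu v hv)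
  have hEp : ∀ u ∈ E, u ^ p = 1 := by
    intro u hu
    rw [hE] at hu
    induction hu using Subgroup.closure_induction with
    | mem x hx =>
      rcases hx with rfl | rfl | rfl
      · exact hzp
      · exact hy1p
      · exact hy2p
    | one => exact one_pow p
    | mul x y hxm hym hx hy =>
      rw [← hE] at hxm hym
      have hc : ⁅y, x⁆ ∈ Z := hEc y hym x hxm
      have hcc : ∀ g : Q, Commute ⁅y, x⁆ g :=
        fun g => ((Subgroup.mem_center_iff.1 (hZc hc)) g).symm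
      rw [Cfsg.Agent.Helper24.mul_pow_of_commutator_central x y (hcc x) (hcc y) p, hx, hy,
        one_mul, one_mul]
      obtain ⟨l, hl⟩ : p ∣ p.choose 2 := hpr.dvd_choose_self (by norm_num) hp2
      rw [hl, pow_mul, hZp _ hc, one_pow]
    | inv x _ hx => rw [inv_pow, hx, inv_one]
  have hEcard : p ^ 3 ≤ Nat.card ↥E := by
    have hnot : ¬ E ≤ A := by
      intro h
      have h1 := h hy2E
      rw [hA, Subgroup.mem_comap, ← hb] at h1
      exact hy2A h1
    have h1 := ma_card_ge A E (hQ.to_subgroup E) hAE hnot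
    rw [hAcard] at h1
    have e : p * (p * p) = p ^ 3 := by ring
    rw [e] at h1
    exact h1
  refine ⟨Z, A, B, E, hZc, hZcard, hAB, hAE, hBE, hAc, hBc, ?_, ?_, hEp, hEc, hEcard⟩
  · rw [hAcard]; exact le_of_eq (by ring)
  · rw [hBcard]; exact le_of_eq (by ring)

/-- The bound `|Ω₁| ≤ p²` passes to the quotient by a normal subgroup of order `p` (`p > 3`). -/
theorem oq_claim1 {R : Type*} [Group R] [Finite R] {p : ℕ} [Fact p.Prime] (hp : 3 < p)
    (hR : IsPGroup p R) (hO : Nat.card ↥(Cfsg.omegaOne p (⊤ : Subgroup R)) ≤ p ^ 2)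
    (T : Subgroup R) [T.Normal] (hT : Nat.card T = p) :
    Nat.card ↥(Cfsg.omegaOne p (⊤ : Subgroup (R ⧸ T))) ≤ p ^ 2 := by
  by_contra hcon
  rw [not_le] at hcon
  obtain ⟨Z, A, B, E, hZc, hZcard, hAB, hAE, hBE, hAc, hBc, hAcard, hBcard, hEp, hEc, hEcard⟩ :=
    oq_Q (by omega) (hR.to_quotient T) hcon
  have hTc : T ≤ Subgroup.center R := oq_central hR T hT
  have hcm : ∀ D : Subgroup (R ⧸ T),
      Nat.card ↥(D.comap (QuotientGroup.mk' T)) = Nat.card ↥D * p := by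
    intro D
    rw [card_comap_mk T D, hT]
  refine oq_R hp hO T (Z.comap (QuotientGroup.mk' T)) (A.comap (QuotientGroup.mk' T))
    (B.comap (QuotientGroup.mk' T)) (E.comap (QuotientGroup.mk' T)) hTc hT ?_ ?_
    (Subgroup.comap_mono hAE) (Subgroup.comap_mono hBE) ?_ ?_ ?_ ?_ ?_ ?_ ?_ ?_
  · rw [hcm, hZcard]; exact le_of_eq (by ring)
  · intro x hx
    obtain ⟨h1, h2⟩ := Subgroup.mem_inf.1 hx
    exact Subgroup.mem_comap.2
      (hAB (Subgroup.mem_inf.2 ⟨Subgroup.mem_comap.1 h1, Subgroup.mem_comap.1 h2⟩))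
  · intro x hx y hy
    apply (QuotientGroup.eq_one_iff _).1
    show QuotientGroup.mk' T ⁅x, y⁆ = 1
    rw [map_commutatorElement]
    exact hAc _ (Subgroup.mem_comap.1 hx) _ (Subgroup.mem_comap.1 hy)
  · intro x hx y hy
    apply (QuotientGroup.eq_one_iff _).1
    show QuotientGroup.mk' T ⁅x, y⁆ = 1
    rw [map_commutatorElement]
    exact hBc _ (Subgroup.mem_comap.1 hx) _ (Subgroup.mem_comap.1 hy)
  · rw [hcm]
    calc p ^ 3 = p ^ 2 * p := by ring
      _ ≤ Nat.card ↥A * p := Nat.mul_le_mul_right _ hAcard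
  · rw [hcm]
    calc p ^ 3 = p ^ 2 * p := by ring
      _ ≤ Nat.card ↥B * p := Nat.mul_le_mul_right _ hBcard
  · intro x hx
    apply (QuotientGroup.eq_one_iff _).1
    show QuotientGroup.mk' T (x ^ p) = 1
    rw [map_pow]
    exact hEp _ (Subgroup.mem_comap.1 hx)
  · intro x hx y hy
    show QuotientGroup.mk' T ⁅x, y⁆ ∈ Z
    rw [map_commutatorElement]
    exact hEc _ (Subgroup.mem_comap.1 hx) _ (Subgroup.mem_comap.1 hy)
  · intro x hx g
    apply (QuotientGroup.eq_one_iff _).1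
    show QuotientGroup.mk' T ⁅x, g⁆ = 1
    rw [map_commutatorElement, commutatorElement_eq_one_iff_commute]
    exact ((Subgroup.mem_center_iff.1 (hZc (Subgroup.mem_comap.1 hx))) _).symm
  · rw [hcm]
    calc p ^ 4 = p ^ 3 * p := by ring
      _ ≤ Nat.card ↥E * p := Nat.mul_le_mul_right _ hEcard

/-- For `p > 3`, the bound `|Ω₁| ≤ p²` passes to every quotient of a `p`-group. -/
theorem oq_main {p : ℕ} [Fact p.Prime] (hp : 3 < p) :
    ∀ (n : ℕ) (R : Type u) [Group R] [Finite R] (T : Subgroup R) [T.Normal],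
      Nat.card T = n → IsPGroup p R →
      Nat.card ↥(Cfsg.omegaOne p (⊤ : Subgroup R)) ≤ p ^ 2 →
      Nat.card ↥(Cfsg.omegaOne p (⊤ : Subgroup (R ⧸ T))) ≤ p ^ 2 := by
  intro n
  induction n using Nat.strong_induction_on with
  | _ n ih =>
    intro R _ _ T _ hn hR hO
    have hpr : p.Prime := Fact.out
    by_cases hTb : T = ⊥
    · subst hTb
      rw [oq_equiv p (QuotientGroup.quotientBot (G := R))]
      exact hO
    · haveI : Group.IsNilpotent R := hR.isNilpotent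
      obtain ⟨w, hwT, hw1, hwc⟩ := Cfsg.Agent.Helper24.exists_mem_center_of_normal T hTb
      have hA : IsPGroup p ↥(T ⊓ Subgroup.center R) := hR.to_subgroup _
      obtain ⟨k, hk⟩ := IsPGroup.iff_card.1 hA
      have hk0 : k ≠ 0 := by
        intro hk0
        rw [hk0, pow_zero] at hk
        have hbot := Subgroup.eq_bot_of_card_eq _ hk
        have hmem : w ∈ T ⊓ Subgroup.center R := ⟨hwT, hwc⟩
        rw [hbot, Subgroup.mem_bot] at hmem
        exact hw1 hmem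
      obtain ⟨z', hz'⟩ := exists_prime_orderOf_dvd_card' (G := ↥(T ⊓ Subgroup.center R)) p
        (by rw [hk]; exact dvd_pow_self p hk0)
      obtain ⟨z, hz⟩ : ∃ z : R, z = (z' : R) := ⟨_, rfl⟩
      have hzo : orderOf z = p := by
        rw [hz, Subgroup.orderOf_coe]
        exact hz'
      have hzc : z ∈ Subgroup.center R := by
        rw [hz]
        exact z'.2.2
      have hzT : z ∈ T := by
        rw [hz]
        exact z'.2.1
      obtain ⟨T₁, hT₁⟩ : ∃ T₁ : Subgroup R, T₁ = Subgroup.zpowers z := ⟨_, rfl⟩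
      haveI hT₁n : T₁.Normal := by
        rw [hT₁]
        refine ⟨fun a ha g => ?_⟩
        have hac : a ∈ Subgroup.center R := (Subgroup.zpowers_le.2 hzc) ha
        have h1 : g * a * g⁻¹ = a := by
          rw [Subgroup.mem_center_iff] at hac
          rw [hac g, mul_inv_cancel_right]
        rw [h1]
        exact ha
      have hT₁card : Nat.card ↥T₁ = p := by rw [hT₁, Nat.card_zpowers, hzo]
      have hT₁T : T₁ ≤ T := by rw [hT₁]; exact Subgroup.zpowers_le.2 hzT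
      have hO₁ := oq_claim1 hp hR hO T₁ hT₁card
      have hcardmap : Nat.card ↥(T.map (QuotientGroup.mk' T₁)) * p = n := by
        have h1 := card_comap_mk T₁ (T.map (QuotientGroup.mk' T₁))
        rw [Subgroup.comap_map_eq_self (by rw [QuotientGroup.ker_mk']; exact hT₁T), hn,
          hT₁card] at h1
        exact h1.symm
      have hlt : Nat.card ↥(T.map (QuotientGroup.mk' T₁)) < n := by
        have h0 : 0 < Nat.card ↥(T.map (QuotientGroup.mk' T₁)) := Nat.card_pos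
        have h2 := hpr.two_le
        calc Nat.card ↥(T.map (QuotientGroup.mk' T₁))
            < Nat.card ↥(T.map (QuotientGroup.mk' T₁)) * 2 := by omega
          _ ≤ Nat.card ↥(T.map (QuotientGroup.mk' T₁)) * p := Nat.mul_le_mul_left _ h2
          _ = n := hcardmap
      haveI : (T.map (QuotientGroup.mk' T₁)).Normal :=
        Subgroup.Normal.map inferInstance _ (QuotientGroup.mk'_surjective T₁)
      have hIH := ih _ hlt (R ⧸ T₁) (T.map (QuotientGroup.mk' T₁)) rfl (hR.to_quotient T₁) hO₁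
      rw [← oq_equiv p (QuotientGroup.quotientQuotientEquivQuotient T₁ T hT₁T)]
      exact hIH

end Cfsg.Agent.Helper11
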