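import Mathlib
import Cfsg.Prelude
import Cfsg.Agent.Helper11.OmegaQuot
import Cfsg.Agent.S0609

set_option autoImplicit false

namespace Cfsg.Agent.Helper11

open scoped commutatorElement

universe u

/-- A `p`-group (`p` odd) with `|Ω₁| ≤ p²` whose commutators lie in a central subgroup `Z` of
exponent `p`, generated by each of its non-identity elements, is metacyclic. -/
theorem mc_class2 {R : Type u} [Group R] [Finite R] {p : ℕ} [Fact p.Prime] (hp2 : p ≠ 2)
    (hR : IsPGroup p R) (hO : Nat.card ↥(Cfsg.omegaOne p (⊤ : Subgroup R)) ≤ p ^ 2)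
    (Z : Subgroup R) (hZc : Z ≤ Subgroup.center R) (hZp : ∀ z ∈ Z, z ^ p = 1)
    (hZgen : ∀ c ∈ Z, c ≠ 1 → Z ≤ Subgroup.zpowers c)
    (hcomm : ∀ u v : R, ⁅u, v⁆ ∈ Z) : Cfsg.IsMetacyclic R := by
  have hpr : p.Prime := Fact.out
  have hp2' : 2 < p := lt_of_le_of_ne hpr.two_le (Ne.symm hp2)
  have hmul : ∀ x y : R, (x * y) ^ p = x ^ p * y ^ p := by
    intro x y
    have hc : ⁅y, x⁆ ∈ Z := hcomm y x
    have hcc : ∀ g : R, Commute ⁅y, x⁆ g :=
      fun g => ((Subgroup.mem_center_iff.1 (hZc hc)) g).symm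
    rw [Cfsg.Agent.Helper24.mul_pow_of_commutator_central x y (hcc x) (hcc y) p]
    obtain ⟨l, hl⟩ : p ∣ p.choose 2 := hpr.dvd_choose_self (by norm_num) hp2'
    rw [hl, pow_mul, hZp _ hc, one_pow, mul_one]
  obtain ⟨φ, hφ⟩ : ∃ φ : R →* R, ∀ x : R, φ x = x ^ p :=
    ⟨MonoidHom.mk' (fun x => x ^ p) hmul, fun x => rfl⟩
  obtain ⟨P, hP⟩ : ∃ P : Subgroup R, P = φ.range := ⟨_, rfl⟩
  have hPmem : ∀ x : R, x ∈ P ↔ ∃ y : R, y ^ p = x := by
    intro x
    rw [hP, MonoidHom.mem_range]
    constructor
    · rintro ⟨y, hy⟩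
      exact ⟨y, by rw [← hφ y]; exact hy⟩
    · rintro ⟨y, hy⟩
      exact ⟨y, by rw [hφ y]; exact hy⟩
  have hkcard : Nat.card ↥φ.ker ≤ p ^ 2 := by
    refine le_trans (Subgroup.card_le_of_le ?_) hO
    intro x hx
    have hx' : x ^ p = 1 := by rw [← hφ x]; exact MonoidHom.mem_ker.1 hx
    exact Subgroup.subset_closure ⟨Subgroup.mem_top x, hx'⟩
  have hcardR : Nat.card R = Nat.card ↥φ.ker * Nat.card ↥P := by
    have h1 := Subgroup.card_mul_index φ.ker
    rw [Subgroup.index_ker φ] at h1
    rw [hP]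
    exact h1.symm
  have hPle : Nat.card R ≤ p ^ 2 * Nat.card ↥P := by
    rw [hcardR]; exact Nat.mul_le_mul_right _ hkcard
  haveI hPn : P.Normal := by
    refine ⟨fun x hx g => ?_⟩
    obtain ⟨y, hy⟩ := (hPmem x).1 hx
    exact (hPmem _).2 ⟨g * y * g⁻¹, by rw [conj_pow, hy]⟩
  have hPidx : P.index ≤ p ^ 2 := by
    have h1 := Subgroup.card_mul_index P
    have h2 := hPle
    rw [← h1] at h2
    have h0 : 0 < Nat.card ↥P := Nat.card_pos
    rw [mul_comm (p ^ 2)] at h2
    exact Nat.le_of_mul_le_mul_left h2 h0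
  have hcommP : ∀ a b : R, ⁅a, b⁆ ∈ P := by
    intro a b
    have hq : Nat.card (R ⧸ P) ≤ p ^ 2 := by
      rw [← Subgroup.index_eq_card]; exact hPidx
    have hc := comm_of_card_le_sq (hR.to_quotient P) hq
    apply (QuotientGroup.eq_one_iff _).1
    show QuotientGroup.mk' P ⁅a, b⁆ = 1
    rw [map_commutatorElement, commutatorElement_eq_one_iff_commute]
    exact hc _ _
  by_cases hPtop : P = ⊤
  · have hk1 : ∀ x : R, x ^ p = 1 → x = 1 := by
      intro x hx
      have h1 : Nat.card ↥φ.ker = 1 := by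
        have h2 : Nat.card ↥P = Nat.card R := by rw [hPtop]; exact Subgroup.card_top
        have h5 := hcardR
        rw [h2] at h5
        have h0 : 0 < Nat.card R := Nat.card_pos
        have h3 : Nat.card ↥φ.ker * Nat.card R = 1 * Nat.card R := by
          rw [one_mul]; exact h5.symm
        exact Nat.eq_of_mul_eq_mul_right h0 h3
      have h4 : x ∈ φ.ker := by rw [MonoidHom.mem_ker, hφ x]; exact hx
      have h5 := Subgroup.eq_bot_of_card_eq _ h1
      rw [h5, Subgroup.mem_bot] at h4
      exact h4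
    have htriv : ∀ (n : ℕ) (x : R), x ^ p ^ n = 1 → x = 1 := by
      intro n
      induction n with
      | zero =>
        intro x hn
        rwa [pow_zero, pow_one] at hn
      | succ n ih =>
        intro x hn
        apply ih
        apply hk1
        rw [← pow_mul, ← pow_succ]
        exact hn
    have htriv' : ∀ x : R, x = 1 := by
      intro x
      obtain ⟨n, hn⟩ := hR x
      exact htriv n x hn
    haveI : Subsingleton R := ⟨fun a b => by rw [htriv' a, htriv' b]⟩
    haveI : Subsingleton (R ⧸ (⊥ : Subgroup R)) := ⟨fun a b => by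
      obtain ⟨a', rfl⟩ := QuotientGroup.mk_surjective a
      obtain ⟨b', rfl⟩ := QuotientGroup.mk_surjective b
      rw [htriv' a', htriv' b']⟩
    exact ⟨⊥, inferInstance, isCyclic_of_subsingleton, isCyclic_of_subsingleton⟩
  · have hex : ∃ u : R, u ∉ P ∧ ∀ a b : R, ⁅a, b⁆ ∈ Subgroup.zpowers u := by
      by_cases hab : ∀ a b : R, ⁅a, b⁆ = 1
      · obtain ⟨u, -, hu⟩ := SetLike.exists_of_lt (lt_top_iff_ne_top.2 hPtop)
        refine ⟨u, hu, fun a b => ?_⟩
        rw [hab a b]; exact Subgroup.one_mem _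
      · have hab' : ∃ a b : R, ⁅a, b⁆ ≠ 1 := by
          by_contra h
          apply hab
          intro a b
          by_contra h2
          exact h ⟨a, b, h2⟩
        obtain ⟨a₀, b₀, hc₀⟩ := hab'
        obtain ⟨c₀, hc₀def⟩ : ∃ c₀ : R, c₀ = ⁅a₀, b₀⁆ := ⟨_, rfl⟩
        rw [← hc₀def] at hc₀
        have hc₀Z : c₀ ∈ Z := by rw [hc₀def]; exact hcomm a₀ b₀
        have hc₀P : c₀ ∈ P := by rw [hc₀def]; exact hcommP a₀ b₀
        have hdesc : ∃ u : R, u ∉ P ∧ ∃ e : ℕ, u ^ p ^ e = c₀ := by
          by_contra hno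
          have hno' : ∀ u : R, ∀ e : ℕ, u ^ p ^ e = c₀ → u ∈ P := by
            intro u e he
            by_contra hu
            exact hno ⟨u, hu, e, he⟩
          have hall : ∀ e : ℕ, ∃ w : R, w ^ p ^ e = c₀ := by
            intro e
            induction e with
            | zero => exact ⟨c₀, by rw [pow_zero, pow_one]⟩
            | succ e ih =>
              obtain ⟨w, hw⟩ := ih
              obtain ⟨w', hw'⟩ := (hPmem w).1 (hno' w e hw)
              refine ⟨w', ?_⟩
              rw [pow_succ', pow_mul, hw', hw]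
          obtain ⟨n, hn⟩ := IsPGroup.iff_card.1 hR
          obtain ⟨w, hw⟩ := hall n
          apply hc₀
          rw [← hw, ← hn]
          exact pow_card_eq_one'
        obtain ⟨u, hu, e, he⟩ := hdesc
        refine ⟨u, hu, fun a b => ?_⟩
        have h1 : c₀ ∈ Subgroup.zpowers u := by
          rw [← he]; exact Subgroup.pow_mem _ (Subgroup.mem_zpowers u) _
        exact (Subgroup.zpowers_le.2 h1) (hZgen c₀ hc₀Z hc₀ (hcomm a b))
    obtain ⟨u, huP, hucomm⟩ := hex
    obtain ⟨C, hC⟩ : ∃ C : Subgroup R, C = Subgroup.zpowers u := ⟨_, rfl⟩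
    have huC : u ∈ C := by rw [hC]; exact Subgroup.mem_zpowers u
    have hCcomm : ∀ a b : R, ⁅a, b⁆ ∈ C := by rw [hC]; exact hucomm
    haveI hCn : C.Normal := by
      refine ⟨fun c hc g => ?_⟩
      have h1 : g * c * g⁻¹ = ⁅g, c⁆ * c := by
        rw [commutatorElement_def]; group
      rw [h1]
      exact Subgroup.mul_mem _ (hCcomm g c) hc
    haveI hCcyc : IsCyclic ↥C := by
      rw [hC]; infer_instance
    have hQ : IsPGroup p (R ⧸ C) := hR.to_quotient C
    have hQcomm : ∀ a b : R ⧸ C, a * b = b * a := by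
      intro a b
      obtain ⟨a', rfl⟩ := QuotientGroup.mk_surjective a
      obtain ⟨b', rfl⟩ := QuotientGroup.mk_surjective b
      have h1 : (QuotientGroup.mk' C) ⁅a', b'⁆ = 1 :=
        (QuotientGroup.eq_one_iff _).2 (hCcomm a' b')
      rw [map_commutatorElement, commutatorElement_eq_one_iff_commute] at h1
      exact h1
    have hQmul : ∀ x y : R ⧸ C, (x * y) ^ p = x ^ p * y ^ p := by
      intro x y
      have hxy : Commute x y := hQcomm x y
      exact hxy.mul_pow p
    obtain ⟨φQ, hφQ⟩ : ∃ φQ : (R ⧸ C) →* (R ⧸ C), ∀ x : R ⧸ C, φQ x = x ^ p :=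
      ⟨MonoidHom.mk' (fun x => x ^ p) hQmul, fun x => rfl⟩
    have hkQ : Nat.card ↥φQ.ker ≤ p := by
      obtain ⟨P', hP'⟩ : ∃ P' : Subgroup R, P' = φQ.range.comap (QuotientGroup.mk' C) :=
        ⟨_, rfl⟩
      have hPP' : P ≤ P' := by
        intro x hx
        obtain ⟨y, hy⟩ := (hPmem x).1 hx
        rw [hP', Subgroup.mem_comap, MonoidHom.mem_range]
        refine ⟨QuotientGroup.mk' C y, ?_⟩
        rw [hφQ, ← map_pow, hy]
      have huP' : u ∈ P' := by
        rw [hP', Subgroup.mem_comap, MonoidHom.mem_range]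
        refine ⟨1, ?_⟩
        rw [map_one]
        exact ((QuotientGroup.eq_one_iff u).2 huC).symm
      have hnot : ¬ P' ≤ P := fun h => huP (h huP')
      have h1 := ma_card_ge P P' (hR.to_subgroup P') hPP' hnot
      have h2 : Nat.card ↥P' = Nat.card ↥φQ.range * Nat.card ↥C := by
        rw [hP']; exact card_comap_mk C φQ.range
      have h3 := Subgroup.card_eq_card_quotient_mul_card_subgroup C
      have h4 := Subgroup.card_mul_index φQ.ker
      rw [Subgroup.index_ker φQ] at h4
      have h5 : Nat.card ↥φQ.ker * (Nat.card ↥φQ.range * Nat.card ↥C) ≤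
          p * (Nat.card ↥φQ.range * Nat.card ↥C) := by
        calc Nat.card ↥φQ.ker * (Nat.card ↥φQ.range * Nat.card ↥C)
            = Nat.card R := by rw [h3, ← h4, mul_assoc]
          _ ≤ p ^ 2 * Nat.card ↥P := hPle
          _ = p * (p * Nat.card ↥P) := by ring
          _ ≤ p * Nat.card ↥P' := Nat.mul_le_mul_left _ h1
          _ = p * (Nat.card ↥φQ.range * Nat.card ↥C) := by rw [h2]
      have h6 : 0 < Nat.card ↥φQ.range * Nat.card ↥C := Nat.mul_pos Nat.card_pos Nat.card_pos
      exact Nat.le_of_mul_le_mul_right h5 h6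
    have hQcyc : IsCyclic (R ⧸ C) := by
      apply Cfsg.Agent.Helper1.pgroup_unique_cyclic_odd p hp2 hQ
      have hle : ∀ H : Subgroup (R ⧸ C), Nat.card H = p → H = φQ.ker := by
        intro H hH
        have h1 : H ≤ φQ.ker := by
          intro x hx
          rw [MonoidHom.mem_ker, hφQ]
          exact oq_pow_card H p hH x hx
        exact Subgroup.eq_of_le_of_card_ge h1 (by rw [hH]; exact hkQ)
      intro H K hH hK
      rw [hle H hH, hle K hK]
    exact ⟨C, hCn, hCcyc, hQcyc⟩

/-- For `p > 3`, a `p`-group with `|Ω₁| ≤ p²` is metacyclic. -/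
theorem mc_main {p : ℕ} [Fact p.Prime] (hp : 3 < p) :
    ∀ (n : ℕ) (R : Type u) [Group R] [Finite R], Nat.card R = n → IsPGroup p R →
      Nat.card ↥(Cfsg.omegaOne p (⊤ : Subgroup R)) ≤ p ^ 2 → Cfsg.IsMetacyclic R := by
  intro n
  induction n using Nat.strong_induction_on with
  | _ n ih =>
    intro R _ _ hn hR hO
    have hpr : p.Prime := Fact.out
    have hp2 : p ≠ 2 := by omega
    by_cases hab : ∀ a b : R, ⁅a, b⁆ = 1
    · refine mc_class2 hp2 hR hO ⊥ bot_le ?_ ?_ ?_
      · intro z hz
        rw [Subgroup.mem_bot] at hz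
        rw [hz, one_pow]
      · intro c hc hc1
        rw [Subgroup.mem_bot] at hc
        exact absurd hc hc1
      · intro u v
        rw [hab u v]
        exact Subgroup.one_mem _
    · have hab' : ∃ a b : R, ⁅a, b⁆ ≠ 1 := by
        by_contra h
        apply hab
        intro a b
        by_contra h2
        exact h ⟨a, b, h2⟩
      obtain ⟨a₀, b₀, hc₀⟩ := hab'
      have hmemD : ∀ a b : R, ⁅a, b⁆ ∈ commutator R := by
        intro a b
        rw [commutator_def]
        exact Subgroup.commutator_mem_commutator (Subgroup.mem_top a) (Subgroup.mem_top b)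
      have hDb : commutator R ≠ ⊥ := by
        intro h
        have h1 := hmemD a₀ b₀
        rw [h, Subgroup.mem_bot] at h1
        exact hc₀ h1
      haveI : Group.IsNilpotent R := hR.isNilpotent
      haveI hDn : (commutator R).Normal := by
        rw [commutator_def]; infer_instance
      obtain ⟨w, hwD, hw1, hwc⟩ :=
        Cfsg.Agent.Helper24.exists_mem_center_of_normal (commutator R) hDb
      have hA : IsPGroup p ↥(commutator R ⊓ Subgroup.center R) := hR.to_subgroup _
      obtain ⟨k, hk⟩ := IsPGroup.iff_card.1 hA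
      have hk0 : k ≠ 0 := by
        intro hk0
        rw [hk0, pow_zero] at hk
        have hbot := Subgroup.eq_bot_of_card_eq _ hk
        have hmem : w ∈ commutator R ⊓ Subgroup.center R := ⟨hwD, hwc⟩
        rw [hbot, Subgroup.mem_bot] at hmem
        exact hw1 hmem
      obtain ⟨z', hz'⟩ :=
        exists_prime_orderOf_dvd_card' (G := ↥(commutator R ⊓ Subgroup.center R)) p
          (by rw [hk]; exact dvd_pow_self p hk0)
      obtain ⟨z, hz⟩ : ∃ z : R, z = (z' : R) := ⟨_, rfl⟩
      have hzo : orderOf z = p := by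
        rw [hz, Subgroup.orderOf_coe]
        exact hz'
      have hzc : z ∈ Subgroup.center R := by
        rw [hz]
        exact z'.2.2
      have hzD : z ∈ commutator R := by
        rw [hz]
        exact z'.2.1
      have hz1 : z ≠ 1 := by
        intro h
        rw [h, orderOf_one] at hzo
        exact hpr.one_lt.ne hzo
      obtain ⟨Z, hZ⟩ : ∃ Z : Subgroup R, Z = Subgroup.zpowers z := ⟨_, rfl⟩
      have hZc : Z ≤ Subgroup.center R := by rw [hZ]; exact Subgroup.zpowers_le.2 hzc
      haveI hZn : Z.Normal := by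
        refine ⟨fun a ha g => ?_⟩
        have hac : a ∈ Subgroup.center R := hZc ha
        have h1 : g * a * g⁻¹ = a := by
          rw [Subgroup.mem_center_iff] at hac
          rw [hac g, mul_inv_cancel_right]
        rw [h1]
        exact ha
      have hZcard : Nat.card ↥Z = p := by rw [hZ, Nat.card_zpowers, hzo]
      have hzZ : z ∈ Z := by rw [hZ]; exact Subgroup.mem_zpowers z
      have hZD : Z ≤ commutator R := by rw [hZ]; exact Subgroup.zpowers_le.2 hzD
      have hZp : ∀ c ∈ Z, c ^ p = 1 := fun c hc => oq_pow_card Z p hZcard c hc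
      have hZgen : ∀ c ∈ Z, c ≠ 1 → Z ≤ Subgroup.zpowers c := by
        intro c hc hc1
        have hco : orderOf c = p := orderOf_eq_prime (hZp c hc) hc1
        have hle : Subgroup.zpowers c ≤ Z := Subgroup.zpowers_le.2 hc
        have heq : Subgroup.zpowers c = Z :=
          Subgroup.eq_of_le_of_card_ge hle (le_of_eq (by rw [Nat.card_zpowers, hco, hZcard]))
        exact le_of_eq heq.symm
      have hlt : Nat.card (R ⧸ Z) < n := by
        have h1 := Subgroup.card_eq_card_quotient_mul_card_subgroup Z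
        rw [hn, hZcard] at h1
        have h2 : 0 < Nat.card (R ⧸ Z) := Nat.card_pos
        have h3 := hpr.two_le
        calc Nat.card (R ⧸ Z) < Nat.card (R ⧸ Z) * 2 := by omega
          _ ≤ Nat.card (R ⧸ Z) * p := Nat.mul_le_mul_left _ h3
          _ = n := h1.symm
      have hOq := oq_main hp _ R Z rfl hR hO
      obtain ⟨Nb, hNbn, hNbc, hQc⟩ := ih _ hlt (R ⧸ Z) rfl (hR.to_quotient Z) hOq
      haveI := hNbn
      haveI := hNbc
      haveI := hQc
      obtain ⟨ψ, hψ⟩ : ∃ ψ : R →* R ⧸ Z, ψ = QuotientGroup.mk' Z := ⟨_, rfl⟩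
      have hψker : ∀ y : R, ψ y = 1 ↔ y ∈ Z := by
        intro y
        rw [hψ]
        exact QuotientGroup.eq_one_iff y
      have hψsurj : Function.Surjective ψ := by
        rw [hψ]; exact QuotientGroup.mk'_surjective Z
      obtain ⟨xb', hxb'⟩ := IsCyclic.exists_generator (α := ↥Nb)
      obtain ⟨x, hx⟩ := hψsurj (xb' : R ⧸ Z)
      obtain ⟨gb, hgb⟩ := IsCyclic.exists_generator (α := (R ⧸ Z) ⧸ Nb)
      obtain ⟨g', rfl⟩ := QuotientGroup.mk_surjective gb
      obtain ⟨g, rfl⟩ := hψsurj g'
      have hxN : ψ x ∈ Nb := by rw [hx]; exact xb'.2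
      have hF1 : ∀ n : R, ψ n ∈ Nb → ∃ i : ℕ, ∃ w ∈ Z, n = x ^ i * w := by
        intro n hn'
        have h1 := hxb' ⟨ψ n, hn'⟩
        rw [← mem_powers_iff_mem_zpowers] at h1
        obtain ⟨i, hi⟩ := (Submonoid.mem_powers_iff _ _).1 h1
        have h2 : ψ x ^ i = ψ n := by
          have h0 := congrArg Subtype.val hi
          rw [hx]
          simpa using h0
        refine ⟨i, (x ^ i)⁻¹ * n, ?_, by group⟩
        apply (hψker _).1
        rw [map_mul, map_inv, map_pow, h2, inv_mul_cancel]
      have hF2 : ∀ r : R, ∃ j : ℕ, ∃ n : R, ψ n ∈ Nb ∧ r = g ^ j * n := by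
        intro r
        have h1 := hgb (QuotientGroup.mk (ψ r))
        rw [← mem_powers_iff_mem_zpowers] at h1
        obtain ⟨j, hj⟩ := (Submonoid.mem_powers_iff _ _).1 h1
        have h2 : ((ψ g ^ j : R ⧸ Z) : (R ⧸ Z) ⧸ Nb) = ((ψ r : R ⧸ Z) : (R ⧸ Z) ⧸ Nb) := by
          rw [QuotientGroup.mk_pow]; exact hj
        have h3 : (ψ g ^ j)⁻¹ * ψ r ∈ Nb := QuotientGroup.eq.1 h2
        refine ⟨j, (g ^ j)⁻¹ * r, ?_, by group⟩
        rw [map_mul, map_inv, map_pow]
        exact h3
      have hdecomp : ∀ r : R, ∃ j i : ℕ, ∃ w : R, w ∈ Z ∧ r = g ^ j * (x ^ i * w) := by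
        intro r
        obtain ⟨j, n, hn', rfl⟩ := hF2 r
        obtain ⟨i, w, hw, rfl⟩ := hF1 n hn'
        exact ⟨j, i, w, hw, rfl⟩
      by_cases hzx : z ∈ Subgroup.zpowers x
      · have hZx : Z ≤ Subgroup.zpowers x := by rw [hZ]; exact Subgroup.zpowers_le.2 hzx
        have hNeq : Nb.comap ψ = Subgroup.zpowers x := by
          apply le_antisymm
          · intro n hn'
            obtain ⟨i, w, hw, rfl⟩ := hF1 n (Subgroup.mem_comap.1 hn')
            exact Subgroup.mul_mem _ (Subgroup.pow_mem _ (Subgroup.mem_zpowers x) i) (hZx hw)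
          · rw [Subgroup.zpowers_le]
            exact Subgroup.mem_comap.2 hxN
        haveI hn1 : (Subgroup.zpowers x).Normal := by
          rw [← hNeq]; exact Subgroup.Normal.comap hNbn ψ
        refine ⟨Subgroup.zpowers x, hn1, inferInstance, ?_⟩
        rw [isCyclic_iff_exists_zpowers_eq_top]
        refine ⟨QuotientGroup.mk g, ?_⟩
        rw [eq_top_iff]
        intro q _
        obtain ⟨r, rfl⟩ := QuotientGroup.mk_surjective q
        obtain ⟨j, n, hn', rfl⟩ := hF2 r
        have hnx : n ∈ Subgroup.zpowers x := by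
          rw [← hNeq]; exact Subgroup.mem_comap.2 hn'
        have h1 : (QuotientGroup.mk (g ^ j * n) : R ⧸ Subgroup.zpowers x) =
            (QuotientGroup.mk g) ^ j := by
          rw [← QuotientGroup.mk_pow]
          apply QuotientGroup.eq.2
          have e : (g ^ j * n)⁻¹ * g ^ j = n⁻¹ := by group
          rw [e]
          exact Subgroup.inv_mem _ hnx
        rw [h1]
        exact Subgroup.pow_mem _ (Subgroup.mem_zpowers _) j
      · have hwc : ∀ w ∈ Z, ∀ y : R, Commute w y :=
          fun w hw y => ((Subgroup.mem_center_iff.1 (hZc hw)) y).symm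
        obtain ⟨c, hc⟩ : ∃ c : R, c = ⁅x, g⁆ := ⟨_, rfl⟩
        have hcN : ψ c ∈ Nb := by
          rw [hc, map_commutatorElement, commutatorElement_def]
          have h1 : ψ g * (ψ x)⁻¹ * (ψ g)⁻¹ ∈ Nb :=
            hNbn.conj_mem _ (Subgroup.inv_mem _ hxN) (ψ g)
          have e : ψ x * ψ g * (ψ x)⁻¹ * (ψ g)⁻¹ = ψ x * (ψ g * (ψ x)⁻¹ * (ψ g)⁻¹) := by
            group
          rw [e]
          exact Subgroup.mul_mem _ hxN h1
        obtain ⟨a, w₀, hw₀, hca⟩ := hF1 c hcN
        have hxc : Commute x c := by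
          rw [hca]
          exact ((Commute.refl x).pow_right a).mul_right (hwc w₀ hw₀ x).symm
        obtain ⟨K, hK⟩ : ∃ K : Subgroup R, K = Subgroup.zpowers c := ⟨_, rfl⟩
        have hcK : c ∈ K := by rw [hK]; exact Subgroup.mem_zpowers c
        have hgc : g * c * g⁻¹ ∈ K := by
          have hgw : g * w₀ * g⁻¹ = w₀ := by
            rw [← (hwc w₀ hw₀ g).eq, mul_inv_cancel_right]
          have h1 : g * x * g⁻¹ = c⁻¹ * x := by
            rw [hc, commutatorElement_def]; group
          have hcx' : Commute c⁻¹ x := hxc.symm.inv_left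
          have h2 : g * (x ^ a * w₀) * g⁻¹ = c⁻¹ ^ a * (x ^ a * w₀) := by
            calc g * (x ^ a * w₀) * g⁻¹ = (g * x * g⁻¹) ^ a * (g * w₀ * g⁻¹) := by
                  rw [conj_pow]; group
              _ = (c⁻¹ * x) ^ a * w₀ := by rw [h1, hgw]
              _ = c⁻¹ ^ a * x ^ a * w₀ := by rw [hcx'.mul_pow]
              _ = c⁻¹ ^ a * (x ^ a * w₀) := by rw [mul_assoc]
          rw [← hca] at h2
          rw [h2]
          exact Subgroup.mul_mem _ (Subgroup.pow_mem _ (Subgroup.inv_mem _ hcK) a) hcK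
        have hcentK : ∀ y : R, Commute y c → y ∈ Subgroup.normalizer (K : Set R) := by
          intro y hy
          apply Cfsg.Agent.S0609.mem_normalizer_of_conj_mem
          intro b hb
          rw [hK] at hb
          obtain ⟨k, rfl⟩ := Subgroup.mem_zpowers_iff.1 hb
          have h1 : y * c ^ k * y⁻¹ = c ^ k := by
            rw [(hy.zpow_right k).eq, mul_inv_cancel_right]
          rw [h1, hK]
          exact Subgroup.zpow_mem _ (Subgroup.mem_zpowers c) k
        have hgK : g ∈ Subgroup.normalizer (K : Set R) := by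
          apply Cfsg.Agent.S0609.mem_normalizer_of_conj_mem
          intro b hb
          rw [hK] at hb
          obtain ⟨k, rfl⟩ := Subgroup.mem_zpowers_iff.1 hb
          rw [← conj_zpow]
          exact Subgroup.zpow_mem _ hgc k
        have hnorm : ∀ r : R, r ∈ Subgroup.normalizer (K : Set R) := by
          intro r
          obtain ⟨j, i, w, hw, rfl⟩ := hdecomp r
          exact Subgroup.mul_mem _ (Subgroup.pow_mem _ hgK j)
            (Subgroup.mul_mem _ (Subgroup.pow_mem _ (hcentK x hxc) i) (hcentK w (hwc w hw c)))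
        haveI hKn : K.Normal :=
          ⟨fun b hb r => (Subgroup.mem_normalizer_iff.1 (hnorm r) b).1 hb⟩
        obtain ⟨ρ, hρ⟩ : ∃ ρ : R →* R ⧸ K, ρ = QuotientGroup.mk' K := ⟨_, rfl⟩
        have hρker : ∀ y : R, ρ y = 1 ↔ y ∈ K := by
          intro y
          rw [hρ]
          exact QuotientGroup.eq_one_iff y
        have hρxg : Commute (ρ x) (ρ g) := by
          have h1 : ρ ⁅x, g⁆ = 1 := by rw [← hc]; exact (hρker c).2 hcK
          rw [map_commutatorElement, commutatorElement_eq_one_iff_commute] at h1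
          exact h1
        have hρw : ∀ w ∈ Z, ∀ y : R, Commute (ρ w) (ρ y) := by
          intro w hw y
          have h1 := (hwc w hw y).eq
          show ρ w * ρ y = ρ y * ρ w
          rw [← map_mul, ← map_mul, h1]
        have hcen : ∀ r : R, Commute (ρ r) (ρ x) ∧ Commute (ρ r) (ρ g) := by
          intro r
          obtain ⟨j, i, w, hw, rfl⟩ := hdecomp r
          rw [map_mul, map_mul, map_pow, map_pow]
          constructor
          · exact (hρxg.symm.pow_left j).mul_left
              (((Commute.refl (ρ x)).pow_left i).mul_left (hρw w hw x))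
          · exact ((Commute.refl (ρ g)).pow_left j).mul_left
              ((hρxg.pow_left i).mul_left (hρw w hw g))
        have hQab : ∀ r s : R, Commute (ρ r) (ρ s) := by
          intro r s
          obtain ⟨j, i, w, hw, rfl⟩ := hdecomp s
          rw [map_mul, map_mul, map_pow, map_pow]
          exact ((hcen r).2.pow_right j).mul_right
            (((hcen r).1.pow_right i).mul_right (hρw w hw r).symm)
        have hKcomm : ∀ r s : R, ⁅r, s⁆ ∈ K := by
          intro r s
          apply (hρker _).1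
          rw [map_commutatorElement, commutatorElement_eq_one_iff_commute]
          exact hQab r s
        have hZK : Z ≤ K := by
          refine le_trans hZD ?_
          rw [commutator_def, Subgroup.commutator_le]
          intro r _ s _
          exact hKcomm r s
        have hzK : z ∈ K := hZK hzZ
        obtain ⟨m, hm⟩ : ∃ m : ℕ, c ^ m = z := by
          rw [hK, ← mem_powers_iff_mem_zpowers] at hzK
          exact (Submonoid.mem_powers_iff _ _).1 hzK
        have hcp : c ^ p = (x ^ a) ^ p := by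
          have h1 : Commute (x ^ a) w₀ := (hwc w₀ hw₀ (x ^ a)).symm
          have h2 : (x ^ a * w₀) ^ p = (x ^ a) ^ p * w₀ ^ p := h1.mul_pow p
          rw [hZp w₀ hw₀, mul_one] at h2
          rw [← hca] at h2
          exact h2
        have hcp1 : c ^ p = 1 := by
          by_cases hpm : p ∣ m
          · exfalso
            obtain ⟨t, ht⟩ := hpm
            apply hzx
            rw [← hm, ht, pow_mul, hcp, ← pow_mul, ← pow_mul]
            exact Subgroup.pow_mem _ (Subgroup.mem_zpowers x) _
          · have h1 : (c ^ p) ^ m = 1 := by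
              rw [← pow_mul, mul_comm, pow_mul, hm]
              exact hZp z hzZ
            have h2 : orderOf (c ^ p) ∣ m := orderOf_dvd_of_pow_eq_one h1
            obtain ⟨k, hk⟩ := hR (c ^ p)
            have h3 : orderOf (c ^ p) ∣ p ^ k := orderOf_dvd_of_pow_eq_one hk
            have hcop : Nat.Coprime (p ^ k) m :=
              Nat.Coprime.pow_left k ((Nat.Prime.coprime_iff_not_dvd hpr).2 hpm)
            have h4 : Nat.Coprime (orderOf (c ^ p)) m := Nat.Coprime.coprime_dvd_left h3 hcop
            have h5 : orderOf (c ^ p) = 1 := Nat.Coprime.eq_one_of_dvd h4 h2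
            exact orderOf_eq_one_iff.1 h5
        have hc1 : c ≠ 1 := by
          intro h
          rw [h, one_pow] at hm
          exact hz1 hm.symm
        have hco : orderOf c = p := orderOf_eq_prime hcp1 hc1
        have hKcard : Nat.card ↥K = p := by rw [hK, Nat.card_zpowers, hco]
        have hZKeq : Z = K :=
          Subgroup.eq_of_le_of_card_ge hZK (le_of_eq (by rw [hKcard, hZcard]))
        exact mc_class2 hp2 hR hO Z hZc hZp hZgen (fun u v => by rw [hZKeq]; exact hKcomm u v)

end Cfsg.Agent.Helper11
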