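import Mathlib
import Cfsg.Agent.Helper24.PChain
import Cfsg.Agent.Helper24.NormalCenter
import Cfsg.Prelude.Def_CaseTheorems
import Cfsg.Prelude.Def_Transfer

set_option autoImplicit false

namespace Cfsg.Agent.Helper11

/-- For odd `p`, a `p`-group of rank at least three has a normal elementary abelian subgroup of
order `p ^ 3`. -/
theorem exists_normal_cube_of_rank {R : Type*} [Group R] [Finite R] (p : ℕ) [Fact p.Prime]
    (hp : p ≠ 2) (hR : IsPGroup p R) (hr : ¬ Cfsg.PRankLE p 2 R) :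
    ∃ N : Subgroup R, N.Normal ∧ IsMulCommutative N ∧ (∀ a ∈ N, a ^ p = 1) ∧
      Nat.card N = p ^ 3 := by
  by_contra hcon
  apply hr
  intro A hA hAe
  exact Helper24.card_le_sq_of_no_normal_cube hp hR
    (fun A' h1 h2 h3 h4 => hcon ⟨A', h1, h2, h3, h4⟩) A hA hAe

/-- A normal elementary abelian subgroup of order `p ^ 2` of a `p`-group of rank at least three
(`p` odd) lies in a normal self-centralizing subgroup of rank at least three. -/
theorem scn3_of_normal_sq {R : Type*} [Group R] [Finite R] (p : ℕ) [Fact p.Prime] (hp : p ≠ 2)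
    (hR : IsPGroup p R) (hr : ¬ Cfsg.PRankLE p 2 R)
    (E : Subgroup R) [hEn : E.Normal] (hE : Cfsg.IsElementaryAbelian p E)
    (hE2 : Nat.card E = p ^ 2) :
    ∃ A : Subgroup R, E ≤ A ∧ A.Normal ∧ Subgroup.centralizer (A : Set R) = A ∧
      ¬ Cfsg.PRankLE p 2 A := by
  have hpp : p.Prime := Fact.out
  haveI : Group.IsNilpotent R := hR.isNilpotent
  obtain ⟨hEc, hEe⟩ := hE
  obtain ⟨N, hNn, hNc, hNe, hNcard⟩ := exists_normal_cube_of_rank p hp hR hr
  haveI := hNn
  obtain ⟨C, hC⟩ : ∃ C : Subgroup R, C = Subgroup.centralizer (E : Set R) := ⟨_, rfl⟩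
  haveI hCn : C.Normal := by
    rw [hC]
    infer_instance
  have hCidx : C.index ≤ p := by
    have h1 := Helper24.index_centralizer_le_of_normal hR 2 E hEn hE2
    rw [← hC] at h1
    have h2 : Nat.choose 2 2 = 1 := Nat.choose_self 2
    rw [h2, pow_one] at h1
    exact h1
  obtain ⟨M, hM⟩ : ∃ M : Subgroup R, M = N ⊓ C := ⟨_, rfl⟩
  have hMN : M ≤ N := by
    rw [hM]
    exact inf_le_left
  have hMC : M ≤ C := by
    rw [hM]
    exact inf_le_right
  haveI hMn : M.Normal := by
    rw [hM]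
    infer_instance
  have hMcard : p ^ 2 ≤ Nat.card M := by
    have h1 : Nat.card (M.subgroupOf N) * (M.subgroupOf N).index = Nat.card N :=
      Subgroup.card_mul_index (M.subgroupOf N)
    have h2 : Nat.card (M.subgroupOf N) = Nat.card M :=
      Nat.card_congr (Subgroup.subgroupOfEquivOfLe hMN).toEquiv
    have h3 : (M.subgroupOf N).index = C.relIndex N := by
      have h4 : M.relIndex N = C.relIndex N := by
        rw [hM]
        exact Subgroup.inf_relIndex_left (H := N) (K := C)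
      exact h4
    have h5 : C.relIndex N ∣ C.index := Subgroup.relIndex_dvd_index_of_normal (H := C) (K := N)
    have h6 : C.relIndex N ≤ p :=
      (Nat.le_of_dvd (Nat.pos_of_ne_zero Subgroup.index_ne_zero_of_finite) h5).trans hCidx
    rw [h2, h3, hNcard] at h1
    have h7 : p ^ 2 * p ≤ Nat.card M * p := by
      calc p ^ 2 * p = p ^ 3 := by ring
        _ = Nat.card M * C.relIndex N := h1.symm
        _ ≤ Nat.card M * p := Nat.mul_le_mul_left _ h6
    exact Nat.le_of_mul_le_mul_right h7 hpp.pos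
  have hNC_of : E ≤ N → N ≤ C := by
    intro hEN n hn
    rw [hC, Subgroup.mem_centralizer_iff]
    intro e he
    have h1 := hNc.is_comm.comm ⟨e, hEN he⟩ ⟨n, hn⟩
    exact congrArg Subtype.val h1
  obtain ⟨m, hmM, hmE⟩ : ∃ m ∈ M, m ∉ E := by
    apply SetLike.not_le_iff_exists.mp
    intro hME
    have h2 : M = E := Subgroup.eq_of_le_of_card_ge hME (by rw [hE2]; exact hMcard)
    have h3 : E ≤ N := by
      rw [← h2]
      exact hMN
    have h4 : M = N := by
      rw [hM]
      exact inf_eq_left.mpr (hNC_of h3)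
    have h5 : Nat.card E = Nat.card N := by rw [← h2, h4]
    rw [hE2, hNcard] at h5
    have h6 := Nat.pow_right_injective hpp.two_le h5
    omega
  obtain ⟨B, hB⟩ : ∃ B : Subgroup R, B = E ⊔ M := ⟨_, rfl⟩
  have hEB : E ≤ B := by
    rw [hB]
    exact le_sup_left
  have hMB : M ≤ B := by
    rw [hB]
    exact le_sup_right
  haveI hBn : B.Normal := by
    rw [hB]
    infer_instance
  have hEMcomm : ∀ e ∈ E, ∀ x ∈ M, Commute e x := by
    intro e he x hx
    have h1 : x ∈ Subgroup.centralizer (E : Set R) := by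
      rw [← hC]
      exact hMC hx
    exact Subgroup.mem_centralizer_iff.mp h1 e he
  have hEE : ∀ e ∈ E, ∀ e' ∈ E, Commute e e' := fun e he e' he' =>
    congrArg Subtype.val (hEc.is_comm.comm ⟨e, he⟩ ⟨e', he'⟩)
  have hMM : ∀ x ∈ M, ∀ y ∈ M, Commute x y := fun x hx y hy =>
    congrArg Subtype.val (hNc.is_comm.comm ⟨x, hMN hx⟩ ⟨y, hMN hy⟩)
  have hBdecomp : ∀ x ∈ B, ∃ e ∈ E, ∃ y ∈ M, e * y = x := by
    intro x hx
    rw [hB, Subgroup.mem_sup_of_normal_left] at hx
    exact hx
  have hBcomm : ∀ x ∈ B, ∀ y ∈ B, x * y = y * x := by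
    intro x hx y hy
    obtain ⟨e1, he1, m1, hm1, rfl⟩ := hBdecomp x hx
    obtain ⟨e2, he2, m2, hm2, rfl⟩ := hBdecomp y hy
    have h1 : Commute (e1 * m1) (e2 * m2) :=
      Commute.mul_left
        (Commute.mul_right (hEE e1 he1 e2 he2) (hEMcomm e1 he1 m2 hm2))
        (Commute.mul_right (hEMcomm e2 he2 m1 hm1).symm (hMM m1 hm1 m2 hm2))
    exact h1.eq
  have hBexp : ∀ x ∈ B, x ^ p = 1 := by
    intro x hx
    obtain ⟨e1, he1, m1, hm1, rfl⟩ := hBdecomp x hx
    rw [(hEMcomm e1 he1 m1 hm1).mul_pow, hEe e1 he1, hNe m1 (hMN hm1), one_mul]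
  have hmB : m ∈ B := hMB hmM
  have hBcard : p ^ 2 < Nat.card B := by
    by_contra hle
    push Not at hle
    have h1 : E = B := Subgroup.eq_of_le_of_card_ge hEB (by rw [hE2]; exact hle)
    rw [← h1] at hmB
    exact hmE hmB
  have hBc : IsMulCommutative B := ⟨⟨fun x y => Subtype.ext (hBcomm x x.2 y y.2)⟩⟩
  obtain ⟨A, hBA, hAn, hAc, -, hmax'⟩ := Helper24.exists_maximal_normal_abelian_exponent 0
    B hBn hBc (fun a _ => pow_zero a)
  have hmax : ∀ B' : Subgroup R, B'.Normal → IsMulCommutative B' → A ≤ B' → B' = A :=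
    fun B' h1 h2 h3 => hmax' B' h1 h2 (fun b _ => pow_zero b) h3
  haveI := hAn
  have hCA : Subgroup.centralizer (A : Set R) = A :=
    Helper24.centralizer_eq_of_maximal_normal_abelian A hAc hmax
  refine ⟨A, hEB.trans hBA, hAn, hCA, ?_⟩
  intro hrk
  have h1 := hrk (B.subgroupOf A) ⟨⟨fun x y => by
      apply Subtype.ext
      apply Subtype.ext
      have hx : ((x : A) : R) ∈ B := Subgroup.mem_subgroupOf.mp x.2
      have hy : ((y : A) : R) ∈ B := Subgroup.mem_subgroupOf.mp y.2
      simp only [Subgroup.coe_mul]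
      exact hBcomm _ hx _ hy⟩⟩
    (fun a ha => by
      apply Subtype.ext
      have ha' : (a : R) ∈ B := Subgroup.mem_subgroupOf.mp ha
      simpa using hBexp _ ha')
  have h2 : Nat.card (B.subgroupOf A) = Nat.card B :=
    Nat.card_congr (Subgroup.subgroupOfEquivOfLe hBA).toEquiv
  rw [h2] at h1
  omega

end Cfsg.Agent.Helper11
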