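import Mathlib
import Cfsg.Agent.Helper11.Scn3
import Cfsg.Agent.Helper11.AbOp
import Cfsg.Agent.Helper24.Class2

set_option autoImplicit false

namespace Cfsg.Agent.Helper11

open scoped commutatorElement

/-- Adjoining to an elementary abelian subgroup an element of order dividing `p` centralizing
it gives an elementary abelian subgroup. -/
theorem ea_sup_zpowers_r3 {G : Type*} [Group G] (p : ℕ) (E : Subgroup G)
    (hE : Cfsg.IsElementaryAbelian p E) (x : G) (hx : ∀ e ∈ E, x * e = e * x)
    (hxp : x ^ p = 1) : Cfsg.IsElementaryAbelian p (E ⊔ Subgroup.zpowers x) := by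
  obtain ⟨hEc, hEe⟩ := hE
  obtain ⟨B, hB⟩ : ∃ B : Subgroup G, B = E ⊔ Subgroup.zpowers x := ⟨_, rfl⟩
  rw [← hB]
  have hEB : E ≤ B := by
    rw [hB]
    exact le_sup_left
  have hxB : Subgroup.zpowers x ≤ B := by
    rw [hB]
    exact le_sup_right
  have h1 : B ≤ Subgroup.centralizer (E : Set G) ⊓ Subgroup.centralizer ({x} : Set G) := by
    rw [hB]
    apply sup_le
    · intro e he
      refine Subgroup.mem_inf.mpr ⟨?_, ?_⟩
      · rw [Subgroup.mem_centralizer_iff]
        intro e' he'
        exact congrArg Subtype.val (hEc.is_comm.comm ⟨e', he'⟩ ⟨e, he⟩)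
      · rw [Subgroup.mem_centralizer_iff]
        intro y hy
        rw [Set.mem_singleton_iff] at hy
        rw [hy]
        exact hx e he
    · rw [Subgroup.zpowers_le]
      refine Subgroup.mem_inf.mpr ⟨?_, ?_⟩
      · rw [Subgroup.mem_centralizer_iff]
        intro e he
        exact (hx e he).symm
      · rw [Subgroup.mem_centralizer_iff]
        intro y hy
        rw [Set.mem_singleton_iff] at hy
        rw [hy]
  have h3 : ∀ b ∈ B, (∀ e ∈ E, e * b = b * e) ∧ x * b = b * x := by
    intro b hb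
    have h4 := Subgroup.mem_inf.mp (h1 hb)
    exact ⟨fun e he => Subgroup.mem_centralizer_iff.mp h4.1 e he,
      Subgroup.mem_centralizer_iff.mp h4.2 x (Set.mem_singleton x)⟩
  have h2' : E ⊔ Subgroup.zpowers x ≤ Subgroup.centralizer (B : Set G) := by
    apply sup_le
    · intro e he
      rw [Subgroup.mem_centralizer_iff]
      intro b hb
      exact ((h3 b hb).1 e he).symm
    · rw [Subgroup.zpowers_le, Subgroup.mem_centralizer_iff]
      intro b hb
      exact ((h3 b hb).2).symm
  have h2 : B ≤ Subgroup.centralizer (B : Set G) := hB.le.trans h2'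
  have hcomm : ∀ a ∈ B, ∀ b ∈ B, a * b = b * a := fun a ha b hb =>
    Subgroup.mem_centralizer_iff.mp (h2 hb) a ha
  refine ⟨⟨⟨fun a b => Subtype.ext (hcomm a a.2 b b.2)⟩⟩, ?_⟩
  let Q : Subgroup G :=
    { carrier := {b | b ∈ B ∧ b ^ p = 1}
      mul_mem' := fun {a b} ha hb => ⟨B.mul_mem ha.1 hb.1, by
        have hc : Commute a b := hcomm a ha.1 b hb.1
        rw [hc.mul_pow, ha.2, hb.2, one_mul]⟩
      one_mem' := ⟨B.one_mem, one_pow p⟩
      inv_mem' := fun {a} ha => ⟨B.inv_mem ha.1, by rw [inv_pow, ha.2, inv_one]⟩ }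
  have hQ' : E ⊔ Subgroup.zpowers x ≤ Q := by
    apply sup_le
    · intro e he
      exact ⟨hEB he, hEe e he⟩
    · rw [Subgroup.zpowers_le]
      exact ⟨hxB (Subgroup.mem_zpowers x), hxp⟩
  have hQ : B ≤ Q := hB.le.trans hQ'
  intro b hb
  exact (hQ hb).2

/-- If all commutators `⁅h, e⁆` (`h ∈ H`) lie in a central subgroup `Z`, the centralizer of `e`
in `H` has index at most `|Z|`. -/
theorem card_le_mul_card_inf_centralizer {G : Type*} [Group G] [Finite G] (H Z : Subgroup G)
    (e : G) (hZc : Z ≤ Subgroup.center G) (hHe : ∀ h ∈ H, ⁅h, e⁆ ∈ Z) :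
    Nat.card H ≤
      Nat.card Z * Nat.card (H ⊓ Subgroup.centralizer ({e} : Set G) : Subgroup G) := by
  classical
  let φ : H →* Z := MonoidHom.mk' (fun h => ⟨⁅(h : G), e⁆, hHe h h.2⟩) (by
    intro a b
    apply Subtype.ext
    have hb : ⁅(b : G), e⁆ ∈ Subgroup.center G := hZc (hHe b b.2)
    show ⁅((a * b : H) : G), e⁆ = ⁅(a : G), e⁆ * ⁅(b : G), e⁆
    rw [Subgroup.coe_mul, abop_comm_mul_left]
    have h1 : (a : G) * ⁅(b : G), e⁆ = ⁅(b : G), e⁆ * (a : G) :=
      Subgroup.mem_center_iff.mp hb a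
    rw [h1, mul_inv_cancel_right]
    exact (Subgroup.mem_center_iff.mp hb _).symm)
  have h1 := Subgroup.card_mul_index φ.ker
  rw [Subgroup.index_ker] at h1
  have h2 : Nat.card φ.range ≤ Nat.card Z := Subgroup.card_le_card_group φ.range
  have h3 : Nat.card φ.ker ≤
      Nat.card (H ⊓ Subgroup.centralizer ({e} : Set G) : Subgroup G) := by
    have h4 : φ.ker.map H.subtype ≤ H ⊓ Subgroup.centralizer ({e} : Set G) := by
      rintro _ ⟨k, hk, rfl⟩
      refine Subgroup.mem_inf.mpr ⟨k.2, ?_⟩
      rw [Subgroup.mem_centralizer_iff]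
      intro y hy
      rw [Set.mem_singleton_iff] at hy
      rw [hy]
      have h5 : φ k = 1 := MonoidHom.mem_ker.mp hk
      have h6 : ⁅(k : G), e⁆ = 1 := congrArg Subtype.val h5
      exact (commutatorElement_eq_one_iff_commute.mp h6).eq.symm
    have h7 := Subgroup.card_le_of_le h4
    rw [Subgroup.card_map_of_injective H.subtype_injective] at h7
    exact h7
  calc Nat.card H = Nat.card φ.ker * Nat.card φ.range := h1.symm
    _ ≤ Nat.card (H ⊓ Subgroup.centralizer ({e} : Set G) : Subgroup G) * Nat.card Z :=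
        Nat.mul_le_mul h3 h2
    _ = Nat.card Z * Nat.card (H ⊓ Subgroup.centralizer ({e} : Set G) : Subgroup G) :=
        Nat.mul_comm _ _

/-- A `p`-group of rank at least three (`p` odd) with a maximal elementary abelian subgroup `E`
of order `p ^ 2`: structure of `Ω₁(Z(R))` and `Ω₁(Z₂(R))`. -/
theorem rank3_max_sq {R : Type*} [Group R] [Finite R] (p : ℕ) [Fact p.Prime] (hp : p ≠ 2)
    (hR : IsPGroup p R) (hr : ¬ Cfsg.PRankLE p 2 R)
    (E : Subgroup R) (hE : Cfsg.IsElementaryAbelian p E) (hE2 : Nat.card E = p ^ 2)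
    (hEmax : ∀ B : Subgroup R, Cfsg.IsElementaryAbelian p B → E ≤ B → B = E) :
    ¬ E ≤ Subgroup.centralizer ((Subgroup.closure {x : R | x ∈ Subgroup.upperCentralSeries R 2 ∧ x ^ p = 1} : Subgroup R) : Set R) ∧
      Nat.card ↥(Subgroup.closure {x : R | x ∈ Subgroup.center R ∧ x ^ p = 1}) = p ∧
      (Cfsg.IsElementaryAbelian p (Subgroup.closure {x : R | x ∈ Subgroup.upperCentralSeries R 2 ∧ x ^ p = 1}) ∧
        Nat.card ↥(Subgroup.closure {x : R | x ∈ Subgroup.upperCentralSeries R 2 ∧ x ^ p = 1}) = p ^ 2) ∧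
      (Subgroup.centralizer ((Subgroup.closure {x : R | x ∈ Subgroup.upperCentralSeries R 2 ∧ x ^ p = 1} : Subgroup R) : Set R)).Characteristic ∧
      (Subgroup.centralizer ((Subgroup.closure {x : R | x ∈ Subgroup.upperCentralSeries R 2 ∧ x ^ p = 1} : Subgroup R) : Set R)).index = p := by
  have hpp : p.Prime := Fact.out
  haveI : Group.IsNilpotent R := hR.isNilpotent
  have hEc := hE.1
  have hEe := hE.2
  obtain ⟨N, hNn, hNc, hNe, hNcard⟩ := exists_normal_cube_of_rank p hp hR hr
  haveI := hNn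
  have hdvd : p ∣ p.choose 2 := by
    apply hpp.dvd_choose_self (by norm_num)
    have := hpp.two_le
    omega
  obtain ⟨Z, hZ⟩ : ∃ Z : Subgroup R,
      Z = Subgroup.closure {x : R | x ∈ Subgroup.center R ∧ x ^ p = 1} := ⟨_, rfl⟩
  obtain ⟨W, hW⟩ : ∃ W : Subgroup R,
      W = Subgroup.closure {x : R | x ∈ Subgroup.upperCentralSeries R 2 ∧ x ^ p = 1} :=
    ⟨_, rfl⟩
  rw [← hZ, ← hW]
  have hL1 : ∀ x : R, (∀ e ∈ E, x * e = e * x) → x ^ p = 1 → x ∈ E := by
    intro x hx hxp
    have h1 := ea_sup_zpowers_r3 p E hE x hx hxp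
    have h2 := hEmax _ h1 le_sup_left
    rw [← h2]
    exact (le_sup_right : Subgroup.zpowers x ≤ _) (Subgroup.mem_zpowers x)
  have hZmem : ∀ x, x ∈ Z ↔ x ∈ Subgroup.center R ∧ x ^ p = 1 := by
    intro x
    constructor
    · intro hx
      rw [hZ] at hx
      induction hx using Subgroup.closure_induction with
      | mem y hy => exact hy
      | one => exact ⟨Subgroup.one_mem _, one_pow p⟩
      | mul a b ha hb iha ihb =>
        refine ⟨Subgroup.mul_mem _ iha.1 ihb.1, ?_⟩
        have hc : Commute a b := Subgroup.mem_center_iff.mp ihb.1 a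
        rw [hc.mul_pow, iha.2, ihb.2, one_mul]
      | inv a ha iha => exact ⟨Subgroup.inv_mem _ iha.1, by rw [inv_pow, iha.2, inv_one]⟩
    · intro hx
      rw [hZ]
      exact Subgroup.subset_closure hx
  have hZ2c : ∀ x ∈ Subgroup.upperCentralSeries R 2, ∀ g : R,
      ⁅x, g⁆ ∈ Subgroup.center R := by
    intro x hx g
    have h1 := (Subgroup.mem_upperCentralSeries_succ_iff (n := 1)).mp hx g
    rw [Subgroup.upperCentralSeries_one] at h1
    exact h1
  have hWmem : ∀ x, x ∈ W ↔ x ∈ Subgroup.upperCentralSeries R 2 ∧ x ^ p = 1 := by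
    intro x
    constructor
    · intro hx
      rw [hW] at hx
      induction hx using Subgroup.closure_induction with
      | mem y hy => exact hy
      | one => exact ⟨Subgroup.one_mem _, one_pow p⟩
      | mul a b ha hb iha ihb =>
        refine ⟨Subgroup.mul_mem _ iha.1 ihb.1, ?_⟩
        have hcen : ⁅b, a⁆ ∈ Subgroup.center R := hZ2c b ihb.1 a
        have hca : Commute ⁅b, a⁆ a := (Subgroup.mem_center_iff.mp hcen a).symm
        have hcb : Commute ⁅b, a⁆ b := (Subgroup.mem_center_iff.mp hcen b).symm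
        have hcp : ⁅b, a⁆ ^ p = 1 := by
          rw [← Helper24.commutator_pow_left b a hcb p, ihb.2, commutatorElement_one_left]
        rw [Helper24.mul_pow_of_commutator_central a b hca hcb p, iha.2, ihb.2, one_mul,
          one_mul]
        obtain ⟨k, hk⟩ := hdvd
        rw [hk, pow_mul, hcp, one_pow]
      | inv a ha iha => exact ⟨Subgroup.inv_mem _ iha.1, by rw [inv_pow, iha.2, inv_one]⟩
    · intro hx
      rw [hW]
      exact Subgroup.subset_closure hx
  have hZcen : Z ≤ Subgroup.center R := fun x hx => ((hZmem x).mp hx).1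
  haveI hZn : Z.Normal := ⟨fun z hz g => by
    have h1 := Subgroup.mem_center_iff.mp (hZcen hz) g
    rw [h1, mul_inv_cancel_right]
    exact hz⟩
  have hZ2n : (Subgroup.upperCentralSeries R 2).Normal := inferInstance
  haveI hWn : W.Normal := ⟨fun w hw g => by
    rw [hWmem] at hw ⊢
    refine ⟨hZ2n.conj_mem w hw.1 g, ?_⟩
    rw [conj_pow, hw.2]
    group⟩
  have hNbot : N ≠ ⊥ := by
    intro h
    rw [h, Subgroup.card_bot] at hNcard
    have h1 := Nat.one_lt_pow (by norm_num : 3 ≠ 0) hpp.one_lt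
    omega
  obtain ⟨z, hzN, hz1, hzc⟩ := Helper24.exists_mem_center_of_normal N hNbot
  have hzZ : z ∈ Z := (hZmem z).mpr ⟨hzc, hNe z hzN⟩
  have hZE : Z ≤ E := by
    intro x hx
    have hx' := (hZmem x).mp hx
    exact hL1 x (fun e _ => (Subgroup.mem_center_iff.mp hx'.1 e).symm) hx'.2
  have hZcard : Nat.card Z = p := by
    have h1 : Nat.card Z ∣ p ^ 2 := by
      rw [← hE2]
      exact Subgroup.card_dvd_of_le hZE
    obtain ⟨k, hk, hkc⟩ := (Nat.dvd_prime_pow hpp).mp h1
    have hk0 : k ≠ 0 := by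
      rintro rfl
      rw [pow_zero] at hkc
      have h2 : Z = ⊥ := Subgroup.card_eq_one.mp hkc
      rw [h2] at hzZ
      exact hz1 (Subgroup.mem_bot.mp hzZ)
    have hk2 : k ≠ 2 := by
      rintro rfl
      have h2 : Z = E := Subgroup.eq_of_le_of_card_ge hZE (le_of_eq (by rw [hE2, hkc]))
      have h3 : N ≤ E := by
        intro n hn
        apply hL1 n _ (hNe n hn)
        intro e he
        have he' : e ∈ Subgroup.center R := hZcen (by rw [h2]; exact he)
        exact Subgroup.mem_center_iff.mp he' n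
      have h4 := Subgroup.card_le_of_le h3
      rw [hNcard, hE2] at h4
      have h5 := (Nat.pow_le_pow_iff_right hpp.one_lt).mp h4
      omega
    have hk1 : k = 1 := by omega
    rw [hkc, hk1, pow_one]
  have hNcen : ¬ N ≤ Subgroup.center R := by
    intro h
    have h1 : N ≤ Z := fun n hn => (hZmem n).mpr ⟨h hn, hNe n hn⟩
    have h2 := Subgroup.card_le_of_le h1
    rw [hNcard, hZcard] at h2
    have h3 : p ^ 1 < p ^ 3 := Nat.pow_lt_pow_right hpp.one_lt (by norm_num)
    rw [pow_one] at h3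
    omega
  obtain ⟨x, hxN, hxc, hxcomm⟩ :=
    Helper24.exists_mem_not_mem_commutator_mem N (Subgroup.center R) hNcen
  have hxZ2 : x ∈ Subgroup.upperCentralSeries R 2 := by
    apply (Subgroup.mem_upperCentralSeries_succ_iff (n := 1)).mpr
    intro g
    rw [Subgroup.upperCentralSeries_one]
    exact hxcomm g
  have hxW : x ∈ W := (hWmem x).mpr ⟨hxZ2, hNe x hxN⟩
  have hxZ : x ∉ Z := fun h => hxc (hZcen h)
  have hZN : Z ≤ N := by
    have h1 : Subgroup.zpowers z ≤ Z := by
      rw [Subgroup.zpowers_le]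
      exact hzZ
    have h2 : Subgroup.zpowers z = Z := by
      apply Subgroup.eq_of_le_of_card_ge h1
      exact le_of_eq (by
        rw [hZcard, Nat.card_zpowers, orderOf_eq_prime ((hZmem z).mp hzZ).2 hz1])
    rw [← h2, Subgroup.zpowers_le]
    exact hzN
  have hW0card : Nat.card (Z ⊔ Subgroup.zpowers x : Subgroup R) = p ^ 2 := by
    rw [Helper24.card_sup_zpowers_of_pow_prime hpp Z x hxZ (hNe x hxN), hZcard, pow_two]
  have hW0W : Z ⊔ Subgroup.zpowers x ≤ W := by
    apply sup_le
    · intro y hy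
      have hy' := (hZmem y).mp hy
      refine (hWmem y).mpr ⟨?_, hy'.2⟩
      apply (Subgroup.mem_upperCentralSeries_succ_iff (n := 1)).mpr
      intro g
      have h1 : ⁅y, g⁆ = 1 :=
        commutatorElement_eq_one_iff_commute.mpr (Subgroup.mem_center_iff.mp hy'.1 g).symm
      rw [h1]
      exact Subgroup.one_mem _
    · rw [Subgroup.zpowers_le]
      exact hxW
  have hpart1 : ¬ E ≤ Subgroup.centralizer (W : Set R) := by
    intro hEW
    have hWE : W ≤ E := by
      intro w hw
      apply hL1 w _ ((hWmem w).mp hw).2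
      intro e he
      exact Subgroup.mem_centralizer_iff.mp (hEW he) w hw
    have h1 : Z ⊔ Subgroup.zpowers x ≤ E := hW0W.trans hWE
    have h2 : Z ⊔ Subgroup.zpowers x = E :=
      Subgroup.eq_of_le_of_card_ge h1 (le_of_eq (by rw [hE2, hW0card]))
    have h3 : E ≤ N := by
      rw [← h2]
      apply sup_le hZN
      rw [Subgroup.zpowers_le]
      exact hxN
    have h4 := hEmax N ⟨hNc, hNe⟩ h3
    have h5 : Nat.card N = Nat.card E := by rw [h4]
    rw [hNcard, hE2] at h5
    have h6 := Nat.pow_right_injective hpp.two_le h5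
    omega
  obtain ⟨e, heE, heZ⟩ : ∃ e ∈ E, e ∉ Z := by
    apply SetLike.not_le_iff_exists.mp
    intro h
    have h1 := Subgroup.card_le_of_le h
    rw [hE2, hZcard] at h1
    have h2 : p ^ 1 < p ^ 2 := Nat.pow_lt_pow_right hpp.one_lt (by norm_num)
    rw [pow_one] at h2
    omega
  have hEdecomp : Z ⊔ Subgroup.zpowers e = E := by
    have h1 : Z ⊔ Subgroup.zpowers e ≤ E :=
      sup_le hZE (by rw [Subgroup.zpowers_le]; exact heE)
    apply Subgroup.eq_of_le_of_card_ge h1
    exact le_of_eq (by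
      rw [Helper24.card_sup_zpowers_of_pow_prime hpp Z e heZ (hEe e heE), hZcard, hE2, pow_two])
  have hcommE : ∀ g : R, g * e = e * g → ∀ e' ∈ E, g * e' = e' * g := by
    intro g hg e' he'
    rw [← hEdecomp, Subgroup.mem_sup_of_normal_left] at he'
    obtain ⟨z', hz', y, hy, rfl⟩ := he'
    obtain ⟨k, rfl⟩ := Subgroup.mem_zpowers_iff.mp hy
    have hg' : Commute g e := hg
    have h1 : Commute g z' := Subgroup.mem_center_iff.mp (hZcen hz') g
    have h2 : Commute g (e ^ k) := hg'.zpow_right k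
    exact (h1.mul_right h2).eq
  have hWcomm : ∀ w ∈ W, ∀ g : R, ⁅w, g⁆ ∈ Z := by
    intro w hw g
    have hw' := (hWmem w).mp hw
    have hcen := hZ2c w hw'.1 g
    refine (hZmem _).mpr ⟨hcen, ?_⟩
    have hcw : Commute ⁅w, g⁆ w := (Subgroup.mem_center_iff.mp hcen w).symm
    rw [← Helper24.commutator_pow_left w g hcw p, hw'.2, commutatorElement_one_left]
  have hcnt1 := card_le_mul_card_inf_centralizer W Z e hZcen (fun w hw => hWcomm w hw e)
  have hK0E : W ⊓ Subgroup.centralizer ({e} : Set R) ≤ E := by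
    intro k hk
    obtain ⟨hkW, hkc⟩ := Subgroup.mem_inf.mp hk
    have h1 : k * e = e * k :=
      (Subgroup.mem_centralizer_iff.mp hkc e (Set.mem_singleton e)).symm
    exact hL1 k (hcommE k h1) ((hWmem k).mp hkW).2
  have hWcard : Nat.card W = p ^ 2 := by
    have hge : p ^ 2 ≤ Nat.card W := by
      have h0 := Subgroup.card_le_of_le hW0W
      rw [hW0card] at h0
      exact h0
    by_contra hne
    have hgt : p ^ 2 < Nat.card W := lt_of_le_of_ne hge (Ne.symm hne)
    rw [hZcard] at hcnt1
    have h1 : p < Nat.card (W ⊓ Subgroup.centralizer ({e} : Set R) : Subgroup R) := by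
      by_contra hle
      push Not at hle
      have h2 : p * Nat.card (W ⊓ Subgroup.centralizer ({e} : Set R) : Subgroup R) ≤ p * p :=
        Nat.mul_le_mul_left p hle
      rw [pow_two] at hgt
      omega
    have h3 : Nat.card (W ⊓ Subgroup.centralizer ({e} : Set R) : Subgroup R) ∣ p ^ 2 := by
      rw [← hE2]
      exact Subgroup.card_dvd_of_le hK0E
    obtain ⟨k, hk, hkc⟩ := (Nat.dvd_prime_pow hpp).mp h3
    have hk2 : k = 2 := by
      by_contra hk2
      have hk1 : k ≤ 1 := by omega
      have h4 : p ^ k ≤ p ^ 1 := Nat.pow_le_pow_right hpp.pos hk1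
      rw [pow_one, ← hkc] at h4
      omega
    rw [hk2] at hkc
    have h5 : W ⊓ Subgroup.centralizer ({e} : Set R) = E :=
      Subgroup.eq_of_le_of_card_ge hK0E (le_of_eq (by rw [hE2, hkc]))
    have hEW : E ≤ W := by
      rw [← h5]
      exact inf_le_left
    have hNe' : ∀ n ∈ N, ⁅n, e⁆ ∈ Z := by
      intro n hn
      have h6 := hWcomm e (hEW heE) n
      have h7 : ⁅n, e⁆ = ⁅e, n⁆⁻¹ := (commutatorElement_inv e n).symm
      rw [h7]
      exact Z.inv_mem h6
    have hcnt2 := card_le_mul_card_inf_centralizer N Z e hZcen hNe'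
    rw [hZcard, hNcard] at hcnt2
    have hK1E : N ⊓ Subgroup.centralizer ({e} : Set R) ≤ E := by
      intro k hk
      obtain ⟨hkN, hkc'⟩ := Subgroup.mem_inf.mp hk
      have h1 : k * e = e * k :=
        (Subgroup.mem_centralizer_iff.mp hkc' e (Set.mem_singleton e)).symm
      exact hL1 k (hcommE k h1) (hNe k hkN)
    have h9 : p ^ 2 ≤ Nat.card (N ⊓ Subgroup.centralizer ({e} : Set R) : Subgroup R) := by
      have h10 : p ^ 2 * p ≤
          Nat.card (N ⊓ Subgroup.centralizer ({e} : Set R) : Subgroup R) * p := by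
        calc p ^ 2 * p = p ^ 3 := by ring
          _ ≤ p * Nat.card (N ⊓ Subgroup.centralizer ({e} : Set R) : Subgroup R) := hcnt2
          _ = Nat.card (N ⊓ Subgroup.centralizer ({e} : Set R) : Subgroup R) * p :=
              Nat.mul_comm _ _
      exact Nat.le_of_mul_le_mul_right h10 hpp.pos
    have h11 : N ⊓ Subgroup.centralizer ({e} : Set R) = E :=
      Subgroup.eq_of_le_of_card_ge hK1E (by rw [hE2]; exact h9)
    have h12 : E ≤ N := by
      rw [← h11]
      exact inf_le_left
    have h13 := hEmax N ⟨hNc, hNe⟩ h12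
    have h14 : Nat.card N = Nat.card E := by rw [h13]
    rw [hNcard, hE2] at h14
    have h15 := Nat.pow_right_injective hpp.two_le h14
    omega
  have hWea : Cfsg.IsElementaryAbelian p W :=
    ⟨IsPGroup.isMulCommutative_of_card_eq_prime_sq hWcard, fun w hw => ((hWmem w).mp hw).2⟩
  have hidx : (Subgroup.centralizer (W : Set R)).index = p := by
    have h1 := Helper24.index_centralizer_le_of_normal hR 2 W hWn hWcard
    have h2 : Nat.choose 2 2 = 1 := Nat.choose_self 2
    rw [h2, pow_one] at h1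
    have h3 : (Subgroup.centralizer (W : Set R)).index ∣ Nat.card R :=
      Subgroup.index_dvd_card _
    obtain ⟨n, hn⟩ := IsPGroup.iff_card.mp hR
    rw [hn] at h3
    obtain ⟨k, hk, hkc⟩ := (Nat.dvd_prime_pow hpp).mp h3
    have hk0 : k ≠ 0 := by
      rintro rfl
      rw [pow_zero] at hkc
      apply hpart1
      rw [Subgroup.index_eq_one.mp hkc]
      exact le_top
    have hk1 : k ≤ 1 := by
      by_contra hk1
      have h4 : p ^ 2 ≤ p ^ k := Nat.pow_le_pow_right hpp.pos (by omega)
      rw [← hkc] at h4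
      have h5 : p ^ 1 < p ^ 2 := Nat.pow_lt_pow_right hpp.one_lt (by norm_num)
      rw [pow_one] at h5
      omega
    have hk1' : k = 1 := by omega
    rw [hkc, hk1', pow_one]
  have hWchar : W.Characteristic := by
    rw [Subgroup.characteristic_iff_comap_le]
    intro φ w hw
    have hw2 : φ w ∈ W := hw
    have hw' := (hWmem _).mp hw2
    refine (hWmem w).mpr ⟨?_, ?_⟩
    · apply (Subgroup.mem_upperCentralSeries_succ_iff (n := 1)).mpr
      intro g
      rw [Subgroup.upperCentralSeries_one, Subgroup.mem_center_iff]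
      intro h
      have h1 := hZ2c _ hw'.1 (φ g)
      have h2 := Subgroup.mem_center_iff.mp h1 (φ h)
      apply φ.injective
      rw [map_mul, map_mul, map_commutatorElement]
      exact h2
    · apply φ.injective
      rw [map_pow, map_one]
      exact hw'.2
  haveI := hWchar
  have hchar : (Subgroup.centralizer (W : Set R)).Characteristic := inferInstance
  exact ⟨hpart1, hZcard, ⟨hWea, hWcard⟩, hchar, hidx⟩

end Cfsg.Agent.Helper11
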