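import Mathlib
import Cfsg.Agent.Helper11.CycNormal
import Cfsg.Agent.Helper11.CycTwo
import Cfsg.Agent.Helper11.Rank3
import Cfsg.Agent.Helper24.ExtraIndexP
import Cfsg.Agent.Helper24.CyclicMax
import Cfsg.Agent.Helper24.NormalCenter
import Cfsg.Agent.Helper8.QDLift
import Cfsg.Prelude.Def_PLocal
import Cfsg.Prelude.Def_CaseTheorems
import Cfsg.Prelude.Def_Transfer

set_option autoImplicit false

namespace Cfsg.Agent.Helper11

open scoped commutatorElement

/-- In a `p`-group, an element outside a subgroup has a `p`-power power just outside it. -/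
theorem exists_ppow_not_mem_succ_mem {G : Type*} [Group G] {p : ℕ}
    (hG : IsPGroup p G) (A : Subgroup G) (y : G) (hy : y ∉ A) :
    ∃ i : ℕ, y ^ (p ^ i) ∉ A ∧ y ^ (p ^ (i + 1)) ∈ A := by
  classical
  have hex : ∃ k, y ^ (p ^ k) ∈ A := by
    obtain ⟨N, hN⟩ := hG y
    exact ⟨N, by rw [hN]; exact A.one_mem⟩
  have hk := Nat.find_spec hex
  have hk0 : Nat.find hex ≠ 0 := by
    intro h0
    rw [h0, pow_zero, pow_one] at hk
    exact hy hk
  obtain ⟨i, hi⟩ : ∃ i, Nat.find hex = i + 1 := ⟨Nat.find hex - 1, by omega⟩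
  refine ⟨i, ?_, ?_⟩
  · exact Nat.find_min hex (by omega)
  · rw [← hi]
    exact hk

/-- Square roots of `1` modulo a power of two. -/
theorem sq_modEq_one_two_pow {K n : ℕ} (hn : 1 ≤ n) (h : K ^ 2 ≡ 1 [MOD 2 ^ n]) :
    K ≡ 1 [MOD 2 ^ (n - 1)] ∨ 2 ^ (n - 1) ∣ K + 1 := by
  have h2 : K ^ 2 ≡ 1 [MOD 2] := h.of_dvd (dvd_pow_self 2 (by omega))
  have hKodd : K % 2 = 1 := by
    unfold Nat.ModEq at h2
    rw [Nat.pow_mod] at h2
    rcases Nat.mod_two_eq_zero_or_one K with h0 | h1
    · rw [h0] at h2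
      norm_num at h2
    · exact h1
  obtain ⟨t, ht⟩ : ∃ t, K = 2 * t + 1 := ⟨K / 2, by omega⟩
  subst ht
  have hsq : (2 * t + 1) ^ 2 = 4 * (t * (t + 1)) + 1 := by ring
  have hd : 2 ^ n ∣ 4 * (t * (t + 1)) := by
    have h3 := (Nat.modEq_iff_dvd' (by rw [hsq]; omega : 1 ≤ (2 * t + 1) ^ 2)).mp h.symm
    rw [hsq, Nat.add_sub_cancel] at h3
    exact h3
  rcases Nat.lt_or_ge n 2 with hn1 | hn2
  · left
    have : n - 1 = 0 := by omega
    rw [this, pow_zero]
    exact Nat.modEq_one
  · obtain ⟨m, hm⟩ : ∃ m, n = m + 2 := ⟨n - 2, by omega⟩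
    subst hm
    have e1 : 2 ^ (m + 2) = 4 * 2 ^ m := by
      rw [pow_add]
      ring
    rw [e1] at hd
    have hd' : 2 ^ m ∣ t * (t + 1) := Nat.dvd_of_mul_dvd_mul_left (by norm_num) hd
    have e2 : m + 2 - 1 = m + 1 := by omega
    rw [e2]
    rcases Nat.even_or_odd t with hte | hto
    · left
      have hodd : Odd (t + 1) := hte.add_one
      have hcop : Nat.Coprime (2 ^ m) (t + 1) :=
        Nat.Coprime.pow_left m (Nat.coprime_two_left.mpr hodd)
      have h4 : 2 ^ m ∣ t := hcop.dvd_of_dvd_mul_right hd'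
      have h5 : 2 ^ (m + 1) ∣ 2 * t + 1 - 1 := by
        rw [Nat.add_sub_cancel, pow_succ']
        exact mul_dvd_mul_left 2 h4
      exact ((Nat.modEq_iff_dvd' (by omega : 1 ≤ 2 * t + 1)).mpr h5).symm
    · right
      have hcop : Nat.Coprime (2 ^ m) t :=
        Nat.Coprime.pow_left m (Nat.coprime_two_left.mpr hto)
      have h4 : 2 ^ m ∣ t + 1 := hcop.dvd_of_dvd_mul_left hd'
      have e3 : 2 * t + 1 + 1 = 2 * (t + 1) := by ring
      rw [e3, pow_succ']
      exact mul_dvd_mul_left 2 h4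

theorem four_not_dvd_sq_add_one (m : ℕ) : ¬ 4 ∣ m ^ 2 + 1 := by
  intro h
  rcases Nat.even_or_odd' m with ⟨q, hq | hq⟩
  · rw [hq] at h
    have e : (2 * q) ^ 2 + 1 = 4 * (q * q) + 1 := by ring
    rw [e] at h
    obtain ⟨x, hx⟩ : ∃ x, x = q * q := ⟨_, rfl⟩
    rw [← hx] at h
    omega
  · rw [hq] at h
    have e : (2 * q + 1) ^ 2 + 1 = 4 * (q * q + q) + 2 := by ring
    rw [e] at h
    obtain ⟨x, hx⟩ : ∃ x, x = q * q + q := ⟨_, rfl⟩
    rw [← hx] at h
    omega

/-- An element acting on `c` by `c ↦ c ^ k` centralizes `c ^ p` iff `k ≡ 1` modulo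
`p ^ (n - 1)`, where `c` has order `p ^ n`. -/
theorem selfcent_mem_iff {G : Type*} [Group G] {p n : ℕ} (hp0 : 0 < p) (hn : 1 ≤ n) (c : G)
    (hord : orderOf c = p ^ n) (g : G) (k : ℕ) (hk : g * c * g⁻¹ = c ^ k) :
    g * c ^ p = c ^ p * g ↔ k ≡ 1 [MOD p ^ (n - 1)] := by
  have h1 : g * c ^ p * g⁻¹ = c ^ (p * k) := by
    rw [← conj_pow, hk, ← pow_mul, mul_comm k p]
  have h2 : g * c ^ p = c ^ p * g ↔ c ^ (p * k) = c ^ (p * 1) := by
    rw [← h1, mul_one]
    constructor
    · intro h
      rw [h]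
      group
    · intro h
      calc g * c ^ p = (g * c ^ p * g⁻¹) * g := by group
        _ = c ^ p * g := by rw [h]
  rw [h2, pow_eq_pow_iff_modEq, hord]
  have e : p ^ n = p * p ^ (n - 1) := by
    rw [← pow_succ']
    congr 1
    omega
  rw [e]
  constructor
  · intro h
    exact Nat.ModEq.mul_left_cancel' (Nat.pos_iff_ne_zero.mp hp0) h
  · intro h
    exact Nat.ModEq.mul_left' p h

/-- If the centralizer of `c ^ p` is `⟨c⟩`, then `p = 2` and every element outside `⟨c⟩` has
square in `⟨c⟩` and acts on `c` by an exponent `≡ -1` modulo `2 ^ (n - 1)`. -/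
theorem selfcent_outside {G : Type*} [Group G] {p : ℕ} [Fact p.Prime] (hG : IsPGroup p G)
    (n : ℕ) (hn : 2 ≤ n) (c : G) (hord : orderOf c = p ^ n)
    (hconj : ∀ g : G, ∃ k : ℕ, g * c * g⁻¹ = c ^ k)
    (hout : ∀ g : G, g * c ^ p = c ^ p * g → g ∈ Subgroup.zpowers c)
    (g : G) (hg : g ∉ Subgroup.zpowers c) :
    p = 2 ∧ 3 ≤ n ∧ g ^ 2 ∈ Subgroup.zpowers c ∧
      ∃ k : ℕ, g * c * g⁻¹ = c ^ k ∧ 2 ^ (n - 1) ∣ k + 1 := by
  have hpp : p.Prime := Fact.out
  obtain ⟨i, hi1, hi2⟩ := exists_ppow_not_mem_succ_mem hG (Subgroup.zpowers c) g hg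
  obtain ⟨y, hy⟩ : ∃ y : G, y = g ^ (p ^ i) := ⟨_, rfl⟩
  have hyp : y ^ p ∈ Subgroup.zpowers c := by
    rw [hy, ← pow_mul, ← pow_succ]
    exact hi2
  rw [← hy] at hi1
  obtain ⟨K, hK⟩ := hconj y
  have h1 : y ^ p * c * (y ^ p)⁻¹ = c ^ (K ^ p) := Helper24.conj_pow_eq_pow_pow hK p
  have h2 : y ^ p * c * (y ^ p)⁻¹ = c := by
    obtain ⟨j, hj⟩ := Subgroup.mem_zpowers_iff.mp hyp
    rw [← hj]
    group
  have h3 : K ^ p ≡ 1 [MOD p ^ n] := by
    rw [← hord, ← pow_eq_pow_iff_modEq, ← h1, h2, pow_one]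
  have h4 : ¬ K ≡ 1 [MOD p ^ (n - 1)] := by
    intro h
    exact hi1 (hout y ((selfcent_mem_iff hpp.pos (by omega) c hord y K hK).mpr h))
  have hp2 : p = 2 := by
    by_contra hne
    exact h4 (Helper24.modEq_one_of_pow_prime_modEq_one hpp hne (by omega) h3).1
  subst hp2
  have h5 : 2 ^ (n - 1) ∣ K + 1 := by
    rcases sq_modEq_one_two_pow (by omega) h3 with h | h
    · exact absurd h h4
    · exact h
  have hn3 : 3 ≤ n := by
    by_contra hlt
    have hn2 : n = 2 := by omega
    subst hn2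
    apply h4
    have e : (2 : ℕ) ^ (2 - 1) = 2 := by norm_num
    rw [e] at h5 ⊢
    unfold Nat.ModEq
    omega
  have hi0 : i = 0 := by
    by_contra hne
    obtain ⟨j, hj⟩ : ∃ j, i = j + 1 := ⟨i - 1, by omega⟩
    subst hj
    obtain ⟨m, hm⟩ := hconj (g ^ (2 ^ j))
    have e1 : y = (g ^ (2 ^ j)) ^ 2 := by
      rw [hy, ← pow_mul, ← pow_succ]
    have h6 : y * c * y⁻¹ = c ^ (m ^ 2) := by
      rw [e1]
      exact Helper24.conj_pow_eq_pow_pow hm 2
    have h7 : m ^ 2 ≡ K [MOD 2 ^ n] := by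
      rw [← hord, ← pow_eq_pow_iff_modEq, ← h6, hK]
    have h8 : (2 : ℕ) ^ (n - 1) ∣ m ^ 2 + 1 := by
      have h9 : m ^ 2 ≡ K [MOD 2 ^ (n - 1)] := h7.of_dvd (pow_dvd_pow 2 (by omega))
      have h10 : m ^ 2 + 1 ≡ K + 1 [MOD 2 ^ (n - 1)] := h9.add_right 1
      exact Nat.modEq_zero_iff_dvd.mp (h10.trans (Nat.modEq_zero_iff_dvd.mpr h5))
    have h11 : (4 : ℕ) ∣ m ^ 2 + 1 := by
      have h12 : (2 : ℕ) ^ 2 ∣ 2 ^ (n - 1) := pow_dvd_pow 2 (by omega)
      have e4 : (4 : ℕ) = 2 ^ 2 := by norm_num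
      rw [e4]
      exact h12.trans h8
    exact four_not_dvd_sq_add_one m h11
  subst hi0
  have hyg : y = g := by rw [hy, pow_zero, pow_one]
  rw [hyg] at hK
  refine ⟨rfl, hn3, ?_, K, hK, h5⟩
  have h13 := hi2
  rw [zero_add, pow_one] at h13
  exact h13

/-- If the centralizer of `c ^ p` is `⟨c⟩ ≠ G`, then `⟨c⟩` has index `2`. -/
theorem selfcent_index_two {G : Type*} [Group G] {p : ℕ} [Fact p.Prime] (hG : IsPGroup p G)
    (n : ℕ) (hn : 2 ≤ n) (c : G) (hord : orderOf c = p ^ n)
    (hconj : ∀ g : G, ∃ k : ℕ, g * c * g⁻¹ = c ^ k)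
    (hout : ∀ g : G, g * c ^ p = c ^ p * g → g ∈ Subgroup.zpowers c)
    (g₀ : G) (hg₀ : g₀ ∉ Subgroup.zpowers c) :
    (Subgroup.zpowers c).index = 2 := by
  rw [Subgroup.index_eq_two_iff]
  refine ⟨g₀, fun b => ?_⟩
  by_cases hb : b ∈ Subgroup.zpowers c
  · refine Or.inr ⟨hb, fun h => hg₀ ?_⟩
    have h1 := (Subgroup.zpowers c).mul_mem ((Subgroup.zpowers c).inv_mem hb) h
    rwa [inv_mul_cancel_left] at h1
  · refine Or.inl ⟨?_, hb⟩
    obtain ⟨hp2, hn3, -, k, hk, hkd⟩ := selfcent_outside hG n hn c hord hconj hout b hb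
    obtain ⟨-, -, -, l, hl, hld⟩ := selfcent_outside hG n hn c hord hconj hout g₀ hg₀
    subst hp2
    apply hout
    have h1 : b * g₀ * c * (b * g₀)⁻¹ = c ^ (k * l) := by
      have h2 : b * g₀ * c * (b * g₀)⁻¹ = b * (g₀ * c * g₀⁻¹) * b⁻¹ := by group
      rw [h2, hl, ← conj_pow, hk, ← pow_mul]
    refine (selfcent_mem_iff (by norm_num) (by omega) c hord (b * g₀) (k * l) h1).mpr ?_
    apply Nat.ModEq.symm
    apply Nat.modEq_iff_dvd.mpr
    have ha : ((2 ^ (n - 1) : ℕ) : ℤ) ∣ (k : ℤ) + 1 := by exact_mod_cast hkd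
    have hb' : ((2 ^ (n - 1) : ℕ) : ℤ) ∣ (l : ℤ) + 1 := by exact_mod_cast hld
    have e : ((k * l : ℕ) : ℤ) - ((1 : ℕ) : ℤ) =
        ((k : ℤ) + 1) * ((l : ℤ) + 1) - ((k : ℤ) + 1) - ((l : ℤ) + 1) := by
      push_cast
      ring
    rw [e]
    exact dvd_sub (dvd_sub (Dvd.dvd.mul_right ha _) ha) hb'

/-- A `2`-group with a cyclic subgroup `⟨c⟩` of index `2` on which an outside element acts
neither trivially nor by the "modular" exponent is dihedral, generalized quaternion or
semidihedral. -/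
theorem selfcent_two_final {G : Type*} [Group G] [Finite G] (n : ℕ) (hn : 2 ≤ n) (c : G)
    (hord : orderOf c = 2 ^ n) (hidx : (Subgroup.zpowers c).index = 2)
    (x : G) (hx : x ∉ Subgroup.zpowers c) (hnc : x * c ≠ c * x)
    (hmod : 3 ≤ n → x * c * x⁻¹ ≠ c ^ (1 + 2 ^ (n - 1))) :
    Nat.card G = 2 ^ (n + 1) ∧
      ((∃ m : ℕ, Nonempty (G ≃* DihedralGroup m)) ∨
        (∃ m : ℕ, Nonempty (G ≃* QuaternionGroup m)) ∨ Cfsg.IsQuasiDihedral G) := by
  have hcard : Nat.card G = 2 ^ (n + 1) := by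
    rw [← Subgroup.card_mul_index (Subgroup.zpowers c), hidx, Nat.card_zpowers, hord, pow_succ]
  refine ⟨hcard, ?_⟩
  have hCn : (Subgroup.zpowers c).Normal := Subgroup.normal_of_index_eq_two hidx
  have h1 : x * c * x⁻¹ ∈ Subgroup.zpowers c := hCn.conj_mem c (Subgroup.mem_zpowers c) x
  rw [← mem_powers_iff_mem_zpowers] at h1
  obtain ⟨r, hr⟩ := (Submonoid.mem_powers_iff _ _).mp h1
  have h2 : x * x ∈ Subgroup.zpowers c := by
    have h3 := (Subgroup.zpowers c).pow_index_mem x
    rwa [hidx, pow_two] at h3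
  rw [← mem_powers_iff_mem_zpowers] at h2
  obtain ⟨s, hs⟩ := (Submonoid.mem_powers_iff _ _).mp h2
  have hord' : orderOf c = 2 ^ (n + 1 - 1) := by
    rw [Nat.add_sub_cancel]
    exact hord
  obtain ⟨u, hu, hcore⟩ := cyc2_core (n + 1) (by omega) c x r s hord' hr.symm hs.symm hnc
  have e2 : n + 1 - 2 = n - 1 := by omega
  rw [e2] at hcore
  obtain ⟨b, hb⟩ : ∃ b : G, b = u * x := ⟨_, rfl⟩
  rw [← hb] at hcore
  have hbn : b ∉ Subgroup.zpowers c := by
    intro h
    apply hx
    have h3 := (Subgroup.zpowers c).mul_mem ((Subgroup.zpowers c).inv_mem hu) h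
    rw [hb, inv_mul_cancel_left] at h3
    exact h3
  have hbc : b * c * b⁻¹ = c ^ r := by
    obtain ⟨j, hj⟩ := Subgroup.mem_zpowers_iff.mp hu
    rw [hb, ← hj]
    have h3 : c ^ j * x * c * (c ^ j * x)⁻¹ = c ^ j * (x * c * x⁻¹) * (c ^ j)⁻¹ := by group
    rw [h3, ← hr]
    group
  have hpow : c ^ (2 ^ n) = 1 := by
    rw [← hord]
    exact pow_orderOf_eq_one c
  rcases hcore with ⟨hb2, hcr⟩ | ⟨hb2, hcr⟩ | ⟨h4, hb2, hcr⟩ | ⟨h4, hb2, hcr⟩
  · left
    have hconj : b * c * b⁻¹ = c⁻¹ := hbc.trans hcr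
    have hbb : b * b = 1 := (pow_two b).symm.trans hb2
    have hinj := Cfsg.Agent.Helper8.dihLift_injective (2 ^ n) c hpow b hbb hconj hord hbn
    have hbij : Function.Bijective (Cfsg.Agent.Helper8.dihLift (2 ^ n) c hpow b hbb hconj) := by
      rw [Nat.bijective_iff_injective_and_card]
      refine ⟨hinj, ?_⟩
      rw [DihedralGroup.nat_card, hcard, pow_succ']
    exact ⟨2 ^ n, ⟨(MulEquiv.ofBijective _ hbij).symm⟩⟩
  · right
    left
    have hconj : b * c * b⁻¹ = c⁻¹ := hbc.trans hcr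
    have e1 : n = (n - 1) + 1 := by omega
    have hpow' : c ^ (2 * 2 ^ (n - 1)) = 1 := by
      rw [← pow_succ', ← e1]
      exact hpow
    have hbb : b * b = c ^ (2 ^ (n - 1)) := (pow_two b).symm.trans hb2
    have hoa' : orderOf c = 2 * 2 ^ (n - 1) := by
      rw [← pow_succ', ← e1]
      exact hord
    have hinj := Cfsg.Agent.Helper8.quatLift_injective (2 ^ (n - 1)) c hpow' b hbb hconj hoa' hbn
    have hbij : Function.Bijective
        (Cfsg.Agent.Helper8.quatLift (2 ^ (n - 1)) c hpow' b hbb hconj) := by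
      rw [Nat.bijective_iff_injective_and_card]
      refine ⟨hinj, ?_⟩
      have e4 : 2 ^ (n + 1) = 2 ^ (n - 1) * 2 ^ 2 := by
        rw [← pow_add]
        congr 1
        omega
      rw [Nat.card_eq_fintype_card, QuaternionGroup.card, hcard, e4]
      ring
    exact ⟨2 ^ (n - 1), ⟨(MulEquiv.ofBijective _ hbij).symm⟩⟩
  · exfalso
    exact hmod (by omega) (hr.symm.trans hcr)
  · right
    right
    unfold Cfsg.IsQuasiDihedral
    refine ⟨n, by omega, hcard, c, b, hord, ?_, hbc.trans hcr⟩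
    apply orderOf_eq_prime hb2
    intro h1
    exact hbn (h1 ▸ (Subgroup.zpowers c).one_mem)

/-- In the "modular" situation (`g` acts on `c` of order `2 ^ n`, `n ≥ 3`, by the exponent
`1 + 2 ^ (n - 1)`), the elements of order dividing `2` of a subgroup `M` containing `⟨c⟩` with
index `2` form an elementary abelian subgroup of order `4`. -/
theorem selfcent_mod_omega {G : Type*} [Group G] [Finite G] (n : ℕ) (hn : 3 ≤ n) (c g : G)
    (hord : orderOf c = 2 ^ n) (hZn : (Subgroup.zpowers (c ^ (2 ^ (n - 1)))).Normal)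
    (hconj : g * c * g⁻¹ = c ^ (1 + 2 ^ (n - 1))) (hg2 : g * g ∈ Subgroup.zpowers c)
    (M : Subgroup G) (hcM : c ∈ M) (hgM : g ∈ M)
    (hrel : (Subgroup.zpowers c).relIndex M = 2) :
    ∃ E : Subgroup G, Cfsg.IsElementaryAbelian 2 E ∧ Nat.card E = 4 ∧
      ∀ x : G, x ∈ E ↔ x ∈ M ∧ x ^ 2 = 1 := by
  obtain ⟨H, hH⟩ : ∃ H : ℕ, H = 2 ^ (n - 1) := ⟨_, rfl⟩
  rw [← hH] at hZn hconj
  have hHpos : 0 < H := by
    rw [hH]
    positivity
  obtain ⟨q, hq⟩ : ∃ q, H = 4 * q := by
    have h12 : (2 : ℕ) ^ 2 ∣ 2 ^ (n - 1) := pow_dvd_pow 2 (by omega)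
    obtain ⟨q, hq⟩ := h12
    exact ⟨q, by rw [hH, hq]; norm_num⟩
  have hH4 : 4 ≤ H := by omega
  have hN : 2 ^ n = 2 * H := by
    rw [hH, ← pow_succ']
    congr 1
    omega
  have hpe : ∀ k l : ℕ, c ^ k = c ^ l ↔ k ≡ l [MOD 2 * H] := by
    intro k l
    rw [← hN, ← hord]
    exact pow_eq_pow_iff_modEq
  have hpow : c ^ (2 ^ n) = 1 := by
    rw [← hord]
    exact pow_orderOf_eq_one c
  have hne : g * c ≠ c * g := by
    intro h
    have h1 : g * c * g⁻¹ = c ^ 1 := by
      rw [h]
      group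
    rw [hconj, hpe] at h1
    unfold Nat.ModEq at h1
    rw [Nat.mod_eq_of_lt (by omega : 1 + H < 2 * H), Nat.mod_eq_of_lt (by omega : 1 < 2 * H)] at h1
    omega
  have hUM : Subgroup.zpowers c ≤ M := by
    rw [Subgroup.zpowers_le]
    exact hcM
  rw [← mem_powers_iff_mem_zpowers] at hg2
  obtain ⟨s, hs⟩ := (Submonoid.mem_powers_iff _ _).mp hg2
  have hord' : orderOf c = 2 ^ (n + 1 - 1) := by
    rw [Nat.add_sub_cancel]
    exact hord
  obtain ⟨u, hu, hcore⟩ := cyc2_core (n + 1) (by omega) c g (1 + H) s hord' hconj hs.symm hne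
  have e2 : n + 1 - 2 = n - 1 := by omega
  rw [e2, ← hH] at hcore
  have hex1 : c ^ (1 + H) ≠ c⁻¹ := by
    intro h
    have h1 : c ^ (1 + H + 1) = c ^ 0 := by
      rw [pow_succ, h, inv_mul_cancel, pow_zero]
    rw [hpe] at h1
    unfold Nat.ModEq at h1
    rw [Nat.mod_eq_of_lt (by omega : 1 + H + 1 < 2 * H), Nat.zero_mod] at h1
    omega
  have hex2 : c ^ (1 + H) ≠ c ^ (H - 1) := by
    intro h
    rw [hpe] at h
    unfold Nat.ModEq at h
    rw [Nat.mod_eq_of_lt (by omega : 1 + H < 2 * H),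
      Nat.mod_eq_of_lt (by omega : H - 1 < 2 * H)] at h
    omega
  obtain ⟨b, hb⟩ : ∃ b : G, b = u * g := ⟨_, rfl⟩
  rw [← hb] at hcore
  have hb2 : b ^ 2 = 1 := by
    rcases hcore with ⟨-, h⟩ | ⟨-, h⟩ | ⟨-, h, -⟩ | ⟨-, -, h⟩
    · exact absurd h hex1
    · exact absurd h hex1
    · exact h
    · exact absurd h hex2
  have hgU : g ∉ Subgroup.zpowers c := by
    intro h
    obtain ⟨j, hj⟩ := Subgroup.mem_zpowers_iff.mp h
    apply hne
    rw [← hj]
    group
  have hbU : b ∉ Subgroup.zpowers c := by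
    intro h
    apply hgU
    have h3 := (Subgroup.zpowers c).mul_mem ((Subgroup.zpowers c).inv_mem hu) h
    rw [hb, inv_mul_cancel_left] at h3
    exact h3
  have hbc : b * c * b⁻¹ = c ^ (1 + H) := by
    obtain ⟨j, hj⟩ := Subgroup.mem_zpowers_iff.mp hu
    rw [hb, ← hj]
    have h3 : c ^ j * g * c * (c ^ j * g)⁻¹ = c ^ j * (g * c * g⁻¹) * (c ^ j)⁻¹ := by group
    rw [h3, hconj]
    group
  have hbM : b ∈ M := by
    rw [hb]
    exact M.mul_mem (hUM hu) hgM
  obtain ⟨z, hz⟩ : ∃ z : G, z = c ^ H := ⟨_, rfl⟩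
  rw [← hz] at hZn
  have hz2 : z ^ 2 = 1 := by
    rw [hz, ← pow_mul, mul_comm H 2, ← hN]
    exact hpow
  have hz1 : z ≠ 1 := by
    intro h
    have h1 : c ^ H = c ^ 0 := by
      rw [pow_zero, ← hz]
      exact h
    rw [hpe] at h1
    unfold Nat.ModEq at h1
    rw [Nat.mod_eq_of_lt (by omega : H < 2 * H), Nat.zero_mod] at h1
    omega
  have hzU : z ∈ Subgroup.zpowers c := by
    rw [hz]
    exact Subgroup.pow_mem _ (Subgroup.mem_zpowers c) H
  have hmodH : (1 + H) * H ≡ H [MOD 2 * H] := by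
    have e : (1 + H) * H = H + 2 * H * (2 * q) := by
      rw [hq]
      ring
    unfold Nat.ModEq
    rw [e, Nat.add_mul_mod_self_left]
  have hbz : b * z = z * b := by
    have h1 : b * z * b⁻¹ = z := by
      rw [hz, ← conj_pow, hbc, ← pow_mul, hpe]
      exact hmodH
    calc b * z = (b * z * b⁻¹) * b := by group
      _ = z * b := by rw [h1]
  have hZea : Cfsg.IsElementaryAbelian 2 (Subgroup.zpowers z) := by
    refine And.intro ⟨⟨fun a b => ?_⟩⟩ (fun a ha => ?_)
    · obtain ⟨i, hi⟩ := Subgroup.mem_zpowers_iff.mp a.2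
      obtain ⟨j, hj⟩ := Subgroup.mem_zpowers_iff.mp b.2
      apply Subtype.ext
      show (a : G) * (b : G) = (b : G) * (a : G)
      rw [← hi, ← hj, ← zpow_add, ← zpow_add, add_comm]
    · obtain ⟨i, hi⟩ := Subgroup.mem_zpowers_iff.mp ha
      rw [← hi, ← zpow_natCast (z ^ i) 2, ← zpow_mul, mul_comm i ((2 : ℕ) : ℤ), zpow_mul,
        zpow_natCast, hz2, one_zpow]
  have hbcomm : ∀ e ∈ Subgroup.zpowers z, b * e = e * b := by
    intro e he
    obtain ⟨i, hi⟩ := Subgroup.mem_zpowers_iff.mp he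
    rw [← hi]
    exact (Commute.zpow_right (show Commute b z from hbz) i).eq
  have hEea := ea_sup_zpowers_r3 2 (Subgroup.zpowers z) hZea b hbcomm hb2
  have hbZ : b ∉ Subgroup.zpowers z := by
    intro h
    apply hbU
    have hle : Subgroup.zpowers z ≤ Subgroup.zpowers c := by
      rw [Subgroup.zpowers_le]
      exact hzU
    exact hle h
  have hEcard := cnas_four_card z b hZn hz2 hz1 hb2 hbZ
  have hsqU : ∀ w ∈ Subgroup.zpowers c, w ^ 2 = 1 → w ∈ Subgroup.zpowers z := by
    intro w hw hw2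
    rw [← mem_powers_iff_mem_zpowers] at hw
    obtain ⟨j, hj⟩ := (Submonoid.mem_powers_iff _ _).mp hw
    have h1 : c ^ (2 * j) = c ^ (2 * 0) := by
      rw [mul_zero, pow_zero, mul_comm 2 j, pow_mul, hj]
      exact hw2
    rw [hpe] at h1
    have h2 : j ≡ 0 [MOD H] := Nat.ModEq.mul_left_cancel' (by norm_num) h1
    obtain ⟨t, ht⟩ := Nat.modEq_zero_iff_dvd.mp h2
    rw [← hj, ht, pow_mul, ← hz]
    exact Subgroup.pow_mem _ (Subgroup.mem_zpowers z) t
  refine ⟨Subgroup.zpowers z ⊔ Subgroup.zpowers b, hEea, hEcard, fun x => ⟨fun hx => ?_, ?_⟩⟩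
  · refine ⟨?_, hEea.2 x hx⟩
    have hle : Subgroup.zpowers z ⊔ Subgroup.zpowers b ≤ M := by
      apply sup_le
      · rw [Subgroup.zpowers_le]
        exact hUM hzU
      · rw [Subgroup.zpowers_le]
        exact hbM
    exact hle hx
  · rintro ⟨hxM, hx2⟩
    by_cases hxU : x ∈ Subgroup.zpowers c
    · exact (le_sup_left : Subgroup.zpowers z ≤ Subgroup.zpowers z ⊔ Subgroup.zpowers b)
        (hsqU x hxU hx2)
    · obtain ⟨a, haM, hxor⟩ := Subgroup.relIndex_eq_two_iff.mp hrel
      have hxa : x * a ∈ Subgroup.zpowers c := by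
        rcases hxor x hxM with ⟨h, -⟩ | ⟨h, -⟩
        · exact h
        · exact absurd h hxU
      have hba : b * a ∈ Subgroup.zpowers c := by
        rcases hxor b hbM with ⟨h, -⟩ | ⟨h, -⟩
        · exact h
        · exact absurd h hbU
      obtain ⟨w, hw⟩ : ∃ w : G, w = x * b⁻¹ := ⟨_, rfl⟩
      have hwU : w ∈ Subgroup.zpowers c := by
        have e : w = (x * a) * (b * a)⁻¹ := by
          rw [hw]
          group
        rw [e]
        exact (Subgroup.zpowers c).mul_mem hxa ((Subgroup.zpowers c).inv_mem hba)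
      have hwU' := hwU
      rw [← mem_powers_iff_mem_zpowers] at hwU'
      obtain ⟨j, hj⟩ := (Submonoid.mem_powers_iff _ _).mp hwU'
      have hw2H : w ^ (2 * H) = 1 := by
        rw [← hj, ← pow_mul, mul_comm j (2 * H), pow_mul, ← hN, hpow, one_pow]
      have hbw : b * w * b⁻¹ = w ^ (1 + H) := by
        rw [← hj, ← conj_pow, hbc, ← pow_mul c (1 + H) j, mul_comm (1 + H) j, pow_mul c j (1 + H)]
      have h1 : x ^ 2 = w * (b * w * b⁻¹) * b ^ 2 := by
        rw [hw, pow_two, pow_two]
        group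
      rw [hx2, hbw, hb2, mul_one] at h1
      have h2 : w ^ (2 + H) = 1 := by
        have e : 2 + H = (1 + H) + 1 := by omega
        rw [e, pow_succ']
        exact h1.symm
      have h3 : w ^ 4 = 1 := by
        have h5 : (w ^ (2 + H)) ^ 2 = w ^ 4 * w ^ (2 * H) := by
          rw [← pow_mul, ← pow_add]
          congr 1
          ring
        rw [h2, one_pow, hw2H, mul_one] at h5
        exact h5.symm
      have h4 : w ^ H = 1 := by
        rw [hq, pow_mul, h3, one_pow]
      have h5 : w ^ 2 = 1 := by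
        have h6 : w ^ (2 + H) = w ^ 2 * w ^ H := pow_add w 2 H
        rw [h2, h4, mul_one] at h6
        exact h6.symm
      have hxw : x = w * b := by
        rw [hw]
        group
      rw [hxw]
      exact (Subgroup.zpowers z ⊔ Subgroup.zpowers b).mul_mem
        ((le_sup_left : Subgroup.zpowers z ≤ Subgroup.zpowers z ⊔ Subgroup.zpowers b)
          (hsqU w hwU h5))
        ((le_sup_right : Subgroup.zpowers b ≤ Subgroup.zpowers z ⊔ Subgroup.zpowers b)
          (Subgroup.mem_zpowers b))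

/-- A non-abelian `p`-group with a self-centralizing cyclic normal subgroup `⟨c⟩`. -/
theorem selfcent_core {G : Type*} [Group G] [Finite G] {p : ℕ} [Fact p.Prime]
    (hG : IsPGroup p G) (hna : ¬ IsMulCommutative G) (c : G)
    [hUN : (Subgroup.zpowers c).Normal] (n : ℕ) (hord : orderOf c = p ^ n)
    (hC : Subgroup.centralizer ((Subgroup.zpowers c : Subgroup G) : Set G) = Subgroup.zpowers c) :
    (p = 2 ∧ Nat.card G = 2 ^ (n + 1) ∧ ((∃ m : ℕ, Nonempty (G ≃* DihedralGroup m)) ∨
        (∃ m : ℕ, Nonempty (G ≃* QuaternionGroup m)) ∨ Cfsg.IsQuasiDihedral G)) ∨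
    ((Subgroup.zpowers c).relIndex
        (Subgroup.centralizer (Cfsg.powerClosure p 1 (Subgroup.zpowers c) : Set G)) = p ∧
      Cfsg.IsElementaryAbelian p (Cfsg.omegaOne p
        (Subgroup.centralizer (Cfsg.powerClosure p 1 (Subgroup.zpowers c) : Set G))) ∧
      Nat.card ↥(Cfsg.omegaOne p
        (Subgroup.centralizer (Cfsg.powerClosure p 1 (Subgroup.zpowers c) : Set G))) = p ^ 2 ∧
      (Cfsg.omegaOne p (Subgroup.centralizer
        (Cfsg.powerClosure p 1 (Subgroup.zpowers c) : Set G))).Characteristic) := by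
  classical
  have hpp : p.Prime := Fact.out
  have hconj : ∀ g : G, ∃ k : ℕ, g * c * g⁻¹ = c ^ k := by
    intro g
    have h1 : g * c * g⁻¹ ∈ Subgroup.zpowers c := hUN.conj_mem c (Subgroup.mem_zpowers c) g
    rw [← mem_powers_iff_mem_zpowers] at h1
    obtain ⟨r, hr⟩ := (Submonoid.mem_powers_iff _ _).mp h1
    exact ⟨r, hr.symm⟩
  have hself : ∀ g : G, g * c = c * g → g ∈ Subgroup.zpowers c := by
    intro g hg
    rw [← hC, Subgroup.mem_centralizer_iff]
    intro h hh
    have hh' : h ∈ Subgroup.zpowers c := hh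
    obtain ⟨j, hj⟩ := Subgroup.mem_zpowers_iff.mp hh'
    rw [← hj]
    exact ((Commute.zpow_right (show Commute g c from hg) j).eq).symm
  have hn : 2 ≤ n := by
    by_contra hlt
    apply hna
    have hcen : Subgroup.zpowers c ≤ Subgroup.center G := by
      rcases Nat.lt_or_ge n 1 with h0 | h1
      · have hn0 : n = 0 := by omega
        have hord0 := hord
        rw [hn0, pow_zero, orderOf_eq_one_iff] at hord0
        rw [hord0, Subgroup.zpowers_one_eq_bot]
        exact bot_le
      · have hn1 : n = 1 := by omega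
        have hord1 := hord
        rw [hn1, pow_one] at hord1
        exact Helper24.le_center_of_normal_of_card_prime hG (Subgroup.zpowers c)
          (by rw [Nat.card_zpowers, hord1])
    have htop : ∀ g : G, g ∈ Subgroup.zpowers c := by
      intro g
      apply hself
      exact (Subgroup.mem_center_iff.mp (hcen (Subgroup.mem_zpowers c))) g
    refine ⟨⟨fun a b => ?_⟩⟩
    obtain ⟨i, hi⟩ := Subgroup.mem_zpowers_iff.mp (htop a)
    obtain ⟨j, hj⟩ := Subgroup.mem_zpowers_iff.mp (htop b)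
    rw [← hi, ← hj, ← zpow_add, ← zpow_add, add_comm]
  obtain ⟨M, hMdef⟩ : ∃ M : Subgroup G, M = Subgroup.centralizer
      (Cfsg.powerClosure p 1 (Subgroup.zpowers c) : Set G) := ⟨_, rfl⟩
  rw [← hMdef]
  have hM : ∀ g : G, g ∈ M ↔ g * c ^ p = c ^ p * g := by
    intro g
    rw [hMdef]
    unfold Cfsg.powerClosure
    rw [Subgroup.centralizer_closure, Subgroup.mem_centralizer_iff]
    constructor
    · intro h
      exact (h (c ^ p) ⟨c, Subgroup.mem_zpowers c, by rw [pow_one]⟩).symm
    · intro h y hy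
      obtain ⟨x, hx, rfl⟩ := hy
      obtain ⟨j, hj⟩ := Subgroup.mem_zpowers_iff.mp hx
      have e1 : x ^ p ^ 1 = (c ^ p) ^ j := by
        rw [pow_one, ← hj, ← zpow_natCast (c ^ j) p, ← zpow_mul, mul_comm j (p : ℤ), zpow_mul,
          zpow_natCast]
      rw [e1]
      exact ((Commute.zpow_right (show Commute g (c ^ p) from h) j).eq).symm
  have hUM : Subgroup.zpowers c ≤ M := by
    rw [Subgroup.zpowers_le, hM]
    exact (pow_succ' c p).symm.trans (pow_succ c p)
  by_cases hMU : M ≤ Subgroup.zpowers c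
  · -- the centralizer of `c ^ p` is `⟨c⟩`
    left
    have hout : ∀ g : G, g * c ^ p = c ^ p * g → g ∈ Subgroup.zpowers c :=
      fun g hg => hMU ((hM g).mpr hg)
    obtain ⟨g₀, hg₀⟩ : ∃ g₀ : G, g₀ ∉ Subgroup.zpowers c := by
      by_contra hall
      push Not at hall
      apply hna
      refine ⟨⟨fun a b => ?_⟩⟩
      obtain ⟨i, hi⟩ := Subgroup.mem_zpowers_iff.mp (hall a)
      obtain ⟨j, hj⟩ := Subgroup.mem_zpowers_iff.mp (hall b)
      rw [← hi, ← hj, ← zpow_add, ← zpow_add, add_comm]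
    obtain ⟨hp2, hn3, -, k, hk, hkd⟩ := selfcent_outside hG n hn c hord hconj hout g₀ hg₀
    have hidx := selfcent_index_two hG n hn c hord hconj hout g₀ hg₀
    subst hp2
    have hnc : g₀ * c ≠ c * g₀ := fun h => hg₀ (hself g₀ h)
    have hmod : 3 ≤ n → g₀ * c * g₀⁻¹ ≠ c ^ (1 + 2 ^ (n - 1)) := by
      intro _ h
      apply hg₀
      apply hout
      refine (selfcent_mem_iff (by norm_num) (by omega) c hord g₀ _ h).mpr ?_
      unfold Nat.ModEq
      rw [Nat.add_mod_right]
    have hfin := selfcent_two_final n hn c hord hidx g₀ hg₀ hnc hmod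
    exact ⟨rfl, hfin.1, hfin.2⟩
  · -- the centralizer of `c ^ p` is larger than `⟨c⟩`
    obtain ⟨g, hgM, hgU⟩ : ∃ g, g ∈ M ∧ g ∉ Subgroup.zpowers c := by
      by_contra hall
      push Not at hall
      exact hMU (fun g hg => hall g hg)
    obtain ⟨z, hz⟩ : ∃ z : G, z = c ^ (p ^ (n - 1)) := ⟨_, rfl⟩
    have hZn : (Subgroup.zpowers z).Normal := by
      rw [hz]
      exact cnas_zpowers_pow_normal c hconj _
    have hpn : p ^ n = p ^ (n - 1) * p := by
      rw [← pow_succ]
      congr 1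
      omega
    have hzp : z ^ p = 1 := by
      rw [hz, ← pow_mul, ← hpn, ← hord]
      exact pow_orderOf_eq_one c
    have hz1 : z ≠ 1 := by
      intro h
      rw [hz] at h
      have h1 := orderOf_dvd_of_pow_eq_one h
      rw [hord] at h1
      have h2 := Nat.le_of_dvd (pow_pos hpp.pos _) h1
      have h3 : p ^ (n - 1) < p ^ n := Nat.pow_lt_pow_right hpp.one_lt (by omega)
      omega
    have hzord : orderOf z = p := orderOf_eq_prime hzp hz1
    have hZcard : Nat.card (Subgroup.zpowers z) = p := by rw [Nat.card_zpowers, hzord]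
    have hZcen : Subgroup.zpowers z ≤ Subgroup.center G := by
      haveI := hZn
      exact Helper24.le_center_of_normal_of_card_prime hG (Subgroup.zpowers z) hZcard
    have hcomm : ∀ h ∈ M, ⁅h, c⁆ ∈ Subgroup.zpowers z := by
      intro h hh
      obtain ⟨k, hk⟩ := hconj h
      have hk1 : k ≡ 1 [MOD p ^ (n - 1)] :=
        (selfcent_mem_iff hpp.pos (by omega) c hord h k hk).mp ((hM h).mp hh)
      have hkpos : 1 ≤ k := by
        by_contra hk0
        have hk0' : k = 0 := by omega
        rw [hk0', pow_zero] at hk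
        have hc1 : c = 1 := by
          have h5 : c = h⁻¹ * (h * c * h⁻¹) * h := by group
          rw [h5, hk]
          group
        have hord0 := hord
        rw [hc1, orderOf_one] at hord0
        have h6 : 1 < p ^ n := Nat.one_lt_pow (by omega) hpp.one_lt
        omega
      obtain ⟨t, ht⟩ := (Nat.modEq_iff_dvd' hkpos).mp hk1.symm
      have e : ⁅h, c⁆ = z ^ t := by
        have e1 : c ^ k = c ^ (k - 1) * c := by
          rw [← pow_succ]
          congr 1
          omega
        rw [commutatorElement_def, hk, e1, ht, pow_mul, ← hz]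
        group
      rw [e]
      exact Subgroup.pow_mem _ (Subgroup.mem_zpowers z) t
    have hle := card_le_mul_card_inf_centralizer M (Subgroup.zpowers z) c hZcen hcomm
    have hMc : M ⊓ Subgroup.centralizer ({c} : Set G) = Subgroup.zpowers c := by
      apply le_antisymm
      · intro x hx
        apply hself
        have h5 := (Subgroup.mem_centralizer_iff.mp (Subgroup.mem_inf.mp hx).2) c
          (Set.mem_singleton c)
        exact h5.symm
      · apply le_inf hUM
        intro x hx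
        rw [Subgroup.mem_centralizer_iff]
        intro y hy
        rw [Set.mem_singleton_iff.mp hy]
        obtain ⟨j, hj⟩ := Subgroup.mem_zpowers_iff.mp hx
        rw [← hj]
        exact (Commute.zpow_right (Commute.refl c) j).eq
    rw [hMc, hZcard, Nat.card_zpowers c, hord] at hle
    have hrel : (Subgroup.zpowers c).relIndex M = p := by
      have h1 := Subgroup.relIndex_mul_relIndex ⊥ (Subgroup.zpowers c) M bot_le hUM
      rw [Subgroup.relIndex_bot_left, Subgroup.relIndex_bot_left, Nat.card_zpowers, hord] at h1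
      obtain ⟨r, hr⟩ : ∃ r, (Subgroup.zpowers c).relIndex M = r := ⟨_, rfl⟩
      rw [hr] at h1 ⊢
      obtain ⟨a, ha⟩ := IsPGroup.iff_card.mp (hG.to_subgroup M)
      have hrd : r ∣ p ^ a := by
        rw [← ha, ← h1]
        exact Dvd.intro_left _ rfl
      obtain ⟨b, -, hb⟩ := (Nat.dvd_prime_pow hpp).mp hrd
      have hr1 : r ≠ 1 := by
        intro h1'
        rw [← hr] at h1'
        exact hgU ((Subgroup.relIndex_eq_one.mp h1') hgM)
      have hrle : r ≤ p := by
        rw [← h1] at hle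
        have hpos : 0 < p ^ n := pow_pos hpp.pos n
        have h5 : p ^ n * r ≤ p ^ n * p := by
          rw [mul_comm (p ^ n) p]
          exact hle
        exact Nat.le_of_mul_le_mul_left h5 hpos
      subst hb
      have hb1 : b = 1 := by
        rcases Nat.lt_or_ge b 2 with h | h
        · have hb0 : b ≠ 0 := by
            intro h0
            apply hr1
            rw [h0, pow_zero]
          omega
        · exfalso
          have h5 : p ^ 2 ≤ p ^ b := Nat.pow_le_pow_right hpp.pos h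
          have h6 : p < p ^ 2 := by
            have h7 := hpp.one_lt
            nlinarith
          omega
      rw [hb1, pow_one]
    by_cases h22 : p = 2 ∧ n = 2
    · -- order `8`
      left
      obtain ⟨hp2, hn2⟩ := h22
      subst hp2
      subst hn2
      have hz' : z = c ^ 2 := by
        rw [hz]
        norm_num
      have hMtop : M = ⊤ := by
        rw [eq_top_iff]
        intro x _
        rw [hM]
        have hzc : z ∈ Subgroup.center G := hZcen (Subgroup.mem_zpowers z)
        rw [hz'] at hzc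
        exact Subgroup.mem_center_iff.mp hzc x
      rw [hMtop, Subgroup.relIndex_top_right] at hrel
      have hfin := selfcent_two_final 2 (le_refl 2) c hord hrel g hgU
        (fun h => hgU (hself g h)) (fun h3 => absurd h3 (by norm_num))
      exact ⟨rfl, hfin.1, hfin.2⟩
    · right
      refine ⟨hrel, ?_⟩
      have hEx : ∃ E : Subgroup G, Cfsg.IsElementaryAbelian p E ∧ Nat.card E = p ^ 2 ∧
          ∀ x : G, x ∈ E ↔ x ∈ M ∧ x ^ p = 1 := by
        by_cases hp2 : p = 2
        · subst hp2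
          have hn3 : 3 ≤ n := by
            by_contra hlt
            exact h22 ⟨rfl, by omega⟩
          obtain ⟨a, haM, hxor⟩ := Subgroup.relIndex_eq_two_iff.mp hrel
          have hga : g * a ∈ Subgroup.zpowers c := by
            rcases hxor g hgM with ⟨h, -⟩ | ⟨h, -⟩
            · exact h
            · exact absurd h hgU
          have hgia : g⁻¹ * a ∈ Subgroup.zpowers c := by
            rcases hxor g⁻¹ (M.inv_mem hgM) with ⟨h, -⟩ | ⟨h, -⟩
            · exact h
            · exact absurd ((Subgroup.zpowers c).inv_mem_iff.mp h) hgU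
          have hgg : g * g ∈ Subgroup.zpowers c := by
            have e : g * g = (g * a) * (g⁻¹ * a)⁻¹ := by group
            rw [e]
            exact (Subgroup.zpowers c).mul_mem hga ((Subgroup.zpowers c).inv_mem hgia)
          have hN : 2 ^ n = 2 * 2 ^ (n - 1) := by
            rw [← pow_succ']
            congr 1
            omega
          have hgc : g * c * g⁻¹ = c ^ (1 + 2 ^ (n - 1)) := by
            obtain ⟨k, hk⟩ := hconj g
            have hk1 := (selfcent_mem_iff (by norm_num) (by omega) c hord g k hk).mp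
              ((hM g).mp hgM)
            rcases modEq_half_split hk1 with h | h
            · exfalso
              apply hgU
              apply hself
              have h1 : c ^ k = c ^ 1 := by
                rw [pow_eq_pow_iff_modEq, hord, hN]
                exact h
              rw [h1, pow_one] at hk
              calc g * c = (g * c * g⁻¹) * g := by group
                _ = c * g := by rw [hk]
            · rw [hk, pow_eq_pow_iff_modEq, hord, hN]
              exact h
          have hZn' : (Subgroup.zpowers (c ^ (2 ^ (n - 1)))).Normal := by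
            rw [← hz]
            exact hZn
          obtain ⟨E, h1, h2, h3⟩ := selfcent_mod_omega n hn3 c g hord hZn' hgc hgg M
            (hUM (Subgroup.mem_zpowers c)) hgM hrel
          exact ⟨E, h1, h2.trans (by norm_num), h3⟩
        · have hMp : IsPGroup p ↥M := hG.to_subgroup M
          have hcyc : IsCyclic ↥((Subgroup.zpowers c).subgroupOf M) :=
            (Subgroup.subgroupOfEquivOfLe hUM).isCyclic.mpr inferInstance
          have hidx : ((Subgroup.zpowers c).subgroupOf M).index = p := hrel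
          have hnc : ¬ IsCyclic ↥M := by
            intro hcy
            apply hgU
            apply hself
            have hMcm : IsMulCommutative ↥M := by
              haveI := hcy
              infer_instance
            have h1 := hMcm.is_comm.comm (⟨g, hgM⟩ : ↥M) ⟨c, hUM (Subgroup.mem_zpowers c)⟩
            exact congrArg Subtype.val h1
          obtain ⟨K, hK, hKcard⟩ := Helper24.omega_of_cyclic_index_p hp2 hMp hnc _ hcyc hidx
          have hEcard : Nat.card ↥(K.map M.subtype) = p ^ 2 := by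
            rw [Subgroup.card_map_of_injective (Subgroup.subtype_injective M), hKcard]
          have hmem : ∀ x : G, x ∈ K.map M.subtype ↔ x ∈ M ∧ x ^ p = 1 := by
            intro x
            constructor
            · intro hx
              obtain ⟨y, hy, rfl⟩ := Subgroup.mem_map.mp hx
              refine ⟨y.2, ?_⟩
              have h1 := (hK y).mp hy
              have h2 : ((y ^ p : ↥M) : G) = ((1 : ↥M) : G) := congrArg Subtype.val h1
              rw [Subgroup.coe_pow, Subgroup.coe_one] at h2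
              exact h2
            · rintro ⟨hxM, hxp⟩
              refine Subgroup.mem_map.mpr ⟨⟨x, hxM⟩, (hK _).mpr ?_, rfl⟩
              apply Subtype.ext
              rw [Subgroup.coe_pow, Subgroup.coe_one]
              exact hxp
          refine ⟨K.map M.subtype, And.intro ?_ ?_, hEcard, hmem⟩
          · exact IsPGroup.isMulCommutative_of_card_eq_prime_sq hEcard
          · intro a ha
            exact ((hmem a).mp ha).2
      obtain ⟨E, hEea, hEcard, hEmem⟩ := hEx
      have hΩ : Cfsg.omegaOne p M = E := by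
        unfold Cfsg.omegaOne
        apply le_antisymm
        · rw [Subgroup.closure_le]
          intro x hx
          exact (hEmem x).mpr hx
        · intro x hx
          exact Subgroup.subset_closure ((hEmem x).mp hx)
      rw [hΩ]
      refine ⟨hEea, hEcard, ?_⟩
      have hEn : E.Normal := by
        refine ⟨fun x hx g => ?_⟩
        obtain ⟨hxM, hxp⟩ := (hEmem x).mp hx
        refine (hEmem _).mpr ⟨?_, ?_⟩
        · rw [hM] at hxM ⊢
          obtain ⟨k, hk⟩ := hconj g⁻¹
          have h1 : g⁻¹ * c ^ p * g = (c ^ p) ^ k := by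
            have h5 : g⁻¹ * c ^ p * g = (g⁻¹ * c * g⁻¹⁻¹) ^ p := by
              rw [conj_pow, inv_inv]
            rw [h5, hk, ← pow_mul, ← pow_mul, mul_comm k p]
          have h2 : x * (c ^ p) ^ k = (c ^ p) ^ k * x :=
            (Commute.pow_right (show Commute x (c ^ p) from hxM) k).eq
          have h3 : c ^ p = g * (c ^ p) ^ k * g⁻¹ := by
            rw [← h1]
            group
          calc g * x * g⁻¹ * c ^ p = g * x * g⁻¹ * (g * (c ^ p) ^ k * g⁻¹) := by rw [← h3]
            _ = g * (x * (c ^ p) ^ k) * g⁻¹ := by group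
            _ = g * ((c ^ p) ^ k * x) * g⁻¹ := by rw [h2]
            _ = (g * (c ^ p) ^ k * g⁻¹) * (g * x * g⁻¹) := by group
            _ = c ^ p * (g * x * g⁻¹) := by rw [← h3]
        · rw [conj_pow, hxp, mul_one, mul_inv_cancel]
      rw [Subgroup.characteristic_iff_map_le]
      intro φ
      obtain ⟨V, hV⟩ : ∃ V : Subgroup G, V = E.map φ.toMonoidHom := ⟨_, rfl⟩
      rw [← hV]
      have hVn : V.Normal := by
        rw [hV]
        exact hEn.map φ.toMonoidHom φ.surjective
      have hVcard : Nat.card V = p ^ 2 := by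
        rw [hV, Subgroup.card_map_of_injective φ.injective, hEcard]
      have hVexp : ∀ v ∈ V, v ^ p = 1 := by
        intro v hv
        rw [hV] at hv
        obtain ⟨e, he, rfl⟩ := Subgroup.mem_map.mp hv
        have h5 := ((hEmem e).mp he).2
        rw [← map_pow, h5, map_one]
      have hidxV := Helper24.index_centralizer_le_of_normal hG 2 V hVn hVcard
      have hch : Nat.choose 2 2 = 1 := by decide
      rw [hch, pow_one] at hidxV
      have hcpV : c ^ p ∈ Subgroup.centralizer (V : Set G) := by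
        haveI := hVn
        have h1 := (Subgroup.centralizer (V : Set G)).pow_index_mem c
        obtain ⟨N, hN⟩ := IsPGroup.iff_card.mp hG
        have h2 : (Subgroup.centralizer (V : Set G)).index ∣ p ^ N := by
          rw [← hN]
          exact Subgroup.index_dvd_card _
        obtain ⟨b, -, hb⟩ := (Nat.dvd_prime_pow hpp).mp h2
        rw [hb] at h1 hidxV
        have hb1 : b ≤ 1 := by
          by_contra hlt
          have h5 : p ^ 2 ≤ p ^ b := Nat.pow_le_pow_right hpp.pos (by omega)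
          have h6 : p < p ^ 2 := by
            have h7 := hpp.one_lt
            nlinarith
          omega
        interval_cases b
        · rw [pow_zero, pow_one] at h1
          exact Subgroup.pow_mem _ h1 p
        · rw [pow_one] at h1
          exact h1
      intro v hv
      refine (hEmem v).mpr ⟨?_, hVexp v hv⟩
      rw [hM]
      exact (Subgroup.mem_centralizer_iff.mp hcpV) v hv

/-- Statement S3761: a non-abelian `p`-group with a self-centralizing cyclic normal subgroup. -/
theorem selfcent_main {G : Type*} [Group G] [Finite G] {p : ℕ} [Fact p.Prime] (hG : IsPGroup p G)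
    (hna : ¬ IsMulCommutative G) (U : Subgroup G) [U.Normal] (hU : IsCyclic U) (n : ℕ)
    (hUn : Nat.card U = p ^ n) (hC : Subgroup.centralizer (U : Set G) = U) :
    (p = 2 ∧ Nat.card G = 2 ^ (n + 1) ∧ ((∃ m : ℕ, Nonempty (G ≃* DihedralGroup m)) ∨
        (∃ m : ℕ, Nonempty (G ≃* QuaternionGroup m)) ∨ Cfsg.IsQuasiDihedral G)) ∨
    (U.relIndex (Subgroup.centralizer (Cfsg.powerClosure p 1 U : Set G)) = p ∧
      Cfsg.IsElementaryAbelian p (Cfsg.omegaOne p
        (Subgroup.centralizer (Cfsg.powerClosure p 1 U : Set G))) ∧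
      Nat.card ↥(Cfsg.omegaOne p
        (Subgroup.centralizer (Cfsg.powerClosure p 1 U : Set G))) = p ^ 2 ∧
      (Cfsg.omegaOne p
        (Subgroup.centralizer (Cfsg.powerClosure p 1 U : Set G))).Characteristic) := by
  obtain ⟨g0, hg0⟩ := hU.exists_generator
  obtain ⟨c, hc'⟩ : ∃ c : G, c = (g0 : G) := ⟨_, rfl⟩
  have hcU : c ∈ U := hc' ▸ g0.2
  have hUz : ∀ y ∈ U, y ∈ Subgroup.zpowers c := by
    intro y hy
    obtain ⟨k, hk⟩ := Subgroup.mem_zpowers_iff.mp (hg0 ⟨y, hy⟩)
    refine Subgroup.mem_zpowers_iff.mpr ⟨k, ?_⟩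
    have h1 := congrArg Subtype.val hk
    rw [hc']
    simpa using h1
  have hUeq : U = Subgroup.zpowers c :=
    le_antisymm hUz (by rw [Subgroup.zpowers_le]; exact hcU)
  have hord : orderOf c = p ^ n := by rw [← Nat.card_zpowers, ← hUeq, hUn]
  haveI hUN : (Subgroup.zpowers c).Normal := by
    rw [← hUeq]
    infer_instance
  have hC' : Subgroup.centralizer ((Subgroup.zpowers c : Subgroup G) : Set G) =
      Subgroup.zpowers c := by
    rw [← hUeq]
    exact hC
  have key := selfcent_core hG hna c n hord hC'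
  rw [hUeq]
  exact key

end Cfsg.Agent.Helper11
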