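import Mathlib
import Cfsg.Agent.Helper11.ExtraExist
import Cfsg.Agent.Helper11.TwoGroup

set_option autoImplicit false

namespace Cfsg.Agent.Helper11

universe u

/-- A central element `ζ` of order two such that all commutators and all squares lie in
`{1, ζ}`. -/
def SqZ (G : Type u) [Group G] (ζ : G) : Prop :=
  ζ ∈ Subgroup.center G ∧ ζ ≠ 1 ∧ ζ * ζ = 1 ∧
  (∀ a b : G, a * b * a⁻¹ * b⁻¹ = 1 ∨ a * b * a⁻¹ * b⁻¹ = ζ) ∧
  (∀ a : G, a * a = 1 ∨ a * a = ζ)

theorem SqZ.comm_center {G : Type u} [Group G] {ζ : G} (h : SqZ G ζ) (a b : G) :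
    a * b * a⁻¹ * b⁻¹ ∈ Subgroup.center G := by
  rcases h.2.2.2.1 a b with h1 | h1
  · rw [h1]
    exact Subgroup.one_mem _
  · rw [h1]
    exact h.1

theorem sqz_half {G : Type u} [Group G] {ζ : G} (h : SqZ G ζ) (B : Subgroup G) (e : G)
    (hb : ∃ b₀ ∈ B, b₀ * e ≠ e * b₀) :
    Nat.card ↥(B ⊓ Subgroup.centralizer ({e} : Set G)) * 2 = Nat.card ↥B := by
  have hcomm : ∀ a b : G, a * b * a⁻¹ * b⁻¹ ∈ Subgroup.center G := fun a b => h.comm_center a b
  obtain ⟨b₀, hb₀, hne⟩ := hb
  have hc0 : e * b₀ * e⁻¹ * b₀⁻¹ ≠ 1 := fun h1 => hne ((comm_iff_commutator_one e b₀).mpr h1)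
  have hc0' : e * b₀ * e⁻¹ * b₀⁻¹ = ζ := (h.2.2.2.1 e b₀).resolve_left hc0
  have hmemK : ∀ x : G, x ∈ B ⊓ Subgroup.centralizer ({e} : Set G) ↔
      (x ∈ B ∧ e * x * e⁻¹ * x⁻¹ = 1) := by
    intro x
    rw [Subgroup.mem_inf, Subgroup.mem_centralizer_singleton_iff, comm_iff_commutator_one]
  have hrel : (B ⊓ Subgroup.centralizer ({e} : Set G)).relIndex B = 2 := by
    rw [Subgroup.relIndex_eq_two_iff]
    refine ⟨b₀, hb₀, ?_⟩
    intro b hb
    have hmul := bcomm_mul_right hcomm e b b₀
    by_cases hb1 : e * b * e⁻¹ * b⁻¹ = 1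
    · refine Or.inr ⟨(hmemK b).mpr ⟨hb, hb1⟩, ?_⟩
      intro hcon
      have h2 := ((hmemK _).mp hcon).2
      rw [hmul, hb1, one_mul] at h2
      exact hc0 h2
    · refine Or.inl ⟨(hmemK _).mpr ⟨B.mul_mem hb hb₀, ?_⟩,
        fun hcon => hb1 ((hmemK b).mp hcon).2⟩
      have hb1' : e * b * e⁻¹ * b⁻¹ = ζ := (h.2.2.2.1 e b).resolve_left hb1
      rw [hmul, hb1', hc0']
      exact h.2.2.1
  have h1 := Subgroup.relIndex_mul_relIndex (H := (⊥ : Subgroup G))
    (K := B ⊓ Subgroup.centralizer ({e} : Set G)) (L := B) bot_le inf_le_left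
  rw [Subgroup.relIndex_bot_left, Subgroup.relIndex_bot_left, hrel] at h1
  exact h1

theorem sqz_card_cpair {G : Type u} [Group G] [Finite G] {ζ : G} (h : SqZ G ζ) {x y : G}
    (hxy : x * y ≠ y * x) : Nat.card ↥(cpair x y) * 4 = Nat.card G := by
  have h1 := sqz_half h (⊤ : Subgroup G) x ⟨y, Subgroup.mem_top y, fun hh => hxy hh.symm⟩
  rw [top_inf_eq, Subgroup.card_top] at h1
  have h2 := sqz_half h (Subgroup.centralizer ({x} : Set G)) y
    ⟨x, Subgroup.mem_centralizer_singleton_iff.mpr rfl, hxy⟩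
  show Nat.card ↥(Subgroup.centralizer ({x} : Set G) ⊓ Subgroup.centralizer ({y} : Set G)) * 4
    = Nat.card G
  omega

theorem sqz_fix {G : Type u} [Group G] {ζ : G} (h : SqZ G ζ) (a e b : G) (ha : b * a ≠ a * b)
    (he : b * e ≠ e * b) : b * (a⁻¹ * e) = (a⁻¹ * e) * b := by
  rw [comm_iff_commutator_one]
  have ha' : a * b * a⁻¹ * b⁻¹ ≠ 1 := fun hh => ha ((comm_iff_commutator_one a b).mpr hh)
  have he' : e * b * e⁻¹ * b⁻¹ ≠ 1 := fun hh => he ((comm_iff_commutator_one e b).mpr hh)
  have ha2 : a * b * a⁻¹ * b⁻¹ = ζ := (h.2.2.2.1 a b).resolve_left ha'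
  have he2 : e * b * e⁻¹ * b⁻¹ = ζ := (h.2.2.2.1 e b).resolve_left he'
  have hm := bcomm_mul_left (fun a b => h.comm_center a b) a (a⁻¹ * e) b
  rw [mul_inv_cancel_left, he2, ha2] at hm
  exact mul_left_cancel (hm.symm.trans (mul_one _).symm)

theorem sqz_decomp {G : Type u} [Group G] {ζ : G} (h : SqZ G ζ) {x y : G} (hxy : x * y ≠ y * x)
    (e : G) : ∃ c ∈ cpair x y, e = c ∨ e = x * c ∨ e = y * c ∨ e = y * x * c := by
  have hA : ∃ e₁, x * e₁ = e₁ * x ∧ (e = e₁ ∨ e = y * e₁) := by
    by_cases hx : x * e = e * x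
    · exact ⟨e, hx, Or.inl rfl⟩
    · exact ⟨y⁻¹ * e, sqz_fix h y e x hxy hx, Or.inr (mul_inv_cancel_left y e).symm⟩
  obtain ⟨e₁, hx1, he1⟩ := hA
  have hB : ∃ c, c ∈ cpair x y ∧ (e₁ = c ∨ e₁ = x * c) := by
    by_cases hy : y * e₁ = e₁ * y
    · exact ⟨e₁, mem_cpair.mpr ⟨hx1.symm, hy.symm⟩, Or.inl rfl⟩
    · refine ⟨x⁻¹ * e₁, mem_cpair.mpr ⟨?_,
        (sqz_fix h x e₁ y (fun hh => hxy hh.symm) hy).symm⟩,
        Or.inr (mul_inv_cancel_left x e₁).symm⟩
      rw [mul_assoc, ← hx1]
      group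
  obtain ⟨c, hc, hec⟩ := hB
  refine ⟨c, hc, ?_⟩
  rcases he1 with he1 | he1 <;> rcases hec with hec | hec
  · exact Or.inl (he1.trans hec)
  · exact Or.inr (Or.inl (he1.trans hec))
  · exact Or.inr (Or.inr (Or.inl (by rw [he1, hec])))
  · exact Or.inr (Or.inr (Or.inr (by rw [he1, hec, mul_assoc])))

theorem sqz_center_cpair {G : Type u} [Group G] {ζ : G} (h : SqZ G ζ) {x y : G}
    (hxy : x * y ≠ y * x) (w : ↥(cpair x y)) :
    w ∈ Subgroup.center ↥(cpair x y) ↔ (w : G) ∈ Subgroup.center G := by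
  constructor
  · intro hw
    rw [Subgroup.mem_center_iff]
    intro e
    rw [← Subgroup.mem_centralizer_singleton_iff]
    have hxw : x ∈ Subgroup.centralizer ({(w : G)} : Set G) :=
      Subgroup.mem_centralizer_singleton_iff.mpr (mem_cpair.mp w.2).1.symm
    have hyw : y ∈ Subgroup.centralizer ({(w : G)} : Set G) :=
      Subgroup.mem_centralizer_singleton_iff.mpr (mem_cpair.mp w.2).2.symm
    have hcw : ∀ c ∈ cpair x y, c ∈ Subgroup.centralizer ({(w : G)} : Set G) := by
      intro c hc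
      rw [Subgroup.mem_centralizer_singleton_iff]
      have h1 := Subgroup.mem_center_iff.mp hw ⟨c, hc⟩
      exact congrArg Subtype.val h1
    obtain ⟨c, hc, hec⟩ := sqz_decomp h hxy e
    rcases hec with hec | hec | hec | hec
    · rw [hec]
      exact hcw c hc
    · rw [hec]
      exact Subgroup.mul_mem _ hxw (hcw c hc)
    · rw [hec]
      exact Subgroup.mul_mem _ hyw (hcw c hc)
    · rw [hec]
      exact Subgroup.mul_mem _ (Subgroup.mul_mem _ hyw hxw) (hcw c hc)
  · intro hw
    rw [Subgroup.mem_center_iff]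
    intro g
    apply Subtype.ext
    exact Subgroup.mem_center_iff.mp hw (g : G)

theorem sqz_cpair {G : Type u} [Group G] {ζ : G} (h : SqZ G ζ) {x y : G} (hxy : x * y ≠ y * x)
    (hζC : ζ ∈ cpair x y) : SqZ ↥(cpair x y) ⟨ζ, hζC⟩ := by
  refine ⟨(sqz_center_cpair h hxy ⟨ζ, hζC⟩).mpr h.1, ?_, Subtype.ext h.2.2.1, ?_, ?_⟩
  · intro hh
    exact h.2.1 (congrArg Subtype.val hh)
  · intro a b
    rcases h.2.2.2.1 (a : G) (b : G) with h1 | h1
    · exact Or.inl (Subtype.ext h1)
    · exact Or.inr (Subtype.ext h1)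
  · intro a
    rcases h.2.2.2.2 (a : G) with h1 | h1
    · exact Or.inl (Subtype.ext h1)
    · exact Or.inr (Subtype.ext h1)

theorem sqz_card_center {G : Type u} [Group G] {ζ : G} (h : SqZ G ζ) {x y : G}
    (hxy : x * y ≠ y * x) :
    Nat.card (Subgroup.center ↥(cpair x y)) = Nat.card (Subgroup.center G) := by
  have hZC : ∀ g ∈ Subgroup.center G, g ∈ cpair x y := fun g hg => mem_cpair.mpr
    ⟨(Subgroup.mem_center_iff.mp hg x).symm, (Subgroup.mem_center_iff.mp hg y).symm⟩
  apply Nat.card_congr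
  exact
    { toFun := fun w => ⟨((w : ↥(cpair x y)) : G), (sqz_center_cpair h hxy w.1).mp w.2⟩
      invFun := fun g => ⟨⟨g.1, hZC g.1 g.2⟩,
        (sqz_center_cpair h hxy ⟨g.1, hZC g.1 g.2⟩).mpr g.2⟩
      left_inv := fun w => rfl
      right_inv := fun g => rfl }

theorem count_cpair_gen {E : Type u} [Group E] [Finite E] {x y z : E}
    (hdec : ∀ e : E, ∃ c ∈ cpair x y, e = c ∨ e = x * c ∨ e = y * c ∨ e = y * x * c)
    (hcard4 : Nat.card ↥(cpair x y) * 4 = Nat.card E)
    (hx : x * x = 1) (hy : y * y = 1) (hyx : (y * x) * (y * x) = z) (hz1 : z ≠ 1)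
    (hzz : z * z = 1) (hsq : ∀ e : E, e * e = 1 ∨ e * e = z) :
    Nat.card {e : E // e * e = 1}
      = 2 * Nat.card {c : ↥(cpair x y) // c * c = 1} + Nat.card ↥(cpair x y) := by
  classical
  let _ : Fintype E := Fintype.ofFinite E
  let _ : Fintype ↥(cpair x y) := Fintype.ofFinite _
  obtain ⟨F, hF0, hF1, hF2, hF3⟩ : ∃ F : ↥(cpair x y) × Fin 4 → E,
      (∀ c, F (c, 0) = c) ∧ (∀ c, F (c, 1) = x * c) ∧ (∀ c, F (c, 2) = y * c) ∧
        (∀ c, F (c, 3) = y * x * c) :=
    ⟨fun p => (![1, x, y, y * x] : Fin 4 → E) p.2 * (p.1 : E),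
      fun c => by simp, fun c => by simp, fun c => by simp, fun c => by simp⟩
  have hsurj : Function.Surjective F := by
    intro e
    obtain ⟨c, hc, hec⟩ := hdec e
    rcases hec with hec | hec | hec | hec
    · exact ⟨(⟨c, hc⟩, 0), (hF0 _).trans hec.symm⟩
    · exact ⟨(⟨c, hc⟩, 1), (hF1 _).trans hec.symm⟩
    · exact ⟨(⟨c, hc⟩, 2), (hF2 _).trans hec.symm⟩
    · exact ⟨(⟨c, hc⟩, 3), (hF3 _).trans hec.symm⟩
  have hcard : Nat.card (↥(cpair x y) × Fin 4) = Nat.card E := by
    rw [Nat.card_prod, Nat.card_fin]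
    exact hcard4
  have hbij : Function.Bijective F :=
    (Nat.bijective_iff_surjective_and_card F).mpr ⟨hsurj, hcard⟩
  have hN : Nat.card {e : E // e * e = 1} = ∑ e : E, (if e * e = 1 then 1 else 0) := by
    rw [card_subtype_eq_filter (fun e : E => e * e = 1) (fun e : E => e * e = 1)
      (fun _ => Iff.rfl), Finset.card_filter]
  have hNC : Nat.card {c : ↥(cpair x y) // c * c = 1}
      = ∑ c : ↥(cpair x y), (if (c : E) * (c : E) = 1 then 1 else 0) := by
    rw [card_subtype_eq_filter (fun c : ↥(cpair x y) => c * c = 1)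
      (fun c : ↥(cpair x y) => (c : E) * (c : E) = 1)
      (fun c => ⟨fun hh => congrArg Subtype.val hh, fun hh => Subtype.ext hh⟩),
      Finset.card_filter]
  have hsum1 : ∑ e : E, (if e * e = 1 then 1 else 0)
      = ∑ p : ↥(cpair x y) × Fin 4, (if F p * F p = 1 then 1 else 0) :=
    (Equiv.sum_comp (Equiv.ofBijective F hbij) (fun e : E => if e * e = 1 then 1 else 0)).symm
  have key : ∀ a b : ℕ, (a = 1 ∧ b = 0) ∨ (a = 0 ∧ b = 1) → a + a + a + b = 2 * a + 1 := by
    intro a b hab
    omega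
  have hsum2 : ∑ p : ↥(cpair x y) × Fin 4, (if F p * F p = 1 then 1 else 0)
      = ∑ c : ↥(cpair x y), (2 * (if (c : E) * (c : E) = 1 then 1 else 0) + 1) := by
    rw [Fintype.sum_prod_type]
    apply Finset.sum_congr rfl
    intro c _
    rw [Fin.sum_univ_four]
    have hcx : (c : E) * x = x * c := (mem_cpair.mp c.2).1
    have hcy : (c : E) * y = y * c := (mem_cpair.mp c.2).2
    have e0 : F (c, 0) * F (c, 0) = (c : E) * c := by rw [hF0]
    have e1 : F (c, 1) * F (c, 1) = (c : E) * c := by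
      rw [hF1]
      calc x * (c : E) * (x * (c : E)) = x * ((c : E) * x) * (c : E) := by group
        _ = x * (x * (c : E)) * (c : E) := by rw [hcx]
        _ = (x * x) * ((c : E) * (c : E)) := by group
        _ = (c : E) * c := by rw [hx, one_mul]
    have e2 : F (c, 2) * F (c, 2) = (c : E) * c := by
      rw [hF2]
      calc y * (c : E) * (y * (c : E)) = y * ((c : E) * y) * (c : E) := by group
        _ = y * (y * (c : E)) * (c : E) := by rw [hcy]
        _ = (y * y) * ((c : E) * (c : E)) := by group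
        _ = (c : E) * c := by rw [hy, one_mul]
    have e3 : F (c, 3) * F (c, 3) = z * ((c : E) * c) := by
      rw [hF3]
      have hcyx : (c : E) * (y * x) = (y * x) * c := by
        rw [← mul_assoc, hcy, mul_assoc, hcx, ← mul_assoc]
      calc y * x * (c : E) * (y * x * (c : E))
          = (y * x) * ((c : E) * (y * x)) * (c : E) := by group
        _ = (y * x) * ((y * x) * (c : E)) * (c : E) := by rw [hcyx]
        _ = ((y * x) * (y * x)) * ((c : E) * (c : E)) := by group
        _ = z * ((c : E) * c) := by rw [hyx]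
    rw [e0, e1, e2, e3]
    refine key _ _ ?_
    rcases hsq (c : E) with hcc | hcc
    · left
      exact ⟨if_pos hcc, if_neg (by rw [hcc, mul_one]; exact hz1)⟩
    · right
      exact ⟨if_neg (by rw [hcc]; exact hz1), if_pos (by rw [hcc]; exact hzz)⟩
  have hs3 : ∑ c : ↥(cpair x y), (2 * (if (c : E) * (c : E) = 1 then 1 else 0) + 1)
      = 2 * ∑ c : ↥(cpair x y), (if (c : E) * (c : E) = 1 then 1 else 0)
        + Nat.card ↥(cpair x y) := by
    rw [Finset.sum_add_distrib, ← Finset.mul_sum, Finset.sum_const, Finset.card_univ,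
      smul_eq_mul, mul_one, Nat.card_eq_fintype_card]
  rw [hN, hsum1, hsum2, hs3, hNC]


theorem sq_mul_key {G : Type u} [Group G]
    (hcomm : ∀ a b : G, a * b * a⁻¹ * b⁻¹ ∈ Subgroup.center G) (x a : G) (ha : a * a = 1) :
    (x * a) * (x * a) = (a * x * a⁻¹ * x⁻¹) * (x * x) := by
  have hcc := Subgroup.mem_center_iff.mp (hcomm a x)
  calc (x * a) * (x * a) = x * (a * x * a⁻¹ * x⁻¹) * x * (a * a) := by group
    _ = (a * x * a⁻¹ * x⁻¹) * x * x * (a * a) := by rw [hcc x]
    _ = (a * x * a⁻¹ * x⁻¹) * (x * x) * (a * a) := by group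
    _ = (a * x * a⁻¹ * x⁻¹) * (x * x) := by rw [ha, mul_one]

theorem sqz_count {G : Type u} [Group G] [Finite G] {ζ : G} (h : SqZ G ζ) {x y : G}
    (hxy : x * y ≠ y * x) (hx : x * x = 1) (hy : y * y = 1) :
    Nat.card {e : G // e * e = 1}
      = 2 * Nat.card {c : ↥(cpair x y) // c * c = 1} + Nat.card ↥(cpair x y) := by
  have hne : (y * x) * (y * x) ≠ 1 := by
    intro hh
    apply hxy
    calc x * y = x * y * ((y * x) * (y * x)) := by rw [hh, mul_one]
      _ = x * (y * y) * x * (y * x) := by group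
      _ = (x * x) * (y * x) := by rw [hy, mul_one]
      _ = y * x := by rw [hx, one_mul]
  have hyx : (y * x) * (y * x) = ζ := (h.2.2.2.2 (y * x)).resolve_left hne
  exact count_cpair_gen (sqz_decomp h hxy) (sqz_card_cpair h hxy) hx hy hyx h.2.1 h.2.2.1
    h.2.2.2.2

theorem sqz_kind {G : Type u} [Group G] {ζ : G} (h : SqZ G ζ)
    (hnc : ∃ a b : G, a * b ≠ b * a) :
    ∃ x y : G, x * y ≠ y * x ∧
      ((x * x = 1 ∧ y * y = 1) ∨ ∀ e : G, e * e = 1 → e ∈ Subgroup.center G) := by
  by_cases hall : ∀ e : G, e * e = 1 → e ∈ Subgroup.center G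
  · obtain ⟨a, b, hab⟩ := hnc
    exact ⟨a, b, hab, Or.inr hall⟩
  · push Not at hall
    obtain ⟨x, hxx, hxc⟩ := hall
    have hex : ∃ y₀ : G, y₀ * x ≠ x * y₀ := by
      by_contra hcon
      push Not at hcon
      exact hxc (Subgroup.mem_center_iff.mpr hcon)
    obtain ⟨y₀, hy₀⟩ := hex
    by_cases hy : y₀ * y₀ = 1
    · exact ⟨x, y₀, fun hh => hy₀ hh.symm, Or.inl ⟨hxx, hy⟩⟩
    · have hc : x * y₀ * x⁻¹ * y₀⁻¹ = ζ := by
        refine (h.2.2.2.1 x y₀).resolve_left ?_
        intro hh
        exact hy₀ ((comm_iff_commutator_one x y₀).mpr hh)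
      have hyy : y₀ * y₀ = ζ := (h.2.2.2.2 y₀).resolve_left hy
      have hinv : (y₀ * x) * (y₀ * x) = 1 := by
        rw [sq_mul_key (fun a b => h.comm_center a b) y₀ x hxx, hc, hyy]
        exact h.2.2.1
      refine ⟨x, y₀ * x, ?_, Or.inl ⟨hxx, hinv⟩⟩
      intro hh
      apply hy₀
      have h2 : x * y₀ * x = y₀ * x * x := (mul_assoc x y₀ x).trans hh
      exact (mul_right_cancel h2).symm

theorem sqz_abelian_count {G : Type u} [Group G] [Finite G] {ζ : G} (h : SqZ G ζ)
    (hab : ∀ a b : G, a * b = b * a) (a₀ : G) (ha₀ : a₀ * a₀ ≠ 1) :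
    2 * Nat.card {x : G // x * x = 1} = Nat.card G := by
  classical
  have ha₀' : a₀ * a₀ = ζ := (h.2.2.2.2 a₀).resolve_left ha₀
  have hkey : ∀ x : G, (a₀ * x) * (a₀ * x) = ζ * (x * x) := by
    intro x
    calc (a₀ * x) * (a₀ * x) = a₀ * (x * a₀) * x := by group
      _ = a₀ * (a₀ * x) * x := by rw [hab x a₀]
      _ = (a₀ * a₀) * (x * x) := by group
      _ = ζ * (x * x) := by rw [ha₀']
  have e1 : Nat.card {x : G // x * x = 1} = Nat.card {x : G // ¬ (x * x = 1)} := by
    apply Nat.card_congr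
    apply (Equiv.mulLeft a₀).subtypeEquiv
    intro x
    show x * x = 1 ↔ ¬ ((a₀ * x) * (a₀ * x) = 1)
    rw [hkey]
    constructor
    · intro hx
      rw [hx, mul_one]
      exact h.2.1
    · intro hx
      rcases h.2.2.2.2 x with h1 | h1
      · exact h1
      · exfalso
        apply hx
        rw [h1]
        exact h.2.2.1
  have e2 : Nat.card {x : G // x * x = 1} + Nat.card {x : G // ¬ (x * x = 1)}
      = Nat.card G := by
    rw [← Nat.card_sum]
    exact Nat.card_congr (Equiv.sumCompl (fun x : G => x * x = 1))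
  omega

/-- The trichotomy for groups in the class `SqZ`. -/
theorem sqz_main : ∀ (n : ℕ) (G : Type u) [Group G] [Finite G] (ζ : G) (d : ℕ), SqZ G ζ →
    Nat.card G = 2 ^ (d + 1) → Nat.card G ≤ n →
    ((∀ a b : G, a * b = b * a) ∧ (∀ a : G, a * a = 1)) ∨
    Nat.card {x : G // x * x = 1} = 2 ^ d ∨
    ∃ r : ℕ, 1 ≤ r ∧ 2 * r ≤ d ∧
      (Nat.card {x : G // x * x = 1} = 2 ^ d + 2 ^ (d - r) ∨
        Nat.card {x : G // x * x = 1} + 2 ^ (d - r) = 2 ^ d) ∧
      Nat.card (Subgroup.center G) = 2 ^ (d - 2 * r + 1) := by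
  intro n
  induction n with
  | zero =>
    intro G _ _ ζ d h hc hn
    exfalso
    have hpos := Nat.card_pos (α := G)
    omega
  | succ n ih =>
    intro G _ _ ζ d h hc hn
    by_cases hab : ∀ a b : G, a * b = b * a
    · by_cases hsq : ∀ a : G, a * a = 1
      · exact Or.inl ⟨hab, hsq⟩
      · push Not at hsq
        obtain ⟨a₀, ha₀⟩ := hsq
        have h2 := sqz_abelian_count h hab a₀ ha₀
        right
        left
        have p : (2:ℕ) ^ (d + 1) = 2 * 2 ^ d := by ring
        omega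
    · push Not at hab
      obtain ⟨x, y, hxy, hkind⟩ := sqz_kind h hab
      have hZC : ∀ g ∈ Subgroup.center G, g ∈ cpair x y := fun g hg => mem_cpair.mpr
        ⟨(Subgroup.mem_center_iff.mp hg x).symm, (Subgroup.mem_center_iff.mp hg y).symm⟩
      have hζC : ζ ∈ cpair x y := hZC ζ h.1
      have hC := sqz_cpair h hxy hζC
      have hc4 := sqz_card_cpair h hxy
      have hC2 : 1 < Nat.card ↥(cpair x y) :=
        Finite.one_lt_card_iff_nontrivial.mpr
          ⟨⟨⟨ζ, hζC⟩, 1, fun hh => h.2.1 (congrArg Subtype.val hh)⟩⟩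
      have hd2 : 2 ≤ d := by
        by_contra hcon
        have h1 : (2:ℕ) ^ (d + 1) ≤ 2 ^ (1 + 1) :=
          Nat.pow_le_pow_right (by norm_num) (by omega)
        have h4 : (2:ℕ) ^ (1 + 1) = 4 := by norm_num
        omega
      obtain ⟨d', rfl⟩ : ∃ d', d = d' + 2 := ⟨d - 2, by omega⟩
      have p0 : (2:ℕ) ^ (d' + 2 + 1) = 4 * 2 ^ (d' + 1) := by ring
      have p1 : (2:ℕ) ^ (d' + 2) = 2 * 2 ^ (d' + 1) := by ring
      have p3 : (2:ℕ) ^ (d' + 1) = 2 * 2 ^ d' := by ring
      have hcC : Nat.card ↥(cpair x y) = 2 ^ (d' + 1) := by omega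
      have hCn : Nat.card ↥(cpair x y) ≤ n := by omega
      have hZ := sqz_card_center h hxy
      rcases hkind with ⟨hx, hy⟩ | hno
      · have e1 := sqz_count h hxy hx hy
        rcases ih ↥(cpair x y) ⟨ζ, hζC⟩ d' hC hcC hCn with
          ⟨hCab, hCsq⟩ | hB | ⟨r, hr1, hr2, hN, hZc⟩
        · have hNC : Nat.card {c : ↥(cpair x y) // c * c = 1} = Nat.card ↥(cpair x y) :=
            Nat.card_congr (Equiv.subtypeUnivEquiv hCsq)
          have hZtop : Nat.card (Subgroup.center ↥(cpair x y)) = Nat.card ↥(cpair x y) := by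
            have htop : Subgroup.center ↥(cpair x y) = ⊤ := by
              rw [Subgroup.eq_top_iff']
              intro a
              rw [Subgroup.mem_center_iff]
              intro g
              exact hCab g a
            rw [htop, Subgroup.card_top]
          right
          right
          have q1 : d' + 2 - 1 = d' + 1 := by omega
          have q2 : d' + 2 - 2 * 1 + 1 = d' + 1 := by omega
          refine ⟨1, le_refl 1, by omega, Or.inl ?_, ?_⟩
          · rw [q1]
            omega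
          · rw [q2]
            omega
        · right
          left
          omega
        · right
          right
          have q1 : d' + 2 - (r + 1) = (d' - r) + 1 := by omega
          have q2 : d' + 2 - 2 * (r + 1) + 1 = d' - 2 * r + 1 := by omega
          have p2 : (2:ℕ) ^ (d' - r + 1) = 2 * 2 ^ (d' - r) := by ring
          refine ⟨r + 1, by omega, by omega, ?_, ?_⟩
          · rw [q1]
            rcases hN with hN | hN
            · left
              omega
            · right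
              omega
          · rw [q2]
            omega
      · have hxx : x * x = ζ := by
          refine (h.2.2.2.2 x).resolve_left ?_
          intro h1
          exact hxy ((Subgroup.mem_center_iff.mp (hno x h1) y).symm)
        have hCsq : ∀ c ∈ cpair x y, c * c = 1 := by
          intro c hc
          obtain ⟨hcx, hcy⟩ := mem_cpair.mp hc
          rcases h.2.2.2.2 c with h1 | h1
          · exact h1
          · exfalso
            have h2 : (x * c) * (x * c) = 1 := by
              calc (x * c) * (x * c) = x * (c * x) * c := by group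
                _ = x * (x * c) * c := by rw [hcx]
                _ = (x * x) * (c * c) := by group
                _ = 1 := by rw [hxx, h1, h.2.2.1]
            have h3 := Subgroup.mem_center_iff.mp (hno _ h2) y
            apply hxy
            have h4 : x * y * c = y * x * c := by
              calc x * y * c = x * (y * c) := mul_assoc _ _ _
                _ = x * (c * y) := by rw [hcy]
                _ = x * c * y := (mul_assoc _ _ _).symm
                _ = y * (x * c) := h3.symm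
                _ = y * x * c := (mul_assoc _ _ _).symm
            exact mul_right_cancel h4
        have hNG : Nat.card {e : G // e * e = 1} = Nat.card ↥(cpair x y) :=
          Nat.card_congr (Equiv.subtypeEquivRight (p := fun e : G => e * e = 1)
            (q := fun e : G => e ∈ cpair x y)
            (fun e => ⟨fun he => hZC e (hno e he), fun he => hCsq e he⟩))
        have hZG : Nat.card (Subgroup.center G) = Nat.card ↥(cpair x y) := by
          have heq : Subgroup.center G = cpair x y :=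
            le_antisymm hZC (fun c hc => hno c (hCsq c hc))
          rw [heq]
        right
        right
        have q1 : d' + 2 - 1 = d' + 1 := by omega
        have q2 : d' + 2 - 2 * 1 + 1 = d' + 1 := by omega
        refine ⟨1, le_refl 1, by omega, Or.inr ?_, ?_⟩
        · rw [q1]
          omega
        · rw [q2]
          omega

theorem frattini_two_sqz {G : Type u} [Group G] [Finite G] (hG : IsPGroup 2 G)
    (hΦ : Nat.card (frattini G) = 2) : ∃ ζ : G, SqZ G ζ := by
  haveI : Fact (Nat.Prime 2) := ⟨Nat.prime_two⟩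
  obtain ⟨y, hy1, hy⟩ := (Nat.card_eq_two_iff' (1 : ↥(frattini G))).mp hΦ
  have hall : ∀ w ∈ frattini G, w = 1 ∨ w = y.1 := by
    intro w hw
    by_cases hw1 : w = 1
    · exact Or.inl hw1
    · right
      have h2 := hy ⟨w, hw⟩ (fun hh => hw1 (congrArg Subtype.val hh))
      exact congrArg Subtype.val h2
  have hζ1 : (y : G) ≠ 1 := fun h1 => hy1 (Subtype.ext h1)
  have hnorm : (frattini G).Normal := inferInstance
  refine ⟨y.1, ?_, hζ1, ?_, ?_, ?_⟩
  · rw [Subgroup.mem_center_iff]
    intro g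
    have hconj : g * y.1 * g⁻¹ ∈ frattini G := hnorm.conj_mem y.1 y.2 g
    rcases hall _ hconj with h1 | h1
    · exfalso
      apply hζ1
      have e : (y : G) = g⁻¹ * (g * y.1 * g⁻¹) * g := by group
      rw [h1, mul_one, inv_mul_cancel] at e
      exact e
    · calc g * y.1 = (g * y.1 * g⁻¹) * g := by group
        _ = y.1 * g := by rw [h1]
  · rcases hall _ ((frattini G).mul_mem y.2 y.2) with h1 | h1
    · exact h1
    · exfalso
      apply hζ1
      exact mul_left_cancel (h1.trans (mul_one _).symm)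
  · intro a b
    apply hall
    apply Cfsg.Agent.Lead.commutator_le_frattini hG
    rw [← commutatorElement_def]
    exact Subgroup.commutator_mem_commutator (Subgroup.mem_top a) (Subgroup.mem_top b)
  · intro a
    apply hall
    have h1 := Cfsg.Agent.Lead.pow_mem_frattini hG a
    rw [pow_two] at h1
    exact h1

/-- A finite `2`-group whose Frattini subgroup has order two: the number of solutions of
`x ^ 2 = 1`, and a criterion for being extraspecial. -/
theorem frattini_two_result {G : Type u} [Group G] [Finite G] (hG : IsPGroup 2 G)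
    (hΦ : Nat.card (frattini G) = 2) (d : ℕ) (hd : (frattini G).index = 2 ^ d) :
    (Nat.card {x : G // x ^ 2 = 1} = 2 ^ d ∨ ∃ r : ℕ, 1 ≤ r ∧ 2 * r ≤ d ∧
      (Nat.card {x : G // x ^ 2 = 1} = 2 ^ d + 2 ^ (d - r) ∨
        Nat.card {x : G // x ^ 2 = 1} + 2 ^ (d - r) = 2 ^ d)) ∧
    (∀ r : ℕ, d = 2 * r → (Nat.card {x : G // x ^ 2 = 1} = 2 ^ d + 2 ^ r ∨
      Nat.card {x : G // x ^ 2 = 1} + 2 ^ r = 2 ^ d) → Cfsg.IsExtraspecial 2 G) := by
  rw [card_sq_eq G]
  obtain ⟨ζ, h⟩ := frattini_two_sqz hG hΦ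
  have hcard : Nat.card G = 2 ^ (d + 1) := by
    have h1 := Subgroup.card_mul_index (frattini G)
    rw [hΦ, hd] at h1
    rw [← h1]
    ring
  have hmain := sqz_main (Nat.card G) G ζ d h hcard le_rfl
  have hnotA : ¬ ((∀ a b : G, a * b = b * a) ∧ (∀ a : G, a * a = 1)) := by
    rintro ⟨-, hsq⟩
    have hbot : frattini G = ⊥ :=
      frattini_eq_bot_of_sq_eq_one (fun r => by rw [pow_two]; exact hsq r)
    rw [hbot, Subgroup.card_bot] at hΦ
    omega
  have hpos : ∀ k : ℕ, 0 < 2 ^ k := fun k => by positivity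
  rcases hmain with hA | hB | ⟨r', hr1, hr2, hN, hZc⟩
  · exact absurd hA hnotA
  · refine ⟨Or.inl hB, ?_⟩
    intro r _ hNr
    exfalso
    have hpr := hpos r
    omega
  · refine ⟨Or.inr ⟨r', hr1, hr2, hN⟩, ?_⟩
    intro r hdr hNr
    have hpr := hpos r
    have hpr' := hpos (d - r')
    have hpow : (2:ℕ) ^ (d - r') = 2 ^ r := by
      rcases hN with hN | hN <;> rcases hNr with hNr | hNr <;> omega
    have hexp : d - r' = r := Nat.pow_right_injective (le_refl 2) hpow
    have hZ2 : Nat.card (Subgroup.center G) = 2 := by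
      have q : d - 2 * r' + 1 = 1 := by omega
      rw [q] at hZc
      exact hZc.trans (by norm_num)
    have hCT : CentTwo G := ⟨fun a b => h.comm_center a b, hZ2⟩
    apply centTwo_extraspecial hCT
    by_contra hcon
    push Not at hcon
    have h2 := centTwo_card_of_comm hCT hcon
    have h8 : (2:ℕ) ^ 3 ≤ 2 ^ (d + 1) := Nat.pow_le_pow_right (by norm_num) (by omega)
    have h83 : (2:ℕ) ^ 3 = 8 := by norm_num
    omega

end Cfsg.Agent.Helper11
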