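import Mathlib
import Cfsg.Prelude

set_option autoImplicit false
set_option linter.unnecessarySeqFocus false

namespace Cfsg.Agent.Helper11

open Cfsg

/-- parameter space of the ternary Golay code -/
abbrev TGP : Type := ZMod 3 × ZMod 3 × ZMod 3 × ZMod 3 × ZMod 3 × ZMod 3

/-- systematic encoder of the ternary Golay code -/
def tgEnc (c : TGP) : ArrayPt → ZMod 3 := fun p =>
  ![![c.1, c.2.1, c.2.2.1],
    ![c.2.2.2.1, c.2.2.2.2.1, c.1 + c.2.1 + c.2.2.1 + 2 * c.2.2.2.1 + 2 * c.2.2.2.2.1],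
    ![c.2.2.2.2.2, 2 * c.2.1 + c.2.2.1 + 2 * c.2.2.2.1 + c.2.2.2.2.1 + c.2.2.2.2.2, c.1 + 2 * c.2.1 + c.2.2.2.1 + 2 * c.2.2.2.2.1 + c.2.2.2.2.2],
    ![c.1 + 2 * c.2.1 + 2 * c.2.2.1 + 2 * c.2.2.2.1 + 2 * c.2.2.2.2.2, c.1 + c.2.2.1 + c.2.2.2.1 + c.2.2.2.2.1 + 2 * c.2.2.2.2.2, 2 * c.1 + 2 * c.2.1 + c.2.2.1 + 2 * c.2.2.2.2.1 + 2 * c.2.2.2.2.2]] p.1 p.2

theorem tg_sum3 (f : ZMod 3 → ZMod 3) : ∑ r : ZMod 3, f r = f 0 + f 1 + f 2 :=
  Fin.sum_univ_three f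

theorem tg_forall {Q : ArrayPt → Prop} (h00 : Q (0, 0)) (h01 : Q (0, 1)) (h02 : Q (0, 2))
    (h10 : Q (1, 0)) (h11 : Q (1, 1)) (h12 : Q (1, 2)) (h20 : Q (2, 0)) (h21 : Q (2, 1))
    (h22 : Q (2, 2)) (h30 : Q (3, 0)) (h31 : Q (3, 1)) (h32 : Q (3, 2)) : ∀ p, Q p := by
  rintro ⟨i, r⟩
  have hr : ∀ r : ZMod 3, r = 0 ∨ r = 1 ∨ r = 2 := by decide
  have hi : ∀ i : Fin 4, i = 0 ∨ i = 1 ∨ i = 2 ∨ i = 3 := by decide
  rcases hi i with rfl | rfl | rfl | rfl <;> rcases hr r with rfl | rfl | rfl <;> assumption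

theorem tg_sum12 (f : ArrayPt → ZMod 3) : ∑ p, f p = f (0, 0) + f (0, 1) + f (0, 2) + f (1, 0)
    + f (1, 1) + f (1, 2) + f (2, 0) + f (2, 1) + f (2, 2) + f (3, 0) + f (3, 1) + f (3, 2) := by
  rw [Fintype.sum_prod_type, Fin.sum_univ_four, tg_sum3, tg_sum3, tg_sum3, tg_sum3]
  ring

theorem tg_eqs (x : ArrayPt → ZMod 3) (hx : x ∈ ternaryGolayCode) :
    ∃ s : ZMod 3,
      (∀ i : Fin 4, x (i, 0) + x (i, 1) + x (i, 2) = -s) ∧
      ∀ a b : ZMod 3, x (0, b) + x (1, a) + x (2, a + b) + x (3, a + 2 * b) = s := by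
  obtain ⟨s, h1, h2⟩ := hx
  refine ⟨s, fun i => ?_, fun a b => ?_⟩
  · rw [← h1 i]; exact (tg_sum3 (fun r => x (i, r))).symm
  · have ht : (![b, a, a + b, a + 2 * b] : Fin 4 → ZMod 3) ∈ tetracode := by
      have : (![b, a, a + b, a + 2 * b] : Fin 4 → ZMod 3)
          = a • ![0, 1, 1, 1] + b • ![1, 0, 1, 2] := by
        ext i; fin_cases i <;> simp <;> ring
      rw [this]
      exact Submodule.add_mem _ (Submodule.smul_mem _ _ (Submodule.subset_span (by simp)))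
        (Submodule.smul_mem _ _ (Submodule.subset_span (by simp)))
    have := h2 _ ht
    rw [Fin.sum_univ_four] at this
    exact this

theorem tg_h3 : (3 : ZMod 3) = 0 := by decide

theorem tg_decode (x : ArrayPt → ZMod 3) (hx : x ∈ ternaryGolayCode) :
    x = tgEnc (x (0, 0), x (0, 1), x (0, 2), x (1, 0), x (1, 1), x (2, 0)) := by
  obtain ⟨s, hC, hT⟩ := tg_eqs x hx
  have h3 := tg_h3
  have hC0 : x (0, 0) + x (0, 1) + x (0, 2) = -s := hC 0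
  have hC1 : x (1, 0) + x (1, 1) + x (1, 2) = -s := hC 1
  have hC2 : x (2, 0) + x (2, 1) + x (2, 2) = -s := hC 2
  have hC3 : x (3, 0) + x (3, 1) + x (3, 2) = -s := hC 3
  have hT00 : x (0, 0) + x (1, 0) + x (2, 0) + x (3, 0) = s := hT 0 0
  have hT01 : x (0, 1) + x (1, 0) + x (2, 1) + x (3, 2) = s := hT 0 1
  have hT02 : x (0, 2) + x (1, 0) + x (2, 2) + x (3, 1) = s := hT 0 2
  have hT10 : x (0, 0) + x (1, 1) + x (2, 1) + x (3, 1) = s := hT 1 0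
  have hT11 : x (0, 1) + x (1, 1) + x (2, 2) + x (3, 0) = s := hT 1 1
  have hT12 : x (0, 2) + x (1, 1) + x (2, 0) + x (3, 2) = s := hT 1 2
  have hT20 : x (0, 0) + x (1, 2) + x (2, 2) + x (3, 2) = s := hT 2 0
  have hT21 : x (0, 1) + x (1, 2) + x (2, 0) + x (3, 1) = s := hT 2 1
  have hT22 : x (0, 2) + x (1, 2) + x (2, 1) + x (3, 0) = s := hT 2 2
  have e12 : x (1, 2) = x (0, 0) + x (0, 1) + x (0, 2) + 2 * x (1, 0) + 2 * x (1, 1) := by
    linear_combination (-1) * hC0 + (1) * hC1 + ((-1) * x (1, 0) + (-1) * x (1, 1)) * h3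
  have e21 : x (2, 1) = 2 * x (0, 1) + x (0, 2) + 2 * x (1, 0) + x (1, 1) + x (2, 0) := by
    linear_combination (-1) * hC0 + (1) * hC3 + (-1) * hT00 + (-1) * hT01 + (-1) * hT10 + ((1) * x (0, 0) + (1) * x (2, 1) + (-1) * s) * h3
  have e22 : x (2, 2) = x (0, 0) + 2 * x (0, 1) + x (1, 0) + 2 * x (1, 1) + x (2, 0) := by
    linear_combination (1) * hC2 + (-1) * hC3 + (1) * hT00 + (1) * hT01 + (1) * hT10 + ((-1) * x (0, 0) + (-1) * x (0, 1) + (-1) * x (1, 0) + (-1) * x (1, 1) + (-1) * x (2, 0) + (-1) * x (2, 1) + (1) * s) * h3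
  have e30 : x (3, 0) = x (0, 0) + 2 * x (0, 1) + 2 * x (0, 2) + 2 * x (1, 0) + 2 * x (2, 0) := by
    linear_combination (1) * hC0 + (1) * hT00 + ((-1) * x (0, 0) + (-1) * x (0, 1) + (-1) * x (0, 2) + (-1) * x (1, 0) + (-1) * x (2, 0)) * h3
  have e31 : x (3, 1) = x (0, 0) + x (0, 2) + x (1, 0) + x (1, 1) + 2 * x (2, 0) := by
    linear_combination (-1) * hC0 + (-1) * hC3 + (1) * hT00 + (1) * hT01 + (-1) * hT10 + ((-1) * x (1, 0) + (-1) * x (2, 0) + (1) * x (3, 1) + (1) * s) * h3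
  have e32 : x (3, 2) = 2 * x (0, 0) + 2 * x (0, 1) + x (0, 2) + 2 * x (1, 1) + 2 * x (2, 0) := by
    linear_combination (-1) * hC0 + (-1) * hC3 + (1) * hT00 + (-1) * hT01 + (1) * hT10 + ((-1) * x (0, 0) + (-1) * x (1, 1) + (-1) * x (2, 0) + (1) * x (3, 2) + (1) * s) * h3
  funext p
  revert p
  exact tg_forall rfl rfl rfl rfl rfl e12 rfl e21 e22 e30 e31 e32

/-- decidable form of membership -/
theorem tg_enc_check : ∀ c : TGP, (∀ i : Fin 4, ∑ r : ZMod 3, tgEnc c (i, r) =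
      -(tgEnc c (0, 0) + tgEnc c (1, 0) + tgEnc c (2, 0) + tgEnc c (3, 0))) ∧
    ∀ a b : ZMod 3, ∑ i : Fin 4, tgEnc c (i, (a • ![0, 1, 1, 1] + b • ![1, 0, 1, 2] : Fin 4 → ZMod 3) i)
      = tgEnc c (0, 0) + tgEnc c (1, 0) + tgEnc c (2, 0) + tgEnc c (3, 0) := by
  decide +kernel

theorem tg_enc_mem (c : TGP) : tgEnc c ∈ ternaryGolayCode := by
  obtain ⟨h1, h2⟩ := tg_enc_check c
  refine ⟨_, h1, fun t ht => ?_⟩
  obtain ⟨a, b, rfl⟩ := Submodule.mem_span_pair.mp ht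
  exact h2 a b

/-- weight of a code word given by its parameters -/
def tgWt (c : TGP) : ℕ := (ternarySupport (tgEnc c)).card

theorem tg_wt_cases : ∀ c : TGP, c ≠ 0 → tgWt c = 6 ∨ tgWt c = 9 ∨ tgWt c = 12 := by
  decide +kernel

theorem tg_wt_counts : (Finset.univ.filter (fun c : TGP => tgWt c = 6)).card = 264 ∧
    (Finset.univ.filter (fun c : TGP => tgWt c = 9)).card = 440 ∧
    (Finset.univ.filter (fun c : TGP => tgWt c = 12)).card = 24 := by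
  decide +kernel

theorem tg_pairs : ∀ p q : ArrayPt, p ≠ q →
    ∃ w : TGP, tgEnc w p ≠ 0 ∧ tgEnc w q ≠ 0 ∧ tgWt w = 6 := by
  decide +kernel

theorem tg_enc_zero : tgEnc 0 = 0 := by
  funext p; revert p; decide

theorem tg_enc_info (c : TGP) : (tgEnc c (0, 0), tgEnc c (0, 1), tgEnc c (0, 2), tgEnc c (1, 0),
    tgEnc c (1, 1), tgEnc c (2, 0)) = c := rfl

theorem tg_enc_inj : Function.Injective tgEnc := by
  intro c d h
  rw [← tg_enc_info c, ← tg_enc_info d, h]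

theorem tg_mem_iff (x : ArrayPt → ZMod 3) : x ∈ ternaryGolayCode ↔ ∃ c : TGP, tgEnc c = x :=
  ⟨fun hx => ⟨_, (tg_decode x hx).symm⟩, fun ⟨c, hc⟩ => hc ▸ tg_enc_mem c⟩

/-- the ternary Golay code is parametrised by `TGP` -/
def tgEquiv : TGP ≃ ↥ternaryGolayCode where
  toFun c := ⟨tgEnc c, tg_enc_mem c⟩
  invFun x := (x.1 (0, 0), x.1 (0, 1), x.1 (0, 2), x.1 (1, 0), x.1 (1, 1), x.1 (2, 0))
  left_inv c := tg_enc_info c
  right_inv x := Subtype.ext (tg_decode x.1 x.2).symm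

theorem tg_card : Nat.card ↥ternaryGolayCode = 729 := by
  rw [← Nat.card_congr tgEquiv, Nat.card_eq_fintype_card]
  simp [ZMod.card]

theorem tg_wt_mem (x : ArrayPt → ZMod 3) (hx : x ∈ ternaryGolayCode) (hx0 : x ≠ 0) :
    (ternarySupport x).card = 6 ∨ (ternarySupport x).card = 9 ∨ (ternarySupport x).card = 12 := by
  obtain ⟨c, rfl⟩ := (tg_mem_iff x).mp hx
  have hc : c ≠ 0 := by
    rintro rfl
    exact hx0 tg_enc_zero
  exact tg_wt_cases c hc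

theorem tg_ncard (Q : ℕ → Prop) [DecidablePred Q] :
    {x : ArrayPt → ZMod 3 | x ∈ ternaryGolayCode ∧ Q (ternarySupport x).card}.ncard
      = (Finset.univ.filter (fun c : TGP => Q (tgWt c))).card := by
  have : {x : ArrayPt → ZMod 3 | x ∈ ternaryGolayCode ∧ Q (ternarySupport x).card}
      = tgEnc '' ↑(Finset.univ.filter (fun c : TGP => Q (tgWt c))) := by
    ext x
    simp only [Set.mem_setOf_eq, Set.mem_image, Finset.coe_filter, Finset.mem_univ, true_and]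
    constructor
    · rintro ⟨hx, hq⟩
      obtain ⟨c, rfl⟩ := (tg_mem_iff x).mp hx
      exact ⟨c, hq, rfl⟩
    · rintro ⟨c, hq, rfl⟩
      exact ⟨tg_enc_mem c, hq⟩
  rw [this, Set.ncard_image_of_injective _ tg_enc_inj, Set.ncard_coe_finset]

end Cfsg.Agent.Helper11
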