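import Cfsg.Agent.Helper11.TGolay

set_option autoImplicit false
set_option linter.constructorNameAsVariable false

namespace Cfsg.Agent.Helper11

open Cfsg

theorem tg_mem_supp {x : ArrayPt → ZMod 3} {p : ArrayPt} : p ∈ ternarySupport x ↔ x p ≠ 0 := by
  simp [ternarySupport]

theorem tg_supp_neg (x : ArrayPt → ZMod 3) : ternarySupport (-x) = ternarySupport x := by
  ext p; simp [ternarySupport]

/-- two weight-6 words whose supports share five points are equal up to sign -/
theorem tg_pm (x y : ArrayPt → ZMod 3) (hx : x ∈ ternaryGolayCode) (hy : y ∈ ternaryGolayCode)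
    (hx6 : (ternarySupport x).card = 6) (hy6 : (ternarySupport y).card = 6)
    (s : Finset ArrayPt) (hs : s.card = 5) (hsx : s ⊆ ternarySupport x)
    (hsy : s ⊆ ternarySupport y) : y = x ∨ y = -x := by
  have f1 : ∀ a b : ZMod 3, a ≠ 0 → b ≠ 0 → a + b ≠ 0 → a - b = 0 := by decide
  obtain ⟨U, hU⟩ : ∃ U, U = ternarySupport x ∪ ternarySupport y := ⟨_, rfl⟩
  have hUcard : U.card ≤ 7 := by
    have h1 := Finset.card_union_add_card_inter (ternarySupport x) (ternarySupport y)
    have h2 : s.card ≤ (ternarySupport x ∩ ternarySupport y).card :=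
      Finset.card_le_card (Finset.subset_inter hsx hsy)
    rw [← hU] at h1
    omega
  have hsU : s ⊆ U := by rw [hU]; exact hsx.trans Finset.subset_union_left
  have hAB := Finset.card_filter_add_card_filter_not (s := s) (fun p => x p + y p = 0)
  obtain ⟨A, hA⟩ : ∃ A, A = s.filter (fun p => x p + y p = 0) := ⟨_, rfl⟩
  obtain ⟨B, hB⟩ : ∃ B, B = s.filter (fun p => ¬ (x p + y p = 0)) := ⟨_, rfl⟩
  rw [← hA, ← hB, hs] at hAB
  have hAU : A ⊆ U := by rw [hA]; exact (Finset.filter_subset _ _).trans hsU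
  have hBU : B ⊆ U := by rw [hB]; exact (Finset.filter_subset _ _).trans hsU
  have hu : ternarySupport (x + y) ⊆ U \ A := by
    intro p hp
    rw [tg_mem_supp] at hp
    rw [Finset.mem_sdiff]
    constructor
    · rw [hU, Finset.mem_union, tg_mem_supp, tg_mem_supp]
      by_contra hcon
      rw [not_or, not_not, not_not] at hcon
      apply hp
      show x p + y p = 0
      rw [hcon.1, hcon.2, add_zero]
    · intro hpA
      rw [hA, Finset.mem_filter] at hpA
      exact hp hpA.2
  have hv : ternarySupport (x - y) ⊆ U \ B := by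
    intro p hp
    rw [tg_mem_supp] at hp
    rw [Finset.mem_sdiff]
    constructor
    · rw [hU, Finset.mem_union, tg_mem_supp, tg_mem_supp]
      by_contra hcon
      rw [not_or, not_not, not_not] at hcon
      apply hp
      show x p - y p = 0
      rw [hcon.1, hcon.2, sub_zero]
    · intro hpB
      rw [hB, Finset.mem_filter] at hpB
      apply hp
      exact f1 _ _ (tg_mem_supp.mp (hsx hpB.1)) (tg_mem_supp.mp (hsy hpB.1)) hpB.2
  have hu' := Finset.card_le_card hu
  have hv' := Finset.card_le_card hv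
  have hA' := Finset.card_sdiff_add_card_eq_card hAU
  have hB' := Finset.card_sdiff_add_card_eq_card hBU
  by_cases hu0 : x + y = 0
  · right
    exact eq_neg_of_add_eq_zero_right hu0
  · by_cases hv0 : x - y = 0
    · left
      exact (sub_eq_zero.mp hv0).symm
    · exfalso
      have h1 := tg_wt_mem _ (Submodule.add_mem _ hx hy) hu0
      have h2 := tg_wt_mem _ (Submodule.sub_mem _ hx hy) hv0
      omega

/-- the hexads of the ternary Golay code -/
def tgHex : Finset (Finset ArrayPt) :=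
  (Finset.univ.filter (fun c : TGP => tgWt c = 6)).image (fun c => ternarySupport (tgEnc c))

theorem tg_mem_hex {b : Finset ArrayPt} :
    b ∈ tgHex ↔ ∃ c : TGP, tgWt c = 6 ∧ ternarySupport (tgEnc c) = b := by
  simp [tgHex]

theorem tg_hex_set : {h : Finset ArrayPt | ∃ x ∈ ternaryGolayCode,
    ternarySupport x = h ∧ h.card = 6} = ↑tgHex := by
  ext h
  rw [Finset.mem_coe, tg_mem_hex]
  constructor
  · rintro ⟨x, hx, rfl, h6⟩
    obtain ⟨c, rfl⟩ := (tg_mem_iff x).mp hx
    exact ⟨c, h6, rfl⟩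
  · rintro ⟨c, h6, rfl⟩
    exact ⟨tgEnc c, tg_enc_mem c, rfl, h6⟩

theorem tg_hex_unique (b b' : Finset ArrayPt) (hb : b ∈ tgHex) (hb' : b' ∈ tgHex)
    (s : Finset ArrayPt) (hs : s.card = 5) (hsb : s ⊆ b) (hsb' : s ⊆ b') : b = b' := by
  obtain ⟨c, hc, rfl⟩ := tg_mem_hex.mp hb
  obtain ⟨d, hd, rfl⟩ := tg_mem_hex.mp hb'
  rcases tg_pm (tgEnc c) (tgEnc d) (tg_enc_mem c) (tg_enc_mem d) hc hd s hs hsb hsb' with h | h
  · rw [h]
  · rw [h, tg_supp_neg]

theorem tg_fiber_le (b : Finset ArrayPt) (hb : b ∈ tgHex) :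
    ((Finset.univ.filter (fun c : TGP => tgWt c = 6)).filter
      (fun c => ternarySupport (tgEnc c) = b)).card ≤ 2 := by
  obtain ⟨c0, hc0, rfl⟩ := tg_mem_hex.mp hb
  obtain ⟨s, hs, hs5⟩ := Finset.exists_subset_card_eq
    (show 5 ≤ (ternarySupport (tgEnc c0)).card by
      rw [show (ternarySupport (tgEnc c0)).card = 6 from hc0]; norm_num)
  refine (Finset.card_le_card_of_injOn tgEnc ?_ tg_enc_inj.injOn).trans
    (Finset.card_le_two (a := tgEnc c0) (b := -tgEnc c0))
  intro c hc
  rw [Finset.mem_coe, Finset.mem_filter, Finset.mem_filter] at hc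
  obtain ⟨⟨-, hc6⟩, hceq⟩ := hc
  rw [Finset.mem_coe, Finset.mem_insert, Finset.mem_singleton]
  exact tg_pm (tgEnc c0) (tgEnc c) (tg_enc_mem c0) (tg_enc_mem c) hc0 hc6 s hs5 hs (hceq ▸ hs)

theorem tg_hex_card_ge : 132 ≤ tgHex.card := by
  have h1 := Finset.card_eq_sum_card_image (fun c : TGP => ternarySupport (tgEnc c))
    (Finset.univ.filter (fun c : TGP => tgWt c = 6))
  have h2 : ∑ b ∈ tgHex, ((Finset.univ.filter (fun c : TGP => tgWt c = 6)).filter
      (fun c => ternarySupport (tgEnc c) = b)).card ≤ tgHex.card • 2 :=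
    Finset.sum_le_card_nsmul _ _ _ tg_fiber_le
  rw [tg_wt_counts.1] at h1
  have h3 : (264 : ℕ) ≤ tgHex.card • 2 := by rw [h1]; exact h2
  rw [smul_eq_mul] at h3
  omega

theorem tg_arr_card : Fintype.card ArrayPt = 12 := by
  simp [ZMod.card]

theorem tg_biU_card :
    (tgHex.biUnion (fun b => Finset.powersetCard 5 b)).card = tgHex.card * 6 := by
  rw [Finset.card_biUnion]
  · rw [Finset.sum_const_nat (m := 6)]
    intro b hb
    obtain ⟨c, hc, rfl⟩ := tg_mem_hex.mp hb
    rw [Finset.card_powersetCard, show (ternarySupport (tgEnc c)).card = 6 from hc]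
    rfl
  · intro b hb b' hb' hne
    exact Finset.disjoint_left.mpr (fun s hs hs' => by
      rw [Finset.mem_powersetCard] at hs hs'
      exact hne (tg_hex_unique b b' hb hb' s hs.2 hs.1 hs'.1))

theorem tg_biU_sub : tgHex.biUnion (fun b => Finset.powersetCard 5 b)
    ⊆ Finset.powersetCard 5 Finset.univ := by
  intro s hs
  rw [Finset.mem_biUnion] at hs
  obtain ⟨b, -, hsb⟩ := hs
  rw [Finset.mem_powersetCard] at hsb ⊢
  exact ⟨Finset.subset_univ _, hsb.2⟩

theorem tg_choose : Nat.choose 12 5 = 792 := by rfl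

theorem tg_hex_card : tgHex.card = 132 := by
  have h1 := Finset.card_le_card tg_biU_sub
  rw [tg_biU_card, Finset.card_powersetCard, Finset.card_univ, tg_arr_card, tg_choose] at h1
  have h3 := tg_hex_card_ge
  omega

theorem tg_hex_exists (s : Finset ArrayPt) (hs : s.card = 5) : ∃ b ∈ tgHex, s ⊆ b := by
  have heq : tgHex.biUnion (fun b => Finset.powersetCard 5 b)
      = Finset.powersetCard 5 Finset.univ := by
    apply Finset.eq_of_subset_of_card_le tg_biU_sub
    rw [tg_biU_card, tg_hex_card, Finset.card_powersetCard, Finset.card_univ, tg_arr_card,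
      tg_choose]
  have hmem : s ∈ Finset.powersetCard 5 (Finset.univ : Finset ArrayPt) :=
    Finset.mem_powersetCard.mpr ⟨Finset.subset_univ _, hs⟩
  rw [← heq, Finset.mem_biUnion] at hmem
  obtain ⟨b, hb, hsb⟩ := hmem
  exact ⟨b, hb, (Finset.mem_powersetCard.mp hsb).1⟩

theorem tg_steiner : IsSteinerSystem 5 6 {h : Finset ArrayPt | ∃ x ∈ ternaryGolayCode,
      ternarySupport x = h ∧ h.card = 6} ∧
    {h : Finset ArrayPt | ∃ x ∈ ternaryGolayCode,
      ternarySupport x = h ∧ h.card = 6}.ncard = 132 := by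
  rw [tg_hex_set]
  refine ⟨⟨?_, ?_⟩, ?_⟩
  · intro b hb
    obtain ⟨c, hc, rfl⟩ := tg_mem_hex.mp (Finset.mem_coe.mp hb)
    exact hc
  · intro s hs
    obtain ⟨b, hb, hsb⟩ := tg_hex_exists s hs
    refine ⟨b, ⟨Finset.mem_coe.mpr hb, hsb⟩, ?_⟩
    rintro b' ⟨hb', hsb'⟩
    exact tg_hex_unique b' b (Finset.mem_coe.mp hb') hb s hs hsb' hsb
  · rw [Set.ncard_coe_finset, tg_hex_card]

end Cfsg.Agent.Helper11
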